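import Mathlib
import Cfsg.Agent.Helper13.TIDefs
import Cfsg.Agent.Helper58.TICW
import Cfsg.Agent.Helper3.TISQTI

set_option autoImplicit false

namespace Cfsg.Agent.Helper20.TI5955

open Module Polynomial
open Cfsg.Agent.Helper42.SpForm Cfsg.Agent.Helper42.SpGroup Cfsg.Agent.Helper42.SpModels
open Cfsg.Agent.Helper13.TIsp Cfsg.Agent.Helper90.BG

variable {F : Type*} [Field F] {V : Type*} [AddCommGroup V] [Module F V] [FiniteDimensional F V]
  (B : LinearMap.BilinForm F V)

theorem b2m_aeval (T : Module.End F V) (hT2 : T ^ 2 = -1) :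
    aeval T ((X : F[X]) ^ 2 + 1) = 0 := by
  simp [hT2]

theorem b2m_poly_ne_zero : ((X : F[X]) ^ 2 + 1) ≠ 0 := by
  intro h
  have h1 := congrArg (fun p : F[X] => p.coeff 2) h
  simp [coeff_X_pow, coeff_one] at h1

/-- a one-dimensional subspace is totally isotropic for an alternating form -/
theorem b2m_ti_of_finrank_one (halt : ∀ v, B v v = 0) (W : Submodule F V)
    (hW : finrank F W = 1) : TI B W := by
  obtain ⟨v, -, hv⟩ := finrank_eq_one_iff'.1 hW
  intro u hu w hw
  obtain ⟨a, ha⟩ := hv ⟨u, hu⟩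
  obtain ⟨b, hb⟩ := hv ⟨w, hw⟩
  have hu' : u = a • (v : V) := by
    have := congrArg Subtype.val ha
    simpa using this.symm
  have hw' : w = b • (v : V) := by
    have := congrArg Subtype.val hb
    simpa using this.symm
  rw [hu', hw']
  simp [halt]

theorem b2m_deg_one (c : F) (hc : (-1 : F) = c * c) :
    ∀ g : F[X], Irreducible g → g ∣ (X : F[X]) ^ 2 + 1 → g.natDegree = 1 := by
  intro g hg hdvd
  have hfac : (X : F[X]) ^ 2 + 1 = (X - C c) * (X - C (-c)) := by
    have h1 : (X - C c) * (X - C (-c)) = (X : F[X]) ^ 2 - C (c * c) := by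
      rw [C_neg, C_mul]; ring
    rw [h1, ← hc, C_neg, C_1]; ring
  rw [hfac] at hdvd
  rcases hg.prime.dvd_mul.1 hdvd with h | h
  · rw [natDegree_eq_of_assoc (hg.associated_of_dvd (irreducible_X_sub_C c) h), natDegree_X_sub_C]
  · rw [natDegree_eq_of_assoc (hg.associated_of_dvd (irreducible_X_sub_C (-c)) h),
      natDegree_X_sub_C]

theorem b2m_deg_two (hns : ¬ IsSquare (-1 : F)) :
    ∀ g : F[X], Irreducible g → g ∣ (X : F[X]) ^ 2 + 1 → g.natDegree = 2 := by
  intro g hg hdvd
  have hle : g.natDegree ≤ 2 := by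
    have h1 := natDegree_le_of_dvd hdvd b2m_poly_ne_zero
    have h2 : ((X : F[X]) ^ 2 + 1).natDegree ≤ 2 := by
      refine natDegree_add_le_of_degree_le (natDegree_X_pow_le 2) ?_
      simp
    omega
  have hpos : 0 < g.natDegree := hg.natDegree_pos
  by_contra hne
  have h1 : g.natDegree = 1 := by omega
  have hdeg : g.degree = 1 := by
    rw [degree_eq_natDegree hg.ne_zero, h1]; rfl
  obtain ⟨c, hc⟩ := exists_root_of_degree_eq_one hdeg
  have hroot : ((X : F[X]) ^ 2 + 1).IsRoot c := hc.dvd hdvd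
  have h3 : c ^ 2 + 1 = 0 := by simpa [IsRoot] using hroot
  exact hns ⟨c, by linear_combination -h3⟩

/-- Core of B2M: the conclusion of MAXTI (`N = 4`, `D = ⊤`) is a hypothesis. -/
theorem ti_b2m_core [Fintype F] (halt : ∀ v, B v v = 0)
    (T : Module.End F V) (hT : Preserves B T) (hT2 : T ^ 2 = -1) (d m : ℕ)
    (hdim : finrank F V = 2 * d) (hmd : m ≤ d) (hm : Even m ∨ IsSquare (-1 : F))
    (W₀ U : Submodule F V) (hW₀ : TI B W₀) (hW₀T : W₀.map T ≤ W₀) (hUT : U.map T ≤ U)
    (hfr : finrank F V = 2 * finrank F W₀ + finrank F U)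
    (hmax : ∀ W' : Submodule F V, W' ≤ U → TI B W' → W'.map T ≤ W' → W' = ⊥) :
    ∃ W : Submodule F V, finrank F W = m ∧ TI B W ∧ W.map T ≤ W := by
  classical
  have hP0 : ((X : F[X]) ^ 2 + 1) ≠ 0 := b2m_poly_ne_zero
  have hPW : ∀ (W : Submodule F V), ∀ v ∈ W, aeval T ((X : F[X]) ^ 2 + 1) v ∈ (⊥ : Submodule F V) := by
    intro W v _
    rw [b2m_aeval T hT2]; simp
  have hbotT : (⊥ : Submodule F V).map T ≤ ⊥ := by simp
  -- `dim U ≤ 2`
  have hU2 : finrank F U ≤ 2 := by
    by_contra hcon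
    have h1 : 2 * ({1} : Finset ℕ).card < finrank F U := by simp; omega
    obtain ⟨v, hvU, hv0, hv⟩ := Cfsg.Agent.Helper58.TI5955.ti_cw B T U {1} h1
    have hv1 : B v (T v) = 0 := by
      have := hv 1 (Finset.mem_singleton_self 1)
      simpa using this
    obtain ⟨hti, hinv⟩ := Cfsg.Agent.Helper3.TI5955.ti_sq B halt T hT hT2 v hv1
    have hle : Submodule.span F {v, T v} ≤ U := by
      rw [Submodule.span_le]
      intro x hx
      rcases hx with rfl | hx
      · exact hvU
      · rw [Set.mem_singleton_iff] at hx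
        rw [hx]; exact hUT (Submodule.mem_map_of_mem hvU)
    have hbot := hmax _ hle hti hinv
    have hvmem : v ∈ Submodule.span F {v, T v} := Submodule.subset_span (Set.mem_insert _ _)
    rw [hbot] at hvmem
    exact hv0 ((Submodule.mem_bot F).1 hvmem)
  rcases hm with hm | hsq
  · by_cases hsq : IsSquare (-1 : F)
    · -- fall through to the square case below
      obtain ⟨c, hc⟩ := hsq
      have hd1 := b2m_deg_one c hc
      have hU0 : finrank F U = 0 := by
        by_contra hne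
        obtain ⟨U', -, hU'U, hU'T, hU'fr⟩ := chain_exists T ⊥ U bot_le hbotT hUT _ hP0
          (hPW U) 1 hd1 1 (by rw [finrank_bot]; omega)
        rw [finrank_bot] at hU'fr
        have hti : TI B U' := b2m_ti_of_finrank_one B halt U' (by omega)
        have hbot := hmax U' hU'U hti hU'T
        rw [hbot, finrank_bot] at hU'fr
        omega
      obtain ⟨W, -, hWW₀, hWT, hWfr⟩ := chain_exists T ⊥ W₀ bot_le hbotT hW₀T _ hP0
        (hPW W₀) 1 hd1 m (by rw [finrank_bot]; omega)
      rw [finrank_bot] at hWfr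
      exact ⟨W, by omega, fun u hu w hw => hW₀ u (hWW₀ hu) w (hWW₀ hw), hWT⟩
    · have hd2 := b2m_deg_two hsq
      have hev : 2 ∣ finrank F W₀ := by
        have h3 := chain_dvd T W₀ hW₀T _ hP0 2 hd2 (finrank F W₀ - finrank F (⊥ : Submodule F V))
          ⊥ bot_le hbotT (hPW W₀) rfl
        rwa [finrank_bot, Nat.sub_zero] at h3
      obtain ⟨k, hk⟩ := hm
      obtain ⟨j, hj⟩ := hev
      obtain ⟨W, -, hWW₀, hWT, hWfr⟩ := chain_exists T ⊥ W₀ bot_le hbotT hW₀T _ hP0
        (hPW W₀) 2 hd2 k (by rw [finrank_bot]; omega)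
      rw [finrank_bot] at hWfr
      exact ⟨W, by omega, fun u hu w hw => hW₀ u (hWW₀ hu) w (hWW₀ hw), hWT⟩
  · obtain ⟨c, hc⟩ := hsq
    have hd1 := b2m_deg_one c hc
    have hU0 : finrank F U = 0 := by
      by_contra hne
      obtain ⟨U', -, hU'U, hU'T, hU'fr⟩ := chain_exists T ⊥ U bot_le hbotT hUT _ hP0
        (hPW U) 1 hd1 1 (by rw [finrank_bot]; omega)
      rw [finrank_bot] at hU'fr
      have hti : TI B U' := b2m_ti_of_finrank_one B halt U' (by omega)
      have hbot := hmax U' hU'U hti hU'T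
      rw [hbot, finrank_bot] at hU'fr
      omega
    obtain ⟨W, -, hWW₀, hWT, hWfr⟩ := chain_exists T ⊥ W₀ bot_le hbotT hW₀T _ hP0
      (hPW W₀) 1 hd1 m (by rw [finrank_bot]; omega)
    rw [finrank_bot] at hWfr
    exact ⟨W, by omega, fun u hu w hw => hW₀ u (hWW₀ hu) w (hWW₀ hw), hWT⟩

end Cfsg.Agent.Helper20.TI5955
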