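import Mathlib
import Cfsg.Agent.Helper13.TIDefs
import Cfsg.Agent.Helper59.TIMAXTI
import Cfsg.Agent.Helper20.TIB2MCore

set_option autoImplicit false

namespace Cfsg.Agent.Helper20.TI5955

open Module Polynomial
open Cfsg.Agent.Helper42.SpForm Cfsg.Agent.Helper42.SpGroup Cfsg.Agent.Helper42.SpModels
open Cfsg.Agent.Helper13.TIsp Cfsg.Agent.Helper90.BG

variable {F : Type*} [Field F] {V : Type*} [AddCommGroup V] [Module F V] [FiniteDimensional F V]
  (B : LinearMap.BilinForm F V)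

/-- B2M (uses MAXTI with N = 4, CW with s = {1}, SQTI, chain_exists, dvd_finrank_of_irreducible) -/
theorem ti_b2m [Fintype F] (halt : ∀ v, B v v = 0) (hnd : ∀ v, (∀ w, B v w = 0) → v = 0)
    (T : Module.End F V) (hT : Preserves B T) (h2 : (2 : F) ≠ 0) (hT2 : T ^ 2 = -1) (d m : ℕ)
    (hdim : finrank F V = 2 * d) (hmd : m ≤ d) (hm : Even m ∨ IsSquare (-1 : F)) :
    ∃ W : Submodule F V, finrank F W = m ∧ TI B W ∧ W.map T ≤ W := by
  have hN : ((4 : ℕ) : F) ≠ 0 := by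
    have h4 : ((4 : ℕ) : F) = 2 * 2 := by norm_num
    rw [h4]; exact mul_ne_zero h2 h2
  have hT4 : T ^ 4 = 1 := by
    have h4 : T ^ 4 = (T ^ 2) ^ 2 := by rw [← pow_mul]
    rw [h4, hT2]; simp
  have hD : NondegOn B (⊤ : Submodule F V) := fun v _ h => hnd v (fun w => h w trivial)
  obtain ⟨W₀, U, -, -, hW₀, hW₀T, hUT, hfr, hmax⟩ :=
    Cfsg.Agent.Helper59.TI5955.ti_max B halt T hT 4 hN hT4 ⊤ le_top hD
  rw [finrank_top] at hfr
  exact ti_b2m_core B halt T hT hT2 d m hdim hmd hm W₀ U hW₀ hW₀T hUT hfr hmax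

end Cfsg.Agent.Helper20.TI5955
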