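import Mathlib
import Cfsg.Agent.Helper13.TLDefs

set_option autoImplicit false

namespace Cfsg.Agent.Helper20.TI5954

open Module Polynomial
open Cfsg.Agent.Helper13.TIu Cfsg.Agent.Helper13.TIsp

section std

variable {F : Type*} [Field F] {σ : F →+* F}

theorem u_bad_atom [Fintype F] (q : ℕ) (hq : Fintype.card F = q ^ 2) (hσ : ∀ a, σ a = a ^ q)
    (r : ℕ) [Fact r.Prime] (c : ℕ) (hc0 : 0 < c) (hdiv : (r : ℤ) ∣ (q : ℤ) ^ c - (-1) ^ c) :
    ∃ T : Module.End F (Fin c → F), UPres (stdH σ c) T ∧ T ^ r = 1 ∧ T ≠ 1 := by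
  classical
  have hr : (Fact.out : r.Prime) = (Fact.out : r.Prime) := rfl
  have hcard := Cfsg.Agent.Helper44.card_GU (K := F) hq c
  have hdvd : (r : ℤ) ∣ (Nat.card ↥(Cfsg.GU c F q) : ℤ) := by
    rw [hcard]
    apply Dvd.dvd.mul_left
    have h1 : ((q : ℤ) ^ (((⟨c - 1, by omega⟩ : Fin c) : ℕ) + 1) -
        (-1) ^ (((⟨c - 1, by omega⟩ : Fin c) : ℕ) + 1)) ∣
        ∏ i : Fin c, ((q : ℤ) ^ ((i : ℕ) + 1) - (-1) ^ ((i : ℕ) + 1)) :=
      Finset.dvd_prod_of_mem (fun i : Fin c => ((q : ℤ) ^ ((i : ℕ) + 1) - (-1) ^ ((i : ℕ) + 1)))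
        (Finset.mem_univ _)
    have h2 : c - 1 + 1 = c := by omega
    simp only [h2] at h1
    exact dvd_trans hdiv h1
  have hdvd' : r ∣ Nat.card ↥(Cfsg.GU c F q) := Int.natCast_dvd_natCast.mp hdvd
  obtain ⟨g, hg⟩ := exists_prime_orderOf_dvd_card' (G := ↥(Cfsg.GU c F q)) r hdvd'
  refine ⟨Matrix.toLinAlgEquiv' ((g : Matrix.GeneralLinearGroup (Fin c) F) : Matrix (Fin c) (Fin c) F),
    ?_, ?_, ?_⟩
  · intro u v
    have hmem := g.2
    have h3 : ∀ x y : Fin c → F, stdH σ c x y = Cfsg.hermForm c F q y x := by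
      intro x y
      show Cfsg.Agent.Helper44.hBg σ (Fin c) x y = _
      rw [Cfsg.Agent.Helper44.hBg_apply, Cfsg.Agent.Helper44.hfg_eq_hermForm σ hσ]
    rw [h3, h3, Matrix.toLinAlgEquiv'_apply, Matrix.toLinAlgEquiv'_apply]
    exact hmem v u
  · rw [← map_pow]
    have h4 : g ^ r = 1 := by rw [← hg]; exact pow_orderOf_eq_one g
    have h5 : (((g : Matrix.GeneralLinearGroup (Fin c) F) : Matrix (Fin c) (Fin c) F)) ^ r = 1 := by
      have h6 := congrArg (fun x : ↥(Cfsg.GU c F q) =>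
        ((x : Matrix.GeneralLinearGroup (Fin c) F) : Matrix (Fin c) (Fin c) F)) h4
      simpa using h6
    rw [h5, map_one]
  · intro h7
    have h8 : (((g : Matrix.GeneralLinearGroup (Fin c) F) : Matrix (Fin c) (Fin c) F)) = 1 := by
      apply Matrix.toLinAlgEquiv'.injective
      rw [h7, map_one]
    have h9 : g = 1 := by
      apply Subtype.ext
      apply Units.ext
      exact h8
    rw [h9, orderOf_one] at hg
    exact (Fact.out : r.Prime).one_lt.ne hg
    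
end std

end Cfsg.Agent.Helper20.TI5954
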