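import Mathlib
import Cfsg.Agent.Helper13.TLDefs
import Cfsg.Agent.Helper31.TLUDSUM

set_option autoImplicit false

namespace Cfsg.Agent.Helper20.TI5954

open Module Polynomial
open Cfsg.Agent.Helper13.TIu Cfsg.Agent.Helper13.TIsp

section std2

variable {F : Type*} [Field F] {σ : F →+* F}

theorem u_bad_sum (r : ℕ) (n₁ n₂ : ℕ) (T₁ : Module.End F (Fin n₁ → F))
    (T₂ : Module.End F (Fin n₂ → F)) (h₁ : UPres (stdH σ n₁) T₁) (h₂ : UPres (stdH σ n₂) T₂)
    (hr₁ : T₁ ^ r = 1) (hr₂ : T₂ ^ r = 1) :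
    ∃ T : Module.End F (Fin (n₁ + n₂) → F), UPres (stdH σ (n₁ + n₂)) T ∧ T ^ r = 1 ∧
      finrank F (LinearMap.ker (T - 1)) =
        finrank F (LinearMap.ker (T₁ - 1)) + finrank F (LinearMap.ker (T₂ - 1)) ∧
      (T₁ ≠ 1 → T ≠ 1) := by
  classical
  obtain ⟨T, Φ, hT, hΦ, -⟩ := Cfsg.Agent.Helper31.TI5954.u_dsum (σ := σ) n₁ n₂ T₁ T₂ h₁ h₂
  have hpow : ∀ (k : ℕ) (x : (Fin n₁ → F) × (Fin n₂ → F)),
      (T ^ k) (Φ x) = Φ ((T₁ ^ k) x.1, (T₂ ^ k) x.2) := by
    intro k
    induction k with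
    | zero => intro x; simp
    | succ k ih =>
      intro x
      rw [pow_succ', Module.End.mul_apply, ih, hΦ, pow_succ', pow_succ']
      rfl
  refine ⟨T, hT, ?_, ?_, ?_⟩
  · apply LinearMap.ext
    intro y
    obtain ⟨x, rfl⟩ := Φ.surjective y
    rw [hpow, hr₁, hr₂]
    rfl
  · have hker : LinearMap.ker (T - 1) =
        Submodule.map (Φ : ((Fin n₁ → F) × (Fin n₂ → F)) →ₗ[F] (Fin (n₁ + n₂) → F))
          (Submodule.prod (LinearMap.ker (T₁ - 1)) (LinearMap.ker (T₂ - 1))) := by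
      ext y
      obtain ⟨x, rfl⟩ := Φ.surjective y
      rw [LinearMap.mem_ker, LinearMap.sub_apply, sub_eq_zero, hΦ, Module.End.one_apply]
      constructor
      · intro h
        have h' := Φ.injective h
        refine ⟨x, ?_, rfl⟩
        rw [SetLike.mem_coe, Submodule.mem_prod, LinearMap.mem_ker, LinearMap.mem_ker,
          LinearMap.sub_apply, LinearMap.sub_apply, sub_eq_zero, sub_eq_zero, Module.End.one_apply,
          Module.End.one_apply]
        exact ⟨congrArg Prod.fst h', congrArg Prod.snd h'⟩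
      · rintro ⟨x', hx', hxx⟩
        have hx'' : x' = x := Φ.injective hxx
        subst hx''
        rw [SetLike.mem_coe, Submodule.mem_prod, LinearMap.mem_ker, LinearMap.mem_ker,
          LinearMap.sub_apply, LinearMap.sub_apply, sub_eq_zero, sub_eq_zero, Module.End.one_apply,
          Module.End.one_apply] at hx'
        congr 1
        exact Prod.ext hx'.1 hx'.2
    have e : ∀ (P : Submodule F (Fin n₁ → F)) (Q : Submodule F (Fin n₂ → F)),
        Nonempty (↥(Submodule.prod P Q) ≃ₗ[F] ↥P × ↥Q) := fun P Q =>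
      ⟨{ toFun := fun x => (⟨x.1.1, x.2.1⟩, ⟨x.1.2, x.2.2⟩)
         map_add' := fun _ _ => rfl
         map_smul' := fun _ _ => rfl
         invFun := fun y => ⟨(y.1.1, y.2.1), ⟨y.1.2, y.2.2⟩⟩
         left_inv := fun _ => rfl
         right_inv := fun _ => rfl }⟩
    obtain ⟨e'⟩ := e (LinearMap.ker (T₁ - 1)) (LinearMap.ker (T₂ - 1))
    rw [hker, LinearEquiv.finrank_map_eq, e'.finrank_eq, Module.finrank_prod]
  · intro hne h1
    apply hne
    apply LinearMap.ext
    intro y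
    have h2 := hΦ (y, 0)
    rw [h1, Module.End.one_apply] at h2
    have h3 := Φ.injective h2
    have h4 := congrArg Prod.fst h3
    exact h4.symm

end std2

end Cfsg.Agent.Helper20.TI5954
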