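import Mathlib
import Cfsg.Agent.Helper13.TLDefs

set_option autoImplicit false

namespace Cfsg.Agent.Helper20.TI5954

open Module Polynomial
open Cfsg.Agent.Helper13.TIu Cfsg.Agent.Helper13.TIsp

section geom

variable {F : Type*} [Field F] {σ : F →+* F} {V : Type*} [AddCommGroup V] [Module F V]
  [FiniteDimensional F V] (B : V →ₛₗ[σ] V →ₗ[F] F)

theorem u_free_count [Finite F] (T : Module.End F V) (r : ℕ) [Fact r.Prime] (hTr : T ^ r = 1)
    (S : Set V) (hST : ∀ v ∈ S, T v ∈ S) (hfree : ∀ v ∈ S, T v ≠ v) : r ∣ Nat.card S := by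
  classical
  rcases finite_or_infinite S with hfin | hinf
  · haveI : Fintype S := Fintype.ofFinite S
    let f : Function.End S := fun v => ⟨T v.1, hST v.1 v.2⟩
    have hpow : ∀ (k : ℕ) (v : S), (((f ^ k) v : S) : V) = (T ^ k) v.1 := by
      intro k
      induction k with
      | zero => intro v; rw [pow_zero, pow_zero]; rfl
      | succ k ih =>
        intro v
        rw [pow_succ', pow_succ']
        show (f ((f ^ k) v) : V) = (T * T ^ k) v.1
        show T ((f ^ k) v : V) = T ((T ^ k) v.1)
        rw [ih]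
    have hf : f ^ r ^ 1 = 1 := by
      rw [pow_one]
      funext v
      apply Subtype.ext
      rw [hpow, hTr]
      rfl
    have h1 := Equiv.Perm.card_fixedPoints_modEq (p := r) (n := 1) hf
    have h2 : Fintype.card (Function.fixedPoints f) = 0 := by
      rw [Fintype.card_eq_zero_iff]
      refine ⟨fun ⟨v, hv⟩ => ?_⟩
      have h3 : f v = v := hv
      have h4 : T v.1 = v.1 := congrArg Subtype.val h3
      exact hfree v.1 v.2 h4
    rw [h2] at h1
    rw [Nat.card_eq_fintype_card]
    exact (Nat.modEq_zero_iff_dvd).mp h1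
  · rw [Nat.card_eq_zero_of_infinite]
    exact dvd_zero r

end geom

end Cfsg.Agent.Helper20.TI5954
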