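import Mathlib
import Cfsg.Agent.Helper13.TLDefs

set_option autoImplicit false

namespace Cfsg.Agent.Helper20.TI5954

open Module Polynomial
open Cfsg.Agent.Helper13.TIu Cfsg.Agent.Helper13.TIsp

section geom

variable {F : Type*} [Field F] {σ : F →+* F} {V : Type*} [AddCommGroup V] [Module F V]
  [FiniteDimensional F V] (B : V →ₛₗ[σ] V →ₗ[F] F)

theorem u_xfer [Finite F] (hσ2 : ∀ a, σ (σ a) = a) (hσne : σ ≠ RingHom.id F) (hS : B.IsSymm)
    (hnd : UNd B ⊤) (n : ℕ) (hn : finrank F V = n) :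
    ∃ Φ : V ≃ₗ[F] (Fin n → F), ∀ u v, stdH σ n (Φ u) (Φ v) = B u v := by
  classical
  subst hn
  have hB : B.Nondegenerate := by
    constructor
    · intro x hx
      exact hnd x Submodule.mem_top (fun w _ => hx w)
    · intro y hy
      refine hnd y Submodule.mem_top (fun w _ => ?_)
      rw [← hS.eq w y, hy w, map_zero]
  obtain ⟨b, hb⟩ := Cfsg.Agent.Helper13.herm_exists_orthonormal_basis σ B hσne hσ2 hS hB
  refine ⟨b.equivFun, ?_⟩
  intro u v
  rw [stdH_apply]
  conv_rhs => rw [← b.sum_equivFun u, ← b.sum_equivFun v]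
  simp only [map_sum, LinearMap.sum_apply, LinearMap.map_smulₛₗ, LinearMap.smul_apply, map_smul,
    hb, smul_eq_mul, mul_ite, mul_one, mul_zero, Finset.sum_ite_eq, Finset.sum_ite_eq',
    Finset.mem_univ, if_true, RingHom.id_apply]

end geom

end Cfsg.Agent.Helper20.TI5954
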