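import Mathlib
import Cfsg.Agent.Helper13.TLDefs
import Cfsg.Agent.Helper51.TLUCDVD
import Cfsg.Agent.Helper53.TLUARC
import Cfsg.Agent.Helper20.TLUBADSUM
import Cfsg.Agent.Helper20.TLUBADATOM

set_option autoImplicit false

namespace Cfsg.Agent.Helper20.TI5954

open Module Polynomial
open Cfsg.Agent.Helper13.TIu Cfsg.Agent.Helper13.TIsp
open Cfsg.Agent.Helper51.TI5954 Cfsg.Agent.Helper53.TI5954

section std2

variable {F : Type*} [Field F] {σ : F →+* F}

theorem u_bad_all [Fintype F] (q : ℕ) (hq : Fintype.card F = q ^ 2) (hσ : ∀ a, σ a = a ^ q)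
    (hσ2 : ∀ a, σ (σ a) = a) (hσne : σ ≠ RingHom.id F) (r : ℕ) [Fact r.Prime] (hr2 : 2 < r)
    (hrq : ¬ r ∣ q) (hrF : (r : F) ≠ 0) (i c : ℕ) (hi : i = orderOf (q : ZMod r))
    (hc : c = if i % 4 = 0 then i else if i % 4 = 2 then i / 2 else 2 * i) (n ρ k : ℕ)
    (hn : n = c * ρ + k) (hρ : 1 ≤ ρ) :
    ∃ T : Module.End F (Fin n → F), UPres (stdH σ n) T ∧ T ^ r = 1 ∧ T ≠ 1 ∧
      finrank F (LinearMap.ker (T - 1)) = k := by
  classical
  obtain ⟨hi0, hc0, harc⟩ := u_arith_c q r hr2 hrq i c hi hc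
  have hdiv : (r : ℤ) ∣ (q : ℤ) ^ c - (-1) ^ c := (harc c).mpr dvd_rfl
  obtain ⟨T₀, hT₀, hT₀r, hT₀1⟩ := u_bad_atom (σ := σ) q hq hσ r c hc0 hdiv
  -- fixed space of T₀ is zero
  have hcd := u_cdvd (stdH σ c) q hq hσ hσ2 hσne (stdH_symm σ hσ2 c) T₀ hT₀ r hr2 hrq hrF hT₀r
    i c hi hc ⊤ le_top (stdH_nd_top σ c)
  have hker0 : finrank F (LinearMap.ker (T₀ - 1)) = 0 := by
    rw [top_inf_eq] at hcd
    have htop : finrank F (⊤ : Submodule F (Fin c → F)) = c := by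
      rw [finrank_top, Module.finrank_fin_fun]
    rw [htop] at hcd
    have hle : finrank F (LinearMap.ker (T₀ - 1)) ≤ c := by
      have := Submodule.finrank_le (LinearMap.ker (T₀ - 1))
      rwa [Module.finrank_fin_fun] at this
    have hlt : finrank F (LinearMap.ker (T₀ - 1)) < c := by
      by_contra hge
      have hge := not_lt.mp hge
      have heq : finrank F (LinearMap.ker (T₀ - 1)) = finrank F (Fin c → F) := by
        rw [Module.finrank_fin_fun]; omega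
      have htop2 : LinearMap.ker (T₀ - 1) = ⊤ := Submodule.eq_top_of_finrank_eq heq
      apply hT₀1
      have : T₀ - 1 = 0 := LinearMap.ker_eq_top.mp htop2
      exact sub_eq_zero.mp this
    obtain ⟨t, ht⟩ := hcd
    rcases Nat.eq_zero_or_pos t with h0 | hpos
    · subst h0; omega
    · have : c ≤ c * t := Nat.le_mul_of_pos_right c hpos
      omega
  -- induction on ρ
  have key : ∀ ρ : ℕ, 1 ≤ ρ → ∀ n : ℕ, n = c * ρ →
      ∃ T : Module.End F (Fin n → F), UPres (stdH σ n) T ∧ T ^ r = 1 ∧ T ≠ 1 ∧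
        finrank F (LinearMap.ker (T - 1)) = 0 := by
    intro ρ hρ
    induction ρ, hρ using Nat.le_induction with
    | base =>
      intro n hn
      obtain rfl : n = c := by rw [hn, mul_one]
      exact ⟨T₀, hT₀, hT₀r, hT₀1, hker0⟩
    | succ ρ hρ ih =>
      intro n hn
      obtain rfl : n = c * ρ + c := by rw [hn]; ring
      obtain ⟨T₁, h1, h2, h3, h4⟩ := ih (c * ρ) rfl
      obtain ⟨T, hT, hTr, hTk, hTne⟩ := u_bad_sum (σ := σ) r (c * ρ) c T₁ T₀ h1 hT₀ h2 hT₀r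
      exact ⟨T, hT, hTr, hTne h3, by rw [hTk, h4, hker0]⟩
  obtain ⟨T₁, h1, h2, h3, h4⟩ := key ρ hρ (c * ρ) rfl
  subst hn
  have hid : UPres (stdH σ k) (1 : Module.End F (Fin k → F)) := fun u v => rfl
  obtain ⟨T, hT, hTr, hTk, hTne⟩ := u_bad_sum (σ := σ) r (c * ρ) k T₁ 1 h1 hid h2 (one_pow r)
  refine ⟨T, hT, hTr, hTne h3, ?_⟩
  rw [hTk, h4, zero_add, sub_self, LinearMap.ker_zero, finrank_top, Module.finrank_fin_fun]

end std2

end Cfsg.Agent.Helper20.TI5954
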