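import Mathlib
import Cfsg.Agent.Helper13.TLDefs
import Cfsg.Agent.Helper41.TLUPERP
import Cfsg.Agent.Helper50.TLUSTRUCT

set_option autoImplicit false

namespace Cfsg.Agent.Helper20.TI5954

open Module Polynomial
open Cfsg.Agent.Helper13.TIu Cfsg.Agent.Helper13.TIsp
open Cfsg.Agent.Helper41.TI5954 Cfsg.Agent.Helper50.TI5954

section geom2

variable {F : Type*} [Field F] {σ : F →+* F} {V : Type*} [AddCommGroup V] [Module F V]
  [FiniteDimensional F V] (B : V →ₛₗ[σ] V →ₗ[F] F)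

theorem u_jt_sub (hσ2 : ∀ a, σ (σ a) = a) (hσne : σ ≠ RingHom.id F) (hS : B.IsSymm)
    (hnd : UNd B ⊤) (T : Module.End F V) (hT : UPres B T) (n : ℕ) (hn : 0 < n) (hTn : T ^ n = 1)
    (p : ℕ) (hNp : (T - 1) ^ p = 0) (μ : Multiset ℕ) (hμ : ∀ a ∈ μ, 0 < a)
    (hJT : JT (T - 1) ⊤ μ) (W : Submodule F V) (hWT : W.map T ≤ W) (hW : UNd B W) :
    ∃ ν : Multiset ℕ, ν ≤ μ ∧ ν.sum = finrank F W := by
  obtain ⟨P, -, hPT, hPnd, hdisj, hsup, -, -, -⟩ :=
    u_perp B hσ2 hS T hT n hn hTn ⊤ W hnd hW le_top le_top hWT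
  obtain ⟨ν, hJν, hposν, -⟩ := ustruct_p B hσ2 hσne hS T hT n hn hTn p hNp W hWT hW
  obtain ⟨ν', hJν', hposν', -⟩ := ustruct_p B hσ2 hσne hS T hT n hn hTn p hNp P hPT hPnd
  have hinv : ∀ Z : Submodule F V, Z.map T ≤ Z → ∀ v ∈ Z, (T - 1) v ∈ Z := by
    intro Z hZ v hv
    rw [LinearMap.sub_apply, Module.End.one_apply]
    exact Z.sub_mem (hZ (Submodule.mem_map_of_mem hv)) hv
  have hadd := Cfsg.Agent.Helper37.TI5956.jt_add (T - 1) W P (hinv W hWT) (hinv P hPT) hdisj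
    ν ν' hJν hJν'
  rw [hsup] at hadd
  have heq : ν + ν' = μ := by
    apply Cfsg.Agent.Helper37.TI5956.ms_min_ext
    · intro a ha
      rcases Multiset.mem_add.mp ha with h | h
      · exact (hposν a h).1
      · exact (hposν' a h).1
    · exact hμ
    · intro k
      rw [← hadd k, ← hJT k]
  refine ⟨ν, by rw [← heq]; exact Multiset.le_add_right ν ν', ?_⟩
  exact (jt_sum (T - 1) p hNp W ν hJν (fun a ha => (hposν a ha).2)).symm

end geom2

end Cfsg.Agent.Helper20.TI5954
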