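-- helper20 library: PIECE B2 of CALL S4648 (helper77): a local algebra whose radical is generated
-- by one element modulo its square is commutative.
import Mathlib
import Cfsg.Agent.Helper52.K2B2b2

set_option autoImplicit false

namespace Cfsg.Agent.Helper20

universe u v w

variable {k : Type v} [Field k] {A : Type u} [Ring A] [Algebra k A]

theorem kul_gen_one (J : Submodule k A) (hJJ : J * J ≤ J)
    (hA : ∀ a : A, ∃ c : k, a - algebraMap k A c ∈ J)
    (N : ℕ) (hN : J ^ N = ⊥) (x : A) (hx : x ∈ J) (hJ : J ≤ Submodule.span k {x} ⊔ J * J) :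
    ∀ a b : A, a * b = b * a := by
  classical
  -- the span of the positive powers of x
  have hpowJ : ∀ i : ℕ, x ^ (i + 1) ∈ J := by
    intro i
    induction i with
    | zero => simpa using hx
    | succ i ih =>
      rw [pow_succ]
      exact hJJ (Submodule.mul_mem_mul ih hx)
  have hXJ : Submodule.span k (Set.range fun i : ℕ => x ^ (i + 1)) ≤ J := by
    rw [Submodule.span_le]
    rintro _ ⟨i, rfl⟩
    exact hpowJ i
  have hXX : Submodule.span k (Set.range fun i : ℕ => x ^ (i + 1)) *
      Submodule.span k (Set.range fun i : ℕ => x ^ (i + 1))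
      ≤ Submodule.span k (Set.range fun i : ℕ => x ^ (i + 1)) := by
    rw [Submodule.span_mul_span, Submodule.span_le]
    rintro _ ⟨_, ⟨i, rfl⟩, _, ⟨j, rfl⟩, rfl⟩
    apply Submodule.subset_span
    refine ⟨i + j + 1, ?_⟩
    show x ^ (i + j + 1 + 1) = x ^ (i + 1) * x ^ (j + 1)
    rw [← pow_add]
    congr 1
    omega
  have h0 : J ≤ Submodule.span k (Set.range fun i : ℕ => x ^ (i + 1)) ⊔ J * J := by
    refine hJ.trans (sup_le_sup_right ?_ _)
    rw [Submodule.span_le, Set.singleton_subset_iff]
    apply Submodule.subset_span
    exact ⟨0, by simp⟩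
  have hnak := Helper52.k2_nakayama J _ hJJ hXJ hXX h0 N
  have hbot : J ^ (N + 2) = ⊥ := by
    rw [pow_add, hN, Submodule.bot_mul]
  rw [hbot, sup_bot_eq] at hnak
  -- elements of X commute
  have hcx : ∀ a ∈ Submodule.span k (Set.range fun i : ℕ => x ^ (i + 1)), Commute a x := by
    intro a ha
    induction ha using Submodule.span_induction with
    | mem y hy =>
      obtain ⟨i, rfl⟩ := hy
      exact (Commute.refl x).pow_left (i + 1)
    | zero => exact Commute.zero_left x
    | add y z _ _ hy hz => exact hy.add_left hz
    | smul c y _ hy => exact hy.smul_left c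
  have hcc : ∀ a ∈ Submodule.span k (Set.range fun i : ℕ => x ^ (i + 1)),
      ∀ b ∈ Submodule.span k (Set.range fun i : ℕ => x ^ (i + 1)), Commute a b := by
    intro a ha b hb
    induction hb using Submodule.span_induction with
    | mem y hy =>
      obtain ⟨i, rfl⟩ := hy
      exact (hcx a ha).pow_right (i + 1)
    | zero => exact Commute.zero_right a
    | add y z _ _ hy hz => exact hy.add_right hz
    | smul c y _ hy => exact hy.smul_right c
  intro a b
  obtain ⟨c, hc⟩ := hA a
  obtain ⟨d, hd⟩ := hA b
  have hja := hnak hc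
  have hjb := hnak hd
  have h1 : Commute (a - algebraMap k A c) b := by
    have hb : b = algebraMap k A d + (b - algebraMap k A d) := by abel
    rw [hb]
    exact (Algebra.commute_algebraMap_right d _).add_right (hcc _ hja _ hjb)
  have h2 : Commute a b := by
    have ha : a = algebraMap k A c + (a - algebraMap k A c) := by abel
    rw [ha]
    exact (Algebra.commute_algebraMap_left c b).add_left h1
  exact h2.eq

end Cfsg.Agent.Helper20
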