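import Mathlib

set_option autoImplicit false

/-! PIECE B of CALL S2372 (helper18): the 48 exponents attached to the roots of `F₄` are pairwise
distinct and non-zero modulo `q^4 + 1`. -/

namespace Cfsg.Agent.Helper20.F4Piece

/-- A non-zero vector of four small digits does not give a multiple of `q^4 + 1`. -/
theorem f4_digits (q M : ℤ) (hM0 : 0 ≤ M) (hMq : M < q)
    (hbig : M * (1 + q + q ^ 2 + q ^ 3) < q ^ 4 + 1)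
    (d0 d1 d2 d3 : ℤ) (h0 : |d0| ≤ M) (h1 : |d1| ≤ M) (h2 : |d2| ≤ M) (h3 : |d3| ≤ M)
    (hne : ¬ (d0 = 0 ∧ d1 = 0 ∧ d2 = 0 ∧ d3 = 0)) :
    ¬ (q ^ 4 + 1) ∣ (d0 + d1 * q + d2 * q ^ 2 + d3 * q ^ 3) := by
  intro hdvd
  have hq0 : 0 < q := lt_of_le_of_lt hM0 hMq
  have hq2 : 0 ≤ q ^ 2 := by positivity
  have hq3 : 0 ≤ q ^ 3 := by positivity
  obtain ⟨h0l, h0u⟩ := abs_le.mp h0
  obtain ⟨h1l, h1u⟩ := abs_le.mp h1
  obtain ⟨h2l, h2u⟩ := abs_le.mp h2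
  obtain ⟨h3l, h3u⟩ := abs_le.mp h3
  have e1u : d1 * q ≤ M * q := mul_le_mul_of_nonneg_right h1u hq0.le
  have e1l : -M * q ≤ d1 * q := mul_le_mul_of_nonneg_right h1l hq0.le
  have e2u : d2 * q ^ 2 ≤ M * q ^ 2 := mul_le_mul_of_nonneg_right h2u hq2
  have e2l : -M * q ^ 2 ≤ d2 * q ^ 2 := mul_le_mul_of_nonneg_right h2l hq2
  have e3u : d3 * q ^ 3 ≤ M * q ^ 3 := mul_le_mul_of_nonneg_right h3u hq3
  have e3l : -M * q ^ 3 ≤ d3 * q ^ 3 := mul_le_mul_of_nonneg_right h3l hq3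
  have hv : |d0 + d1 * q + d2 * q ^ 2 + d3 * q ^ 3| < q ^ 4 + 1 := by
    rw [abs_lt]
    constructor <;> nlinarith
  have hz := Int.eq_zero_of_abs_lt_dvd hdvd hv
  have key : ∀ x y : ℤ, |x| ≤ M → x + y * q = 0 → x = 0 ∧ y = 0 := by
    intro x y hx hxy
    have hdx : q ∣ x := ⟨-y, by linarith⟩
    have hx0 : x = 0 := Int.eq_zero_of_abs_lt_dvd hdx (lt_of_le_of_lt hx hMq)
    refine ⟨hx0, ?_⟩
    rw [hx0, zero_add] at hxy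
    rcases mul_eq_zero.mp hxy with h | h
    · exact h
    · exact absurd h hq0.ne'
  obtain ⟨hd0, hr1⟩ := key d0 (d1 + d2 * q + d3 * q ^ 2) h0 (by linarith)
  obtain ⟨hd1, hr2⟩ := key d1 (d2 + d3 * q) h1 (by linarith)
  obtain ⟨hd2, hd3⟩ := key d2 d3 h2 (by linarith)
  exact hne ⟨hd0, hd1, hd2, hd3⟩

/-- the list of the 48 root vectors of `F₄` -/
def f4List : List (ℤ × ℤ × ℤ × ℤ) :=
  [((2 : ℤ), (-1 : ℤ), (0 : ℤ), (1 : ℤ)), (1, 1, -1, 1), (1, 0, 1, 0), (1, 0, 0, 1), (1, 0, -1, 2),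
      (1, -1, 1, 1), (0, 1, 0, 1), (1, 0, 0, 0), (1, 0, -1, 1), (1, -1, 1, 0), (0, 1, 0, 0), (1, -1, 0, 1),
      (0, 1, -1, 1), (0, 0, 1, 0), (0, 0, 0, 1), (1, 0, -1, 0), (1, -1, 1, -1), (0, 1, 0, -1),
      (1, -1, 0, 0), (0, 1, -1, 0), (0, 0, 1, -1), (1, -1, -1, 1), (0, 1, -2, 1), (1, -2, 1, 0),
      (-1, 2, -1, 0), (0, -1, 2, -1), (-1, 1, 1, -1), (0, 0, -1, 1), (0, -1, 1, 0), (-1, 1, 0, 0),
      (0, -1, 0, 1), (-1, 1, -1, 1), (-1, 0, 1, 0), (0, 0, 0, -1), (0, 0, -1, 0), (0, -1, 1, -1),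
      (-1, 1, 0, -1), (0, -1, 0, 0), (-1, 1, -1, 0), (-1, 0, 1, -1), (-1, 0, 0, 0), (0, -1, 0, -1),
      (-1, 1, -1, -1), (-1, 0, 1, -2), (-1, 0, 0, -1), (-1, 0, -1, 0), (-1, -1, 1, -1), (-2, 1, 0, -1)]

theorem f4List_bounds : ∀ a ∈ f4List, |a.1| ≤ 2 ∧ |a.2.1| ≤ 2 ∧ |a.2.2.1| ≤ 2 ∧ |a.2.2.2| ≤ 2 ∧
    ¬ (a.1 = 0 ∧ a.2.1 = 0 ∧ a.2.2.1 = 0 ∧ a.2.2.2 = 0) := by
  decide

set_option maxRecDepth 100000 in
theorem f4_small3 : ∀ a ∈ f4List, ∀ b ∈ f4List, a ≠ b →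
    ¬ ((82 : ℤ) ∣ ((a.1 - b.1) + (a.2.1 - b.2.1) * 3 + (a.2.2.1 - b.2.2.1) * 3 ^ 2
      + (a.2.2.2 - b.2.2.2) * 3 ^ 3)) := by
  decide +kernel

set_option maxRecDepth 100000 in
theorem f4_small4 : ∀ a ∈ f4List, ∀ b ∈ f4List, a ≠ b →
    ¬ ((257 : ℤ) ∣ ((a.1 - b.1) + (a.2.1 - b.2.1) * 4 + (a.2.2.1 - b.2.2.1) * 4 ^ 2
      + (a.2.2.2 - b.2.2.2) * 4 ^ 3)) := by
  decide +kernel

theorem f4_small2 : ∀ a ∈ f4List,
    ¬ ((17 : ℤ) ∣ (a.1 + a.2.1 * 2 + a.2.2.1 * 2 ^ 2 + a.2.2.2 * 2 ^ 3)) := by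
  decide +kernel

theorem f4_exponents_distinct (q : ℕ) (hq : 3 ≤ q) (a b : ℤ × ℤ × ℤ × ℤ)
    (ha : a ∈ f4List) (hb : b ∈ f4List) (hab : a ≠ b) :
    ¬ (((q : ℤ) ^ 4 + 1) ∣ ((a.1 - b.1) + (a.2.1 - b.2.1) * (q : ℤ) +
      (a.2.2.1 - b.2.2.1) * (q : ℤ) ^ 2 + (a.2.2.2 - b.2.2.2) * (q : ℤ) ^ 3)) := by
  intro hdvd
  rcases Nat.lt_or_ge q 5 with h5 | h5
  · interval_cases q
    · apply f4_small3 a ha b hb hab
      have e : ((3 : ℕ) : ℤ) ^ 4 + 1 = 82 := by norm_num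
      rw [e] at hdvd
      exact_mod_cast hdvd
    · apply f4_small4 a ha b hb hab
      have e : ((4 : ℕ) : ℤ) ^ 4 + 1 = 257 := by norm_num
      rw [e] at hdvd
      exact_mod_cast hdvd
  · have hq5 : (5 : ℤ) ≤ (q : ℤ) := by exact_mod_cast h5
    obtain ⟨a1, a2, a3, a4, -⟩ := f4List_bounds a ha
    obtain ⟨b1, b2, b3, b4, -⟩ := f4List_bounds b hb
    rw [abs_le] at a1 a2 a3 a4 b1 b2 b3 b4
    refine f4_digits (q : ℤ) 4 (by norm_num) (by linarith) ?_ _ _ _ _ ?_ ?_ ?_ ?_ ?_ hdvd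
    · nlinarith [pow_pos (by linarith : (0 : ℤ) < q) 2, pow_pos (by linarith : (0 : ℤ) < q) 3,
        mul_nonneg (by linarith : (0 : ℤ) ≤ (q : ℤ) - 5) (pow_nonneg (by linarith : (0 : ℤ) ≤ q) 3),
        mul_nonneg (by linarith : (0 : ℤ) ≤ (q : ℤ) - 5) (pow_nonneg (by linarith : (0 : ℤ) ≤ q) 2),
        mul_nonneg (by linarith : (0 : ℤ) ≤ (q : ℤ) - 5) (by linarith : (0 : ℤ) ≤ (q : ℤ))]
    · rw [abs_le]; constructor <;> linarith [a1.1, a1.2, b1.1, b1.2]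
    · rw [abs_le]; constructor <;> linarith [a2.1, a2.2, b2.1, b2.2]
    · rw [abs_le]; constructor <;> linarith [a3.1, a3.2, b3.1, b3.2]
    · rw [abs_le]; constructor <;> linarith [a4.1, a4.2, b4.1, b4.2]
    · rintro ⟨e0, e1, e2, e3⟩
      apply hab
      obtain ⟨x0, x1, x2, x3⟩ := a
      obtain ⟨y0, y1, y2, y3⟩ := b
      simp only at e0 e1 e2 e3
      have f3 : x3 = y3 := by linarith
      have f2 : x2 = y2 := by linarith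
      have f1 : x1 = y1 := by linarith
      have f0 : x0 = y0 := by linarith
      rw [f0, f1, f2, f3]

theorem f4_exponents_ne_zero (q : ℕ) (hq : 2 ≤ q) (a : ℤ × ℤ × ℤ × ℤ)
    (ha : a ∈ f4List) :
    ¬ (((q : ℤ) ^ 4 + 1) ∣ (a.1 + a.2.1 * (q : ℤ) + a.2.2.1 * (q : ℤ) ^ 2 +
      a.2.2.2 * (q : ℤ) ^ 3)) := by
  intro hdvd
  rcases Nat.lt_or_ge q 3 with h3 | h3
  · interval_cases q
    apply f4_small2 a ha
    have e : ((2 : ℕ) : ℤ) ^ 4 + 1 = 17 := by norm_num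
    rw [e] at hdvd
    exact_mod_cast hdvd
  · have hq3 : (3 : ℤ) ≤ (q : ℤ) := by exact_mod_cast h3
    obtain ⟨a1, a2, a3, a4, hne⟩ := f4List_bounds a ha
    refine f4_digits (q : ℤ) 2 (by norm_num) (by linarith) ?_ _ _ _ _ a1 a2 a3 a4 hne hdvd
    nlinarith [pow_pos (by linarith : (0 : ℤ) < q) 2, pow_pos (by linarith : (0 : ℤ) < q) 3,
      mul_nonneg (by linarith : (0 : ℤ) ≤ (q : ℤ) - 3) (pow_nonneg (by linarith : (0 : ℤ) ≤ q) 3),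
      mul_nonneg (by linarith : (0 : ℤ) ≤ (q : ℤ) - 3) (pow_nonneg (by linarith : (0 : ℤ) ≤ q) 2),
      mul_nonneg (by linarith : (0 : ℤ) ≤ (q : ℤ) - 3) (by linarith : (0 : ℤ) ≤ (q : ℤ))]

end Cfsg.Agent.Helper20.F4Piece
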