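import Cfsg.Agent.Helper64.B2Defs

/-!
# CALL S1083, piece D4 (helper20 for helper64)

An isometry of `Q5` fixing `e1`, `f1` and scaling `e2`, `f2` by `c`, `c⁻¹` is diagonal.
-/

open Matrix Cfsg Cfsg.Lie

namespace Cfsg.Agent.Helper20

open Cfsg.Agent.Helper64.B2

variable {F : Type*} [Field F]

theorem b2_diag_of_fix (g : GL (Fin 5) F) (hg : g ∈ O5 F) (c : F) (hc : c ≠ 0)
    (h1 : (g : Matrix (Fin 5) (Fin 5) F) *ᵥ ![0, 1, 0, 0, 0] = ![0, 1, 0, 0, 0])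
    (h2 : (g : Matrix (Fin 5) (Fin 5) F) *ᵥ ![0, 0, 1, 0, 0] = ![0, 0, 1, 0, 0])
    (h3 : (g : Matrix (Fin 5) (Fin 5) F) *ᵥ ![0, 0, 0, 1, 0] = ![0, 0, 0, c, 0])
    (h4 : (g : Matrix (Fin 5) (Fin 5) F) *ᵥ ![0, 0, 0, 0, 1] = ![0, 0, 0, 0, c⁻¹]) :
    ∃ e : Fˣ, (e : F) ^ 2 = 1 ∧ g = dg e 1 (Units.mk0 c hc) := by
  have hw : (g : Matrix (Fin 5) (Fin 5) F) *ᵥ ![1, 0, 0, 0, 0] =
      ![(g : Matrix (Fin 5) (Fin 5) F) 0 0, (g : Matrix (Fin 5) (Fin 5) F) 1 0,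
        (g : Matrix (Fin 5) (Fin 5) F) 2 0, (g : Matrix (Fin 5) (Fin 5) F) 3 0,
        (g : Matrix (Fin 5) (Fin 5) F) 4 0] := by
    funext i
    fin_cases i <;> simp [Matrix.mulVec, dotProduct, Fin.sum_univ_five]
  have col1 : ∀ i, (g : Matrix (Fin 5) (Fin 5) F) i 1 = (![0, 1, 0, 0, 0] : Fin 5 → F) i := by
    intro i
    have h := congrFun h1 i
    rw [← h]
    simp [Matrix.mulVec, dotProduct, Fin.sum_univ_five]
  have col2 : ∀ i, (g : Matrix (Fin 5) (Fin 5) F) i 2 = (![0, 0, 1, 0, 0] : Fin 5 → F) i := by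
    intro i
    have h := congrFun h2 i
    rw [← h]
    simp [Matrix.mulVec, dotProduct, Fin.sum_univ_five]
  have col3 : ∀ i, (g : Matrix (Fin 5) (Fin 5) F) i 3 = (![0, 0, 0, c, 0] : Fin 5 → F) i := by
    intro i
    have h := congrFun h3 i
    rw [← h]
    simp [Matrix.mulVec, dotProduct, Fin.sum_univ_five]
  have col4 : ∀ i, (g : Matrix (Fin 5) (Fin 5) F) i 4 = (![0, 0, 0, 0, c⁻¹] : Fin 5 → F) i := by
    intro i
    have h := congrFun h4 i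
    rw [← h]
    simp [Matrix.mulVec, dotProduct, Fin.sum_univ_five]
  -- the first column
  have b1 := O5_B5 g hg ![1, 0, 0, 0, 0] ![0, 1, 0, 0, 0]
  have b2 := O5_B5 g hg ![1, 0, 0, 0, 0] ![0, 0, 1, 0, 0]
  have b3 := O5_B5 g hg ![1, 0, 0, 0, 0] ![0, 0, 0, 1, 0]
  have b4 := O5_B5 g hg ![1, 0, 0, 0, 0] ![0, 0, 0, 0, 1]
  rw [hw, h1] at b1
  rw [hw, h2] at b2
  rw [hw, h3] at b3
  rw [hw, h4] at b4
  have g20 : (g : Matrix (Fin 5) (Fin 5) F) 2 0 = 0 := by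
    simpa [B5] using b1
  have g10 : (g : Matrix (Fin 5) (Fin 5) F) 1 0 = 0 := by
    simpa [B5] using b2
  have g40 : (g : Matrix (Fin 5) (Fin 5) F) 4 0 = 0 := by
    have h : (g : Matrix (Fin 5) (Fin 5) F) 4 0 * c = 0 := by simpa [B5] using b3
    rcases mul_eq_zero.1 h with h | h
    · exact h
    · exact absurd h hc
  have g30 : (g : Matrix (Fin 5) (Fin 5) F) 3 0 = 0 := by
    have h : (g : Matrix (Fin 5) (Fin 5) F) 3 0 * c⁻¹ = 0 := by simpa [B5] using b4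
    rcases mul_eq_zero.1 h with h | h
    · exact h
    · exact absurd h (inv_ne_zero hc)
  have hq := (mem_O5 g).1 hg ![1, 0, 0, 0, 0]
  rw [hw] at hq
  have g00 : (g : Matrix (Fin 5) (Fin 5) F) 0 0 ^ 2 = 1 := by
    simpa [Q5, g10, g20, g30, g40] using hq
  have g00ne : (g : Matrix (Fin 5) (Fin 5) F) 0 0 ≠ 0 := by
    intro h
    rw [h] at g00
    simp at g00
  refine ⟨Units.mk0 _ g00ne, g00, ?_⟩
  apply Units.ext
  rw [dg_val]
  ext i j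
  fin_cases j
  · fin_cases i <;> simp [g10, g20, g30, g40]
  · fin_cases i <;> simp [col1]
  · fin_cases i <;> simp [col2]
  · fin_cases i <;> simp [col3]
  · fin_cases i <;> simp [col4]

end Cfsg.Agent.Helper20
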