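import Cfsg.Agent.Helper64.B2Defs

/-!
# CALL S1083, piece D5 (helper20 for helper64)

Assembly: commutators of isometries of `Q5` lie in the group generated by the root elements.
-/

open Matrix Cfsg Cfsg.Lie

namespace Cfsg.Agent.Helper20

open Cfsg.Agent.Helper64.B2

variable {F : Type*} [Field F]

/-- The diagonal elements `dg e a b` with `e² = 1` normalise `G5`. -/
theorem b2_dg_normalizes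
    (hN : ∀ e a b : Fˣ, (e : F) ^ 2 = 1 → ∀ r < 8, ∀ t : F,
      ∃ t' : F, dg e a b * xg r t * (dg e a b)⁻¹ = xg r t')
    (e a b : Fˣ) (he : (e : F) ^ 2 = 1) (x : GL (Fin 5) F) (hx : x ∈ G5 F) :
    dg e a b * x * (dg e a b)⁻¹ ∈ G5 F := by
  have hle : G5 F ≤ (G5 F).comap (MulAut.conj (dg e a b)).toMonoidHom := by
    unfold G5
    rw [Subgroup.closure_le]
    rintro g ⟨r, hr, t, rfl⟩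
    obtain ⟨t', ht'⟩ := hN e a b he r hr t
    show (MulAut.conj (dg e a b)) (xg r t) ∈ Subgroup.closure {g | ∃ r < 8, ∃ t : F, g = xg r t}
    rw [MulAut.conj_apply, ht']
    exact Subgroup.subset_closure ⟨r, hr, t', rfl⟩
  have h := hle hx
  have h2 : (MulAut.conj (dg e a b)) x ∈ G5 F := h
  rw [MulAut.conj_apply] at h2
  exact h2

/-- Every isometry is a product of an element of `G5` and a diagonal element. -/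
theorem b2_decomp
    (hD1 : ∀ u : Fin 5 → F, u ≠ 0 → Q5 u = 0 →
      ∃ x ∈ G5 F, ∃ c : F, c ≠ 0 ∧ (x : Matrix (Fin 5) (Fin 5) F) *ᵥ u = ![0, c, 0, 0, 0])
    (hD2 : ∀ v : Fin 5 → F, Q5 v = 0 → v 2 ≠ 0 →
      ∃ y ∈ G5 F, (y : Matrix (Fin 5) (Fin 5) F) *ᵥ ![0, 1, 0, 0, 0] = ![0, 1, 0, 0, 0] ∧
        (y : Matrix (Fin 5) (Fin 5) F) *ᵥ v = ![0, 0, v 2, 0, 0])
    (hD3 : ∀ g : GL (Fin 5) F, g ∈ O5 F →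
      (g : Matrix (Fin 5) (Fin 5) F) *ᵥ ![0, 1, 0, 0, 0] = ![0, 1, 0, 0, 0] →
      (g : Matrix (Fin 5) (Fin 5) F) *ᵥ ![0, 0, 1, 0, 0] = ![0, 0, 1, 0, 0] →
      ∃ x ∈ G5 F, ∃ c : F, c ≠ 0 ∧
        ((x * g : GL (Fin 5) F) : Matrix (Fin 5) (Fin 5) F) *ᵥ ![0, 1, 0, 0, 0] = ![0, 1, 0, 0, 0] ∧
        ((x * g : GL (Fin 5) F) : Matrix (Fin 5) (Fin 5) F) *ᵥ ![0, 0, 1, 0, 0] = ![0, 0, 1, 0, 0] ∧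
        ((x * g : GL (Fin 5) F) : Matrix (Fin 5) (Fin 5) F) *ᵥ ![0, 0, 0, 1, 0] = ![0, 0, 0, c, 0] ∧
        ((x * g : GL (Fin 5) F) : Matrix (Fin 5) (Fin 5) F) *ᵥ ![0, 0, 0, 0, 1] = ![0, 0, 0, 0, c⁻¹])
    (hD4 : ∀ g : GL (Fin 5) F, g ∈ O5 F → ∀ (c : F) (hc : c ≠ 0),
      (g : Matrix (Fin 5) (Fin 5) F) *ᵥ ![0, 1, 0, 0, 0] = ![0, 1, 0, 0, 0] →
      (g : Matrix (Fin 5) (Fin 5) F) *ᵥ ![0, 0, 1, 0, 0] = ![0, 0, 1, 0, 0] →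
      (g : Matrix (Fin 5) (Fin 5) F) *ᵥ ![0, 0, 0, 1, 0] = ![0, 0, 0, c, 0] →
      (g : Matrix (Fin 5) (Fin 5) F) *ᵥ ![0, 0, 0, 0, 1] = ![0, 0, 0, 0, c⁻¹] →
      ∃ e : Fˣ, (e : F) ^ 2 = 1 ∧ g = dg e 1 (Units.mk0 c hc))
    (hN : ∀ e a b : Fˣ, (e : F) ^ 2 = 1 → ∀ r < 8, ∀ t : F,
      ∃ t' : F, dg e a b * xg r t * (dg e a b)⁻¹ = xg r t')
    (hH : ∀ c : Fˣ, dg (1 : Fˣ) c⁻¹ c ∈ G5 F)
    (g : GL (Fin 5) F) (hg : g ∈ O5 F) :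
    ∃ x ∈ G5 F, ∃ e a : Fˣ, (e : F) ^ 2 = 1 ∧ g = x * dg e a 1 := by
  have hone : ((1 : Fˣ) : F) ^ 2 = 1 := by simp
  -- step A
  have hu : (g : Matrix (Fin 5) (Fin 5) F) *ᵥ ![0, 1, 0, 0, 0] ≠ 0 := by
    intro h0
    have h1 : ((g⁻¹ : GL (Fin 5) F) : Matrix (Fin 5) (Fin 5) F) *ᵥ
        ((g : Matrix (Fin 5) (Fin 5) F) *ᵥ ![0, 1, 0, 0, 0]) = ![0, 1, 0, 0, 0] := by
      rw [Matrix.mulVec_mulVec, ← Units.val_mul, inv_mul_cancel, Units.val_one, Matrix.one_mulVec]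
    rw [h0, Matrix.mulVec_zero] at h1
    have h2 := congrFun h1 1
    simp at h2
  have hQu : Q5 ((g : Matrix (Fin 5) (Fin 5) F) *ᵥ ![0, 1, 0, 0, 0]) = 0 := by
    rw [(mem_O5 g).1 hg]
    simp [Q5]
  obtain ⟨x₁, hx₁, c, hc, hx₁u⟩ := hD1 _ hu hQu
  obtain ⟨cu, hcu⟩ : ∃ cu : Fˣ, cu = Units.mk0 c hc := ⟨_, rfl⟩
  have hcuv : (cu : F) = c := by rw [hcu]; rfl
  obtain ⟨d, hd⟩ : ∃ d : GL (Fin 5) F, d = dg 1 cu 1 := ⟨_, rfl⟩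
  have hdO : d ∈ O5 F := by rw [hd]; exact dg_mem_O5 _ _ _ hone
  have hdinv : d⁻¹ = dg 1 cu⁻¹ 1 := by rw [hd, dg_inv, inv_one]
  -- step B
  obtain ⟨g₂, hg₂⟩ : ∃ g₂ : GL (Fin 5) F, g₂ = d⁻¹ * (x₁ * g) := ⟨_, rfl⟩
  have hg₂O : g₂ ∈ O5 F := by
    rw [hg₂]
    exact Subgroup.mul_mem _ (Subgroup.inv_mem _ hdO) (Subgroup.mul_mem _ (G5_le_O5 hx₁) hg)
  have hg₂e : (g₂ : Matrix (Fin 5) (Fin 5) F) *ᵥ ![0, 1, 0, 0, 0] = ![0, 1, 0, 0, 0] := by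
    rw [hg₂, Units.val_mul, Units.val_mul, ← Matrix.mulVec_mulVec, ← Matrix.mulVec_mulVec, hx₁u,
      hdinv, dg_mulVec]
    funext i
    fin_cases i <;> simp [hcuv, hc]
  have hQv : Q5 ((g₂ : Matrix (Fin 5) (Fin 5) F) *ᵥ ![0, 0, 1, 0, 0]) = 0 := by
    rw [(mem_O5 g₂).1 hg₂O]
    simp [Q5]
  have hv2 : ((g₂ : Matrix (Fin 5) (Fin 5) F) *ᵥ ![0, 0, 1, 0, 0]) 2 = 1 := by
    have hb := O5_B5 g₂ hg₂O ![0, 1, 0, 0, 0] ![0, 0, 1, 0, 0]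
    rw [hg₂e] at hb
    simpa [B5] using hb
  obtain ⟨y, hy, hye, hyv⟩ := hD2 _ hQv (by rw [hv2]; exact one_ne_zero)
  rw [hv2] at hyv
  -- step C
  obtain ⟨g₃, hg₃⟩ : ∃ g₃ : GL (Fin 5) F, g₃ = y * g₂ := ⟨_, rfl⟩
  have hg₃O : g₃ ∈ O5 F := by
    rw [hg₃]
    exact Subgroup.mul_mem _ (G5_le_O5 hy) hg₂O
  have hg₃e : (g₃ : Matrix (Fin 5) (Fin 5) F) *ᵥ ![0, 1, 0, 0, 0] = ![0, 1, 0, 0, 0] := by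
    rw [hg₃, Units.val_mul, ← Matrix.mulVec_mulVec, hg₂e, hye]
  have hg₃f : (g₃ : Matrix (Fin 5) (Fin 5) F) *ᵥ ![0, 0, 1, 0, 0] = ![0, 0, 1, 0, 0] := by
    rw [hg₃, Units.val_mul, ← Matrix.mulVec_mulVec, hyv]
  obtain ⟨x₃, hx₃, c₃, hc₃, k1, k2, k3, k4⟩ := hD3 g₃ hg₃O hg₃e hg₃f
  -- step D
  have hx₃g₃O : x₃ * g₃ ∈ O5 F := Subgroup.mul_mem _ (G5_le_O5 hx₃) hg₃O
  obtain ⟨e, he, hδ⟩ := hD4 (x₃ * g₃) hx₃g₃O c₃ hc₃ k1 k2 k3 k4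
  obtain ⟨c₃u, hc₃u⟩ : ∃ c₃u : Fˣ, c₃u = Units.mk0 c₃ hc₃ := ⟨_, rfl⟩
  rw [← hc₃u] at hδ
  -- algebra
  obtain ⟨s, hs⟩ : ∃ s : GL (Fin 5) F, s = dg e (cu * c₃u) 1 := ⟨_, rfl⟩
  obtain ⟨h, hh⟩ : ∃ h : GL (Fin 5) F, h = dg 1 c₃u⁻¹ c₃u := ⟨_, rfl⟩
  have hhG : h ∈ G5 F := by rw [hh]; exact hH c₃u
  have hdδ : d * dg e 1 c₃u = s * h := by
    rw [hd, hs, hh, dg_mul, dg_mul]
    congr 1
    · rw [one_mul, mul_one]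
    · rw [mul_one, mul_inv_cancel_right]
  have hgeq : g = x₁⁻¹ * d * y⁻¹ * x₃⁻¹ * dg e 1 c₃u := by
    rw [← hδ, hg₃, hg₂]
    group
  have hsn : ∀ z ∈ G5 F, s * z * s⁻¹ ∈ G5 F := by
    intro z hz
    rw [hs]
    exact b2_dg_normalizes hN e (cu * c₃u) 1 he z hz
  have hdn : ∀ z ∈ G5 F, d * z * d⁻¹ ∈ G5 F := by
    intro z hz
    rw [hd]
    exact b2_dg_normalizes hN 1 cu 1 hone z hz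
  refine ⟨x₁⁻¹ * (d * (y⁻¹ * x₃⁻¹) * d⁻¹) * (s * h * s⁻¹), ?_, e, cu * c₃u, he, ?_⟩
  · exact Subgroup.mul_mem _ (Subgroup.mul_mem _ (Subgroup.inv_mem _ hx₁)
      (hdn _ (Subgroup.mul_mem _ (Subgroup.inv_mem _ hy) (Subgroup.inv_mem _ hx₃))))
      (hsn h hhG)
  · rw [← hs]
    calc g = x₁⁻¹ * d * y⁻¹ * x₃⁻¹ * dg e 1 c₃u := hgeq
      _ = x₁⁻¹ * (d * (y⁻¹ * x₃⁻¹) * d⁻¹) * (d * dg e 1 c₃u) := by group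
      _ = x₁⁻¹ * (d * (y⁻¹ * x₃⁻¹) * d⁻¹) * (s * h) := by rw [hdδ]
      _ = x₁⁻¹ * (d * (y⁻¹ * x₃⁻¹) * d⁻¹) * (s * h * s⁻¹) * s := by group

theorem b2_comm_mem_of
    (hD1 : ∀ u : Fin 5 → F, u ≠ 0 → Q5 u = 0 →
      ∃ x ∈ G5 F, ∃ c : F, c ≠ 0 ∧ (x : Matrix (Fin 5) (Fin 5) F) *ᵥ u = ![0, c, 0, 0, 0])
    (hD2 : ∀ v : Fin 5 → F, Q5 v = 0 → v 2 ≠ 0 →
      ∃ y ∈ G5 F, (y : Matrix (Fin 5) (Fin 5) F) *ᵥ ![0, 1, 0, 0, 0] = ![0, 1, 0, 0, 0] ∧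
        (y : Matrix (Fin 5) (Fin 5) F) *ᵥ v = ![0, 0, v 2, 0, 0])
    (hD3 : ∀ g : GL (Fin 5) F, g ∈ O5 F →
      (g : Matrix (Fin 5) (Fin 5) F) *ᵥ ![0, 1, 0, 0, 0] = ![0, 1, 0, 0, 0] →
      (g : Matrix (Fin 5) (Fin 5) F) *ᵥ ![0, 0, 1, 0, 0] = ![0, 0, 1, 0, 0] →
      ∃ x ∈ G5 F, ∃ c : F, c ≠ 0 ∧
        ((x * g : GL (Fin 5) F) : Matrix (Fin 5) (Fin 5) F) *ᵥ ![0, 1, 0, 0, 0] = ![0, 1, 0, 0, 0] ∧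
        ((x * g : GL (Fin 5) F) : Matrix (Fin 5) (Fin 5) F) *ᵥ ![0, 0, 1, 0, 0] = ![0, 0, 1, 0, 0] ∧
        ((x * g : GL (Fin 5) F) : Matrix (Fin 5) (Fin 5) F) *ᵥ ![0, 0, 0, 1, 0] = ![0, 0, 0, c, 0] ∧
        ((x * g : GL (Fin 5) F) : Matrix (Fin 5) (Fin 5) F) *ᵥ ![0, 0, 0, 0, 1] = ![0, 0, 0, 0, c⁻¹])
    (hD4 : ∀ g : GL (Fin 5) F, g ∈ O5 F → ∀ (c : F) (hc : c ≠ 0),
      (g : Matrix (Fin 5) (Fin 5) F) *ᵥ ![0, 1, 0, 0, 0] = ![0, 1, 0, 0, 0] →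
      (g : Matrix (Fin 5) (Fin 5) F) *ᵥ ![0, 0, 1, 0, 0] = ![0, 0, 1, 0, 0] →
      (g : Matrix (Fin 5) (Fin 5) F) *ᵥ ![0, 0, 0, 1, 0] = ![0, 0, 0, c, 0] →
      (g : Matrix (Fin 5) (Fin 5) F) *ᵥ ![0, 0, 0, 0, 1] = ![0, 0, 0, 0, c⁻¹] →
      ∃ e : Fˣ, (e : F) ^ 2 = 1 ∧ g = dg e 1 (Units.mk0 c hc))
    (hN : ∀ e a b : Fˣ, (e : F) ^ 2 = 1 → ∀ r < 8, ∀ t : F,
      ∃ t' : F, dg e a b * xg r t * (dg e a b)⁻¹ = xg r t')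
    (hH : ∀ c : Fˣ, dg (1 : Fˣ) c⁻¹ c ∈ G5 F)
    (a b : GL (Fin 5) F) (ha : a ∈ O5 F) (hb : b ∈ O5 F) : a * b * a⁻¹ * b⁻¹ ∈ G5 F := by
  obtain ⟨x, hx, e, α, he, ha'⟩ := b2_decomp hD1 hD2 hD3 hD4 hN hH a ha
  obtain ⟨x', hx', e', α', he', hb'⟩ := b2_decomp hD1 hD2 hD3 hD4 hN hH b hb
  obtain ⟨s, hs⟩ : ∃ s : GL (Fin 5) F, s = dg e α 1 := ⟨_, rfl⟩
  obtain ⟨s', hs'⟩ : ∃ s' : GL (Fin 5) F, s' = dg e' α' 1 := ⟨_, rfl⟩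
  rw [← hs] at ha'
  rw [← hs'] at hb'
  have hcomm : s * s' = s' * s := by
    rw [hs, hs', dg_mul, dg_mul, mul_comm e e', mul_comm α α']
  have hsn : ∀ z ∈ G5 F, s * z * s⁻¹ ∈ G5 F := by
    intro z hz
    rw [hs]
    exact b2_dg_normalizes hN e α 1 he z hz
  have hsn' : ∀ z ∈ G5 F, s' * z * s'⁻¹ ∈ G5 F := by
    intro z hz
    rw [hs']
    exact b2_dg_normalizes hN e' α' 1 he' z hz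
  have e1 : s * s' * s⁻¹ = s' := by rw [hcomm]; group
  have key : a * b * a⁻¹ * b⁻¹ = x * (s * x' * s⁻¹) * (s' * x⁻¹ * s'⁻¹) * x'⁻¹ := by
    calc a * b * a⁻¹ * b⁻¹ = x * s * (x' * s') * (x * s)⁻¹ * (x' * s')⁻¹ := by rw [ha', hb']
      _ = x * (s * x' * s⁻¹) * (s * s' * s⁻¹) * x⁻¹ * s'⁻¹ * x'⁻¹ := by group
      _ = x * (s * x' * s⁻¹) * s' * x⁻¹ * s'⁻¹ * x'⁻¹ := by rw [e1]
      _ = x * (s * x' * s⁻¹) * (s' * x⁻¹ * s'⁻¹) * x'⁻¹ := by group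
  rw [key]
  exact Subgroup.mul_mem _ (Subgroup.mul_mem _ (Subgroup.mul_mem _ hx (hsn x' hx'))
    (hsn' _ (Subgroup.inv_mem _ hx))) (Subgroup.inv_mem _ hx')

end Cfsg.Agent.Helper20
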