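/-
helper20: CALL S1382 piece SZ (double): conjugacy of complements of a solvable normal Hall
subgroup.
-/
import Cfsg.Agent.Helper35.Coprime
import Cfsg.Agent.Helper62.BG72B

set_option autoImplicit false

namespace Cfsg.Agent.Helper20

open Cfsg Subgroup

open scoped Pointwise

universe u

/-- SZ (pure). Conjugacy of complements. -/
theorem bg16c_compl_conj {Γ : Type u} [Group Γ] [Finite Γ] {N A B S : Subgroup Γ}
    (hA : IsComplIn N A S) (hB : IsComplIn N B S) (hAN : A ≤ normalizer (N : Set Γ))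
    (hcop : (Nat.card A).Coprime (Nat.card N)) (hsolv : Group.IsSolvable ↥N) :
    ∃ n ∈ N, B = A.map (MulAut.conj n).toMonoidHom := by
  have hBle : B ≤ N ⊔ A := by
    intro b hb
    obtain ⟨n, hn, a, ha, rfl⟩ := hA.2.2.2 b (hB.2.1 hb)
    exact Subgroup.mul_mem _ ((le_sup_left : N ≤ N ⊔ A) hn) ((le_sup_right : A ≤ N ⊔ A) ha)
  have h1 := Helper62.bg72_card_compl hA
  have h2 := Helper62.bg72_card_compl hB
  have hcard : Nat.card B = Nat.card A := by
    have hN : 0 < Nat.card N := Nat.card_pos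
    rw [h1] at h2
    exact (Nat.eq_of_mul_eq_mul_left hN h2).symm
  obtain ⟨n, hn, hnA⟩ := Helper35.isz hAN hcop (Or.inr hsolv) hBle hcard
  refine ⟨n, hn, ?_⟩
  rw [← hnA]
  rfl

end Cfsg.Agent.Helper20
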