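import Mathlib

set_option autoImplicit false

namespace Cfsg.Agent.Helper20

universe u

variable {F : Type u} [Field F]

/-- SQ -/
theorem bu_sqrt [Fintype F] {q : ℕ} (hF : Fintype.card F = q ^ 2) (hq : Odd q) (z : F)
    (hz : z ^ (q + 1) = 1) :
    ∃ l : F, l ^ 2 = z ∧ (l ^ (q + 1) = 1 ∨ l ^ (q + 1) = -1) := by
  have hz0 : z ≠ 0 := by
    intro h
    rw [h, zero_pow (by omega)] at hz
    exact zero_ne_one hz
  have hchar : ringChar F ≠ 2 := by
    intro h
    have h1 := FiniteField.even_card_iff_char_two.1 h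
    rw [hF] at h1
    have h2 := Nat.odd_iff.1 (Odd.pow hq (n := 2))
    omega
  obtain ⟨k, hk⟩ := hq
  have hdiv : Fintype.card F / 2 = (q + 1) * k := by
    rw [hF, hk]
    have h3 : (2 * k + 1) ^ 2 = 2 * ((2 * k + 1 + 1) * k) + 1 := by ring
    omega
  have hsq : IsSquare z := by
    rw [FiniteField.isSquare_iff hchar hz0, hdiv, pow_mul, hz, one_pow]
  obtain ⟨l, hl⟩ := hsq
  refine ⟨l, by rw [hl]; ring, ?_⟩
  have h4 : (l ^ (q + 1)) ^ 2 = 1 := by
    rw [← pow_mul, mul_comm, pow_mul, pow_two, ← hl, hz]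
  have h5 : (l ^ (q + 1) - 1) * (l ^ (q + 1) + 1) = 0 := by
    have h6 : (l ^ (q + 1) - 1) * (l ^ (q + 1) + 1) = (l ^ (q + 1)) ^ 2 - 1 := by ring
    rw [h6, h4, sub_self]
  rcases mul_eq_zero.1 h5 with h | h
  · left; exact sub_eq_zero.1 h
  · right; exact eq_neg_of_add_eq_zero_left h

end Cfsg.Agent.Helper20
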