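import Mathlib
import Cfsg.Agent.Helper98.C2Defs
import Cfsg.Agent.Helper14.C2T

set_option autoImplicit false

namespace Cfsg.Agent.Helper20.C2I1

open Matrix Cfsg.Agent.Helper98.C2
open scoped MatrixGroups

variable {K : Type*} [Field K]

/-- an element of the field whose first four powers are distinct -/
theorem exists_eps [Fintype K] (hq : 5 ≤ Fintype.card K) :
    ∃ ε : K, ε ≠ 0 ∧ ε ≠ 1 ∧ ε ^ 2 ≠ 1 ∧ ε ^ 3 ≠ 1 := by
  classical
  obtain ⟨ζ, hζ⟩ := IsCyclic.exists_generator (α := Kˣ)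
  have hord : orderOf ζ = Nat.card Kˣ := orderOf_eq_card_of_forall_mem_zpowers hζ
  have hcard : Nat.card Kˣ = Fintype.card K - 1 := by
    rw [Nat.card_eq_fintype_card, Fintype.card_units]
  have h4 : 4 ≤ orderOf ζ := by omega
  have hk : ∀ k : ℕ, 0 < k → k < 4 → (ζ : K) ^ k ≠ 1 := by
    intro k hk0 hk4 h
    have h1 : ζ ^ k = 1 := by
      apply Units.ext
      rw [Units.val_pow_eq_pow_val, h, Units.val_one]
    have h2 := Nat.le_of_dvd hk0 (orderOf_dvd_of_pow_eq_one h1)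
    omega
  refine ⟨(ζ : K), ζ.ne_zero, ?_, hk 2 (by norm_num) (by norm_num), hk 3 (by norm_num) (by norm_num)⟩
  have := hk 1 (by norm_num) (by norm_num)
  rwa [pow_one] at this

/-- an invertible matrix has trivial kernel -/
theorem mulVec_eq_zero_gl {n : ℕ} (g : GL (Fin n) K) (w : Fin n → K) (h : g.1 *ᵥ w = 0) :
    w = 0 := by
  have h2 := congrArg (fun v => (g⁻¹ : GL (Fin n) K).1 *ᵥ v) h
  simp only [Matrix.mulVec_mulVec, Matrix.mulVec_zero] at h2
  rw [← Units.val_mul, inv_mul_cancel, Units.val_one, Matrix.one_mulVec] at h2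
  exact h2

/-- no row of an invertible matrix vanishes -/
theorem row_ne_zero {n : ℕ} (g : GL (Fin n) K) (i : Fin n) : ∃ j, g.1 i j ≠ 0 := by
  by_contra hcon
  push Not at hcon
  have h1 : (g.1 * (g⁻¹ : GL (Fin n) K).1) i i = 1 := by
    rw [← Units.val_mul, mul_inv_cancel, Units.val_one, Matrix.one_apply_eq]
  rw [Matrix.mul_apply] at h1
  simp [hcon] at h1

/-- a point outside a small set -/
theorem exists_notMem_fin {n : ℕ} (S : Finset (Fin n)) (h : S.card < n) : ∃ x, x ∉ S := by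
  by_contra hcon
  push Not at hcon
  have h1 : S = Finset.univ := Finset.eq_univ_iff_forall.mpr hcon
  rw [h1, Finset.card_univ, Fintype.card_fin] at h
  omega

/-- Step 1: a column with a non-zero entry outside `{a, b}` vanishes at `a` and `b`. -/
theorem step1 [Fintype K] (hq : 5 ≤ Fintype.card K) (n : ℕ)
    (M : Subgroup (GL (Fin n) K)) (hH : MonSLLE M) (hNF : NoFix M)
    (g : GL (Fin n) K) (hg : g ∈ M) (t a b : Fin n) (hab : a ≠ b)
    (ha : g.1 a t = 0) (hb : g.1 b t = 0) (r : Fin n) (x : Fin n) (hxa : x ≠ a) (hxb : x ≠ b)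
    (hx : g.1 x r ≠ 0) : g.1 a r = 0 ∧ g.1 b r = 0 := by
  obtain ⟨ε, hε0, hε1, hε2, hε3⟩ := exists_eps hq
  have key : ∀ k : Fin 4, ∃ (r' : Fin n) (c : K), c ≠ 0 ∧
      ∀ p, (if p = a then ε ^ (k : ℕ) else if p = b then (ε ^ (k : ℕ))⁻¹ else 1) * g.1 p r =
        c * g.1 p r' :=
    fun k => Cfsg.Agent.Helper14.C2T.nf_diag_cols n M hH hNF g hg t a b hab ha hb (ε ^ (k : ℕ))
      (pow_ne_zero _ hε0) r
  choose R c hc hR using key
  have hpow' : ∀ j k : ℕ, j < k → k < 4 → ε ^ j ≠ ε ^ k := by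
    intro j k hjk hk h
    obtain ⟨d, rfl⟩ : ∃ d, k = j + d := ⟨k - j, by omega⟩
    rw [pow_add] at h
    have h1 : ε ^ d = 1 := by
      have h2 : ε ^ j * 1 = ε ^ j * ε ^ d := by rw [mul_one]; exact h
      exact (mul_left_cancel₀ (pow_ne_zero j hε0) h2).symm
    have hd : d = 1 ∨ d = 2 ∨ d = 3 := by omega
    rcases hd with rfl | rfl | rfl
    · exact hε1 (by simpa using h1)
    · exact hε2 h1
    · exact hε3 h1
  have hpow : ∀ j k : Fin 4, j ≠ k → ε ^ (j : ℕ) ≠ ε ^ (k : ℕ) := by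
    intro j k hjk
    rcases lt_or_gt_of_ne (fun h => hjk (Fin.ext h)) with h | h
    · exact hpow' j k h k.2
    · exact (hpow' k j h j.2).symm
  by_contra hcon
  -- `R` is injective
  have hRinj : ∀ j k : Fin 4, j ≠ k → R j ≠ R k := by
    intro j k hjk hRjk
    have hrel : ∀ p, c j * ((if p = a then ε ^ (k : ℕ) else if p = b then (ε ^ (k : ℕ))⁻¹ else 1)
        * g.1 p r) = c k * ((if p = a then ε ^ (j : ℕ) else if p = b then (ε ^ (j : ℕ))⁻¹ else 1)
        * g.1 p r) := by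
      intro p
      rw [hR k p, hR j p, hRjk]
      ring
    have hcc : c j = c k := by
      have h1 := hrel x
      rw [if_neg hxa, if_neg hxb, if_neg hxa, if_neg hxb, one_mul] at h1
      exact mul_right_cancel₀ hx h1
    apply hcon
    constructor
    · have h1 := hrel a
      rw [if_pos rfl, if_pos rfl, hcc] at h1
      have h2 : (ε ^ (k : ℕ) - ε ^ (j : ℕ)) * g.1 a r = 0 := by
        apply mul_left_cancel₀ (hc k)
        linear_combination h1
      rcases mul_eq_zero.mp h2 with h | h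
      · exact absurd (sub_eq_zero.mp h) (hpow k j (Ne.symm hjk))
      · exact h
    · have h1 := hrel b
      rw [if_neg (Ne.symm hab), if_pos rfl, if_neg (Ne.symm hab), if_pos rfl, hcc] at h1
      have h2 : ((ε ^ (k : ℕ))⁻¹ - (ε ^ (j : ℕ))⁻¹) * g.1 b r = 0 := by
        apply mul_left_cancel₀ (hc k)
        linear_combination h1
      rcases mul_eq_zero.mp h2 with h | h
      · exact absurd (inv_injective (sub_eq_zero.mp h)) (hpow k j (Ne.symm hjk))
      · exact h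
  -- the linear relation
  obtain ⟨w, hw⟩ : ∃ w : Fin n → K, w =
      ((-ε) * c 0) • Pi.single (R 0) 1 + ((1 + ε + ε ^ 2) * c 1) • Pi.single (R 1) 1 +
      ((-(1 + ε + ε ^ 2)) * c 2) • Pi.single (R 2) 1 + (ε * c 3) • Pi.single (R 3) 1 := ⟨_, rfl⟩
  have hgw : g.1 *ᵥ w = 0 := by
    ext p
    rw [hw]
    simp only [Matrix.mulVec_add, Matrix.mulVec_smul, Matrix.mulVec_single_one, Pi.add_apply,
      Pi.smul_apply, smul_eq_mul, Matrix.col_apply, Pi.zero_apply]
    have e0 := hR 0 p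
    have e1 := hR 1 p
    have e2 := hR 2 p
    have e3 := hR 3 p
    simp only [Fin.val_zero, Fin.val_one, Fin.val_two, pow_zero, pow_one] at e0 e1 e2 e3
    have e3' : (if p = a then ε ^ 3 else if p = b then (ε ^ 3)⁻¹ else 1) * g.1 p r
        = c 3 * g.1 p (R 3) := e3
    by_cases hpa : p = a
    · rw [if_pos hpa] at e0 e1 e2 e3'
      linear_combination ε * e0 - (1 + ε + ε ^ 2) * e1 + (1 + ε + ε ^ 2) * e2 - ε * e3'
    · by_cases hpb : p = b
      · rw [if_neg hpa, if_pos hpb] at e0 e1 e2 e3'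
        have hinv : (-ε) * (1 : K)⁻¹ + (1 + ε + ε ^ 2) * ε⁻¹ - (1 + ε + ε ^ 2) * (ε ^ 2)⁻¹
            + ε * (ε ^ 3)⁻¹ = 0 := by
          field_simp
          ring
        linear_combination ε * e0 - (1 + ε + ε ^ 2) * e1 + (1 + ε + ε ^ 2) * e2 - ε * e3'
          + g.1 p r * hinv
      · rw [if_neg hpa, if_neg hpb] at e0 e1 e2 e3'
        linear_combination ε * e0 - (1 + ε + ε ^ 2) * e1 + (1 + ε + ε ^ 2) * e2 - ε * e3'
  have hw0 := congrFun (mulVec_eq_zero_gl g w hgw) (R 0)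
  rw [hw] at hw0
  have h01 : R 1 ≠ R 0 := hRinj 1 0 (by decide)
  have h02 : R 2 ≠ R 0 := hRinj 2 0 (by decide)
  have h03 : R 3 ≠ R 0 := hRinj 3 0 (by decide)
  simp only [Pi.add_apply, Pi.smul_apply, smul_eq_mul, Pi.single_eq_same,
    Pi.single_eq_of_ne (Ne.symm h01), Pi.single_eq_of_ne (Ne.symm h02),
    Pi.single_eq_of_ne (Ne.symm h03), mul_zero, add_zero, mul_one, Pi.zero_apply] at hw0
  rcases mul_eq_zero.mp hw0 with h | h
  · exact hε0 (neg_eq_zero.mp h)
  · exact hc 0 h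

/-- PIECE I1 -/
theorem nf_two_zeros [Fintype K] (hq : 5 ≤ Fintype.card K) (n : ℕ) (hn : 5 ≤ n)
    (M : Subgroup (GL (Fin n) K)) (hH : MonSLLE M) (hNF : NoFix M)
    (g : GL (Fin n) K) (hg : g ∈ M) (hgm : ¬ IsMono g.1) (t a b : Fin n) (hab : a ≠ b)
    (ha : g.1 a t = 0) (hb : g.1 b t = 0) : False := by
  classical
  obtain ⟨r, hr⟩ := row_ne_zero g a
  have hsupp : ∀ x, x ≠ a → x ≠ b → g.1 x r = 0 := by
    intro x hxa hxb
    by_contra hx
    exact hr (step1 hq n M hH hNF g hg t a b hab ha hb r x hxa hxb hx).1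
  obtain ⟨a', ha'⟩ := exists_notMem_fin ({a, b} : Finset (Fin n))
    (lt_of_le_of_lt Finset.card_le_two (by omega))
  obtain ⟨b', hb'⟩ := exists_notMem_fin ({a, b, a'} : Finset (Fin n))
    (lt_of_le_of_lt Finset.card_le_three (by omega))
  obtain ⟨b'', hb''⟩ := exists_notMem_fin ({a, b, a', b'} : Finset (Fin n))
    (lt_of_le_of_lt Finset.card_le_four (by omega))
  simp only [Finset.mem_insert, Finset.mem_singleton, not_or] at ha' hb' hb''
  obtain ⟨r', hr'⟩ := row_ne_zero g a'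
  have h1 : ∀ x, x ≠ a' → x ≠ b' → g.1 x r' = 0 := by
    intro x hx1 hx2
    by_contra hx
    exact hr' (step1 hq n M hH hNF g hg r a' b' (Ne.symm hb'.2.2) (hsupp a' ha'.1 ha'.2)
      (hsupp b' hb'.1 hb'.2.1) r' x hx1 hx2 hx).1
  have h2 : ∀ x, x ≠ a' → x ≠ b'' → g.1 x r' = 0 := by
    intro x hx1 hx2
    by_contra hx
    exact hr' (step1 hq n M hH hNF g hg r a' b'' (Ne.symm hb''.2.2.1) (hsupp a' ha'.1 ha'.2)
      (hsupp b'' hb''.1 hb''.2.1) r' x hx1 hx2 hx).1
  obtain ⟨p, hpa', hp⟩ :=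
    Cfsg.Agent.Helper14.C2T.nf_no_coord n (by omega) M hH hNF g hg hgm r' a'
  by_cases hpb' : p = b'
  · exact hp (h2 p hpa' (by rw [hpb']; exact Ne.symm hb''.2.2.2))
  · exact hp (h1 p hpa' hpb')

end Cfsg.Agent.Helper20.C2I1
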