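import Mathlib

/-!
# CALL C9 (helper1, S1376): piece G5 `c9_Gfin` (pure), double by helper20
-/

set_option autoImplicit false

namespace Cfsg.Agent.Helper20

open Subgroup

open scoped Pointwise

universe u

variable {G : Type u} [Group G] [Finite G]

omit [Finite G] in
theorem c9g5_conj_mem_sup {A B : Subgroup G} {g : G} (hA : g ∈ normalizer (A : Set G))
    (hB : g ∈ normalizer (B : Set G)) : ∀ n ∈ A ⊔ B, g * n * g⁻¹ ∈ A ⊔ B := by
  have h : A ⊔ B ≤ (A ⊔ B).comap (MulAut.conj g).toMonoidHom := by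
    apply sup_le
    · intro a ha
      rw [Subgroup.mem_comap]
      show g * a * g⁻¹ ∈ A ⊔ B
      exact Subgroup.mem_sup_left ((Subgroup.mem_normalizer_iff.mp hA a).mp ha)
    · intro b hb
      rw [Subgroup.mem_comap]
      show g * b * g⁻¹ ∈ A ⊔ B
      exact Subgroup.mem_sup_right ((Subgroup.mem_normalizer_iff.mp hB b).mp hb)
  intro n hn
  exact h hn

omit [Finite G] in
theorem c9g5_le_normalizer {X S : Subgroup G} (h : ∀ g ∈ X, ∀ n ∈ S, g * n * g⁻¹ ∈ S) :
    X ≤ normalizer (S : Set G) := by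
  intro g hg
  rw [Subgroup.mem_normalizer_iff]
  intro n
  constructor
  · exact h g hg n
  · intro hn
    have h2 := h g⁻¹ (X.inv_mem hg) _ hn
    have e : g⁻¹ * (g * n * g⁻¹) * g⁻¹⁻¹ = n := by group
    rwa [e] at h2

theorem c9_Gfin {L K KL Q D : Subgroup G} (hK1 : K ≠ ⊥) (hKp : (Nat.card K).Prime)
    (hKL : 2 ≤ Nat.card KL) (hKQ : K ≤ Q) (hLle : L ≤ KL ⊔ (Q ⊔ D)) (hKLL : KL ≤ L)
    (hLn₀ : L ≤ normalizer ((Q ⊓ centralizer (D : Set G) : Subgroup G) : Set G))
    (hcomm : ∀ a ∈ Q, ∀ b ∈ Q, a * b * a⁻¹ * b⁻¹ ∈ Q ⊓ centralizer (D : Set G))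
    (hmin : ∀ N' : Subgroup G, Q ⊓ centralizer (D : Set G) < N' → N' < Q →
      ¬ L ≤ normalizer (N' : Set G))
    (hcard : Nat.card Q = Nat.card ↥(Q ⊓ centralizer (D : Set G)) * Nat.card K ^ Nat.card KL)
    (hdisj : K ⊓ (Q ⊓ centralizer (D : Set G)) = ⊥) (hDK : D ≤ normalizer (K : Set G))
    (hDL : D ≤ L) (hKLK : KL ≤ centralizer (K : Set G)) : False := by
  set C : Subgroup G := Q ⊓ centralizer (D : Set G) with hC
  have hCQ : C ≤ Q := inf_le_left
  have hN'Q : C ⊔ K ≤ Q := sup_le hCQ hKQ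
  -- `Q` normalizes every subgroup between `C` and `Q`
  have hQn : ∀ S : Subgroup G, C ≤ S → S ≤ Q → Q ≤ normalizer (S : Set G) := by
    intro S hCS hSQ
    apply c9g5_le_normalizer
    intro a ha n hn
    have h1 := hcomm a ha n (hSQ hn)
    have h2 : a * n * a⁻¹ = (a * n * a⁻¹ * n⁻¹) * n := by group
    rw [h2]
    exact S.mul_mem (hCS h1) hn
  have hlt1 : C < C ⊔ K := by
    refine lt_of_le_of_ne le_sup_left ?_
    intro e
    have hKC : K ≤ C := by rw [e]; exact le_sup_right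
    apply hK1
    rw [← hdisj]
    exact (inf_eq_left.mpr hKC).symm
  have hlt2 : C ⊔ K < Q := by
    refine lt_of_le_of_ne hN'Q ?_
    intro e
    have hKn : K ≤ normalizer (C : Set G) := hKQ.trans (hQn C le_rfl hCQ)
    have hset : ((C ⊔ K : Subgroup G) : Set G) = (C : Set G) * (K : Set G) :=
      Subgroup.coe_mul_of_right_le_normalizer_left C K hKn
    have h1 : Nat.card ↥(C ⊔ K) ≤ Nat.card C * Nat.card K := by
      have h0 : Nat.card ↥(C ⊔ K) = Nat.card ((C : Set G) * (K : Set G) : Set G) := by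
        rw [← hset]; rfl
      rw [h0]
      exact Set.natCard_mul_le
    rw [e, hcard] at h1
    have hCpos : 0 < Nat.card C := Nat.card_pos
    have h2 : Nat.card K ^ Nat.card KL ≤ Nat.card K := Nat.le_of_mul_le_mul_left h1 hCpos
    have h3 : Nat.card K < Nat.card K ^ Nat.card KL := by
      calc Nat.card K = Nat.card K ^ 1 := (pow_one _).symm
        _ < Nat.card K ^ Nat.card KL := Nat.pow_lt_pow_right hKp.one_lt (by omega)
    omega
  apply hmin (C ⊔ K) hlt1 hlt2
  have hKLn : KL ≤ normalizer ((C ⊔ K : Subgroup G) : Set G) := by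
    apply c9g5_le_normalizer
    intro g hg
    exact c9g5_conj_mem_sup (hLn₀ (hKLL hg)) (Subgroup.centralizer_le_normalizer (K : Set G) (hKLK hg))
  have hDn : D ≤ normalizer ((C ⊔ K : Subgroup G) : Set G) := by
    apply c9g5_le_normalizer
    intro g hg
    exact c9g5_conj_mem_sup (hLn₀ (hDL hg)) (hDK hg)
  exact hLle.trans (sup_le hKLn (sup_le (hQn _ le_sup_left hN'Q) hDn))

end Cfsg.Agent.Helper20
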