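import Mathlib
import Cfsg.Agent.Helper21.Basic
import Cfsg.Agent.Helper21.Dih
import Cfsg.Agent.Helper21.Four
import Cfsg.Agent.Helper21.DihAut
import Cfsg.Agent.Helper33.Frobenius
import Cfsg.Agent.S1254

set_option autoImplicit false

/-!
# Klein four-subgroups of a group with dihedral Sylow 2-subgroup (helper20)

Builds on helper21's `Dih`/`Four` libraries and on S1254 (normal 2-complement criterion).
-/

namespace Cfsg.Agent.Helper20

open Cfsg.Agent.Helper21 DihedralGroup

section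

variable {X : Type*} [Group X]

/-- A conjugate of a Klein four-subgroup is a Klein four-subgroup. -/
theorem dihFour_isKleinFour_map_conj {V : Subgroup X} (hV : IsKleinFour V) (g : X) :
    IsKleinFour (V.map (MulAut.conj g).toMonoidHom) := by
  apply Four.isKleinFour_of
  · rw [← Nat.card_congr (V.equivMapOfInjective _ (MulAut.conj g).injective).toEquiv]
    exact hV.card_four
  · intro x hx
    rw [mem_map_conj_iff] at hx
    have h1 := Four.mul_self_of_isKleinFour hV hx
    have h2 : x * x = g * ((g⁻¹ * x * g) * (g⁻¹ * x * g)) * g⁻¹ := by group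
    rw [h2, h1]; group

/-- Two Klein four-subgroups are conjugate by `g` as soon as `U ≤ g V g⁻¹`. -/
theorem dihFour_map_conj_eq [Finite X] {V U : Subgroup X} (hV : IsKleinFour V)
    (hU : IsKleinFour U) (g : X) (h : ∀ u ∈ U, g⁻¹ * u * g ∈ V) :
    V.map (MulAut.conj g).toMonoidHom = U := by
  symm
  apply Subgroup.eq_of_le_of_card_ge
  · intro u hu
    rw [mem_map_conj_iff]
    exact h u hu
  · rw [(dihFour_isKleinFour_map_conj hV g).card_four, hU.card_four]

/-- Conjugating into `fourSub z a`. -/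
theorem dihFour_map_conj_eq_fourSub [Finite X] {V : Subgroup X} (hV : IsKleinFour V)
    {z a : X} (hz : z * z = 1) (ha : a * a = 1) (hza : z * a = a * z)
    (hz1 : z ≠ 1) (ha1 : a ≠ 1) (hne : z ≠ a) (g : X)
    (h1 : g⁻¹ * z * g ∈ V) (h2 : g⁻¹ * a * g ∈ V) :
    V.map (MulAut.conj g).toMonoidHom = Four.fourSub z a hz ha hza := by
  apply dihFour_map_conj_eq hV (Four.isKleinFour_fourSub hz ha hza hz1 ha1 hne)
  rintro u (rfl | rfl | rfl | rfl)
  · simp
  · exact h1
  · exact h2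
  · have : g⁻¹ * (z * a) * g = (g⁻¹ * z * g) * (g⁻¹ * a * g) := by group
    rw [this]
    exact V.mul_mem h1 h2

variable {S : Subgroup X} {m : ℕ}

theorem dihFour_conj_r_sr (e : ↥S ≃* DihedralGroup m) (k i : ZMod m) :
    Dih.lift e (r k) * Dih.lift e (sr i) * (Dih.lift e (r k))⁻¹ = Dih.lift e (sr (i - k - k)) := by
  rw [← Dih.lift_inv, ← Dih.lift_mul, ← Dih.lift_mul, inv_r, r_mul_sr, sr_mul_r]
  congr 2
  ring

theorem dihFour_conj_sr_sr (e : ↥S ≃* DihedralGroup m) (k i : ZMod m) :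
    Dih.lift e (sr k) * Dih.lift e (sr i) * (Dih.lift e (sr k))⁻¹ =
      Dih.lift e (sr (k + k - i)) := by
  rw [← Dih.lift_inv, ← Dih.lift_mul, ← Dih.lift_mul, inv_sr, sr_mul_sr, r_mul_sr]
  congr 2
  ring

/-- Conjugation inside `S` preserves the parity of the index of a reflection. -/
theorem dihFour_conj_parity (e : ↥S ≃* DihedralGroup m) (h2 : 2 ∣ m) {t : X} (ht : t ∈ S)
    (i : ZMod m) :
    ∃ j, t * Dih.lift e (sr i) * t⁻¹ = Dih.lift e (sr j) ∧
      ZMod.castHom h2 (ZMod 2) j = ZMod.castHom h2 (ZMod 2) i := by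
  rcases Dih.cases_mem e ht with ⟨k, hk⟩ | ⟨k, hk⟩
  · have htk : t = Dih.lift e (r k) := by rw [← hk]; exact Dih.eq_lift e ht
    refine ⟨i - k - k, by rw [htk]; exact dihFour_conj_r_sr e k i, ?_⟩
    rw [map_sub, map_sub]
    have := CharTwo.add_self_eq_zero (ZMod.castHom h2 (ZMod 2) k)
    linear_combination -this
  · have htk : t = Dih.lift e (sr k) := by rw [← hk]; exact Dih.eq_lift e ht
    refine ⟨k + k - i, by rw [htk]; exact dihFour_conj_sr_sr e k i, ?_⟩
    rw [map_sub, map_add]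
    have h1 := CharTwo.add_self_eq_zero (ZMod.castHom h2 (ZMod 2) k)
    have h3 := CharTwo.add_self_eq_zero (ZMod.castHom h2 (ZMod 2) i)
    linear_combination h1 - h3

/-- The half-turn is an involution. -/
theorem dihFour_half_mul_self (e : ↥S ≃* DihedralGroup m) (hm : Even m) :
    Dih.lift e (r ((m / 2 : ℕ) : ZMod m)) * Dih.lift e (r ((m / 2 : ℕ) : ZMod m)) = 1 := by
  rw [← Dih.lift_mul, r_mul_r, Dih.half_add_half hm, r_zero, Dih.lift_one]

theorem dihFour_half_ne_one (e : ↥S ≃* DihedralGroup m) (hm2 : 2 ≤ m) :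
    Dih.lift e (r ((m / 2 : ℕ) : ZMod m)) ≠ 1 := by
  intro h
  rw [← Dih.lift_one e] at h
  have h2 := Dih.lift_injective e h
  rw [one_def] at h2
  injection h2 with h3
  exact Dih.half_ne_zero hm2 h3

/-- The half-turn times a reflection. -/
theorem dihFour_half_mul_sr (e : ↥S ≃* DihedralGroup m) (i : ZMod m) :
    Dih.lift e (r ((m / 2 : ℕ) : ZMod m)) * Dih.lift e (sr i) =
      Dih.lift e (sr (i - ((m / 2 : ℕ) : ZMod m))) := by
  rw [← Dih.lift_mul, r_mul_sr]

/-- The half-turn commutes with reflections. -/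
theorem dihFour_half_comm_sr (e : ↥S ≃* DihedralGroup m) (hm : Even m) (i : ZMod m) :
    Dih.lift e (r ((m / 2 : ℕ) : ZMod m)) * Dih.lift e (sr i) =
      Dih.lift e (sr i) * Dih.lift e (r ((m / 2 : ℕ) : ZMod m)) := by
  rw [← Dih.lift_mul, ← Dih.lift_mul, r_mul_sr, sr_mul_r]
  congr 2
  have := Dih.half_add_half hm
  linear_combination -this

/-- The half-turn is central in `S`. -/
theorem dihFour_half_comm (e : ↥S ≃* DihedralGroup m) (hm : Even m) {x : X} (hx : x ∈ S) :
    Dih.lift e (r ((m / 2 : ℕ) : ZMod m)) * x = x * Dih.lift e (r ((m / 2 : ℕ) : ZMod m)) := by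
  by_cases hxr : x ∈ Dih.rot e
  · exact Dih.rot_comm e (Dih.lift_r_mem e _) hxr
  · obtain ⟨i, rfl⟩ := (Dih.not_mem_rot_iff_lift e hx).mp hxr
    exact dihFour_half_comm_sr e hm i

/-- The quarter-turn conjugates a reflection to its product with the half-turn. -/
theorem dihFour_quarter_conj (e : ↥S ≃* DihedralGroup m) (h4 : 4 ∣ m) (i : ZMod m) :
    Dih.lift e (r ((m / 4 : ℕ) : ZMod m)) * Dih.lift e (sr i) *
        (Dih.lift e (r ((m / 4 : ℕ) : ZMod m)))⁻¹ =
      Dih.lift e (r ((m / 2 : ℕ) : ZMod m)) * Dih.lift e (sr i) := by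
  rw [dihFour_conj_r_sr, dihFour_half_mul_sr]
  congr 2
  have h : ((m / 4 : ℕ) : ZMod m) + ((m / 4 : ℕ) : ZMod m) = ((m / 2 : ℕ) : ZMod m) := by
    rw [← Nat.cast_add]
    congr 1
    omega
  linear_combination -h

/-- A Klein four-subgroup of a dihedral group contains the half-turn and a reflection. -/
theorem dihFour_mem_of_le [NeZero m] (e : ↥S ≃* DihedralGroup m) (hm : Even m) (hm2 : 2 ≤ m)
    {U : Subgroup X} (hU : U ≤ S) (hU4 : IsKleinFour U) :
    Dih.lift e (r ((m / 2 : ℕ) : ZMod m)) ∈ U ∧ ∃ i, Dih.lift e (sr i) ∈ U := by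
  have hzr : Dih.lift e (r ((m / 2 : ℕ) : ZMod m)) ∈ Dih.rot e := Dih.lift_r_mem e _
  have hz2 := dihFour_half_mul_self e hm
  have hz1 := dihFour_half_ne_one e hm2
  have hnc : ¬ IsCyclic U := IsKleinFour.not_isCyclic
  obtain ⟨x, hxU, hxr⟩ : ∃ x ∈ U, x ∉ Dih.rot e := by
    by_contra hcon
    push Not at hcon
    exact hnc (DihAut.isCyclic_of_le_rot e hcon)
  obtain ⟨i, rfl⟩ := (Dih.not_mem_rot_iff_lift e (hU hxU)).mp hxr
  refine ⟨?_, i, hxU⟩
  obtain ⟨y, hyU, hyx⟩ : ∃ y ∈ U, y ∉ Subgroup.zpowers (Dih.lift e (sr i)) := by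
    by_contra hcon
    push Not at hcon
    apply hnc
    have h1 : IsCyclic ↥(U.subgroupOf (Subgroup.zpowers (Dih.lift e (sr i)))) := inferInstance
    exact isCyclic_of_surjective (Subgroup.subgroupOfEquivOfLe hcon).toMonoidHom
      (Subgroup.subgroupOfEquivOfLe hcon).surjective
  have hy1 : y ≠ 1 := fun h => hyx (h ▸ Subgroup.one_mem _)
  have hyx' : y ≠ Dih.lift e (sr i) := fun h => hyx (h ▸ Subgroup.mem_zpowers _)
  have hy2 := Four.mul_self_of_isKleinFour hU4 hyU
  by_cases hyr : y ∈ Dih.rot e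
  · have := Dih.rot_involution_unique e hyr hzr hy2 hy1 hz2 hz1
    rw [← this]; exact hyU
  · obtain ⟨j, rfl⟩ := (Dih.not_mem_rot_iff_lift e (hU hyU)).mp hyr
    have hw : Dih.lift e (sr i) * Dih.lift e (sr j) ∈ U := U.mul_mem hxU hyU
    have hwr : Dih.lift e (sr i) * Dih.lift e (sr j) ∈ Dih.rot e := by
      rw [← Dih.lift_mul, sr_mul_sr]; exact Dih.lift_r_mem e _
    have hw2 := Four.mul_self_of_isKleinFour hU4 hw
    have hw1 : Dih.lift e (sr i) * Dih.lift e (sr j) ≠ 1 := by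
      intro h
      apply hyx'
      have h3 := Four.mul_self_of_isKleinFour hU4 hxU
      exact (mul_left_cancel (h.trans h3.symm))
    have := Dih.rot_involution_unique e hwr hzr hw2 hw1 hz2 hz1
    rw [← this]; exact hw

end

/-- If the half-turn of a dihedral Sylow 2-subgroup `T` (of order at least 8) of `Y` is central
in `Y`, then `Y`-conjugation preserves the parity of reflections of `T`. -/
theorem dihFour_central_parity {Y : Type*} [Group Y] [Finite Y] (T : Sylow 2 Y) (m : ℕ)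
    (h4 : 4 ∣ m) (hm0 : m ≠ 0) (e : (T : Subgroup Y) ≃* DihedralGroup m)
    (hcen : ∀ g : Y, g * Dih.lift e (r ((m / 2 : ℕ) : ZMod m)) =
      Dih.lift e (r ((m / 2 : ℕ) : ZMod m)) * g)
    (h2 : 2 ∣ m) (y : Y) (i j : ZMod m)
    (hy : y * Dih.lift e (sr i) * y⁻¹ = Dih.lift e (sr j)) :
    ZMod.castHom h2 (ZMod 2) j = ZMod.castHom h2 (ZMod 2) i := by
  have hne : NeZero m := ⟨hm0⟩
  have hm2 : 2 ≤ m := by
    obtain ⟨c, hc⟩ := h4
    omega
  have heven : Even m := by
    obtain ⟨c, hc⟩ := h2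
    exact ⟨c, by omega⟩
  have hz2 := dihFour_half_mul_self e heven
  have hz1 := dihFour_half_ne_one e hm2
  have hcomp : Cfsg.HasNormalPComplement 2 Y := by
    rw [Cfsg.Agent.S1254.result T m hm2 e]
    intro U hU hU4
    apply le_antisymm
    · intro n hn
      obtain ⟨hzU, k, hkU⟩ := dihFour_mem_of_le e heven hm2 hU hU4
      have ht1 : Dih.lift e (sr k) ≠ 1 := by
        intro h
        exact Dih.lift_sr_not_mem e k (h ▸ Subgroup.one_mem _)
      have hzt : Dih.lift e (r ((m / 2 : ℕ) : ZMod m)) ≠ Dih.lift e (sr k) := by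
        intro h
        exact Dih.lift_sr_not_mem e k (h ▸ Dih.lift_r_mem e _)
      have hnU : ∀ u ∈ U, n * u * n⁻¹ ∈ U := fun u hu =>
        (Subgroup.mem_normalizer_iff.mp hn u).mp hu
      have hnz : n * Dih.lift e (r ((m / 2 : ℕ) : ZMod m)) * n⁻¹ =
          Dih.lift e (r ((m / 2 : ℕ) : ZMod m)) := by
        rw [hcen n]; group
      rcases Four.mem_cases hU4 hzU hkU hz1 ht1 hzt (hnU _ hkU) with h | h | h | h
      · exfalso
        apply ht1
        have : Dih.lift e (sr k) = n⁻¹ * (n * Dih.lift e (sr k) * n⁻¹) * n := by group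
        rw [this, h]; group
      · exfalso
        apply hzt
        have : Dih.lift e (sr k) = n⁻¹ * (n * Dih.lift e (sr k) * n⁻¹) * n := by group
        rw [this, h, mul_assoc, ← hcen n]; group
      · apply Subgroup.mem_sup_left
        apply DihAut.mem_centralizer_of_conj_eq
        intro u hu
        rcases Four.mem_cases hU4 hzU hkU hz1 ht1 hzt hu with rfl | rfl | rfl | rfl
        · group
        · exact hnz
        · exact h
        · have : n * (Dih.lift e (r ((m / 2 : ℕ) : ZMod m)) * Dih.lift e (sr k)) * n⁻¹ =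
              (n * Dih.lift e (r ((m / 2 : ℕ) : ZMod m)) * n⁻¹) *
                (n * Dih.lift e (sr k) * n⁻¹) := by group
          rw [this, hnz, h]
      · -- `n` acts as the quarter-turn
        have haT : Dih.lift e (r ((m / 4 : ℕ) : ZMod m)) ∈ (T : Subgroup Y) := Dih.lift_mem e _
        have haz : Dih.lift e (r ((m / 4 : ℕ) : ZMod m)) *
            Dih.lift e (r ((m / 2 : ℕ) : ZMod m)) *
            (Dih.lift e (r ((m / 4 : ℕ) : ZMod m)))⁻¹ =
            Dih.lift e (r ((m / 2 : ℕ) : ZMod m)) := by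
          rw [hcen _]; group
        have hat := dihFour_quarter_conj e h4 k
        have haN : Dih.lift e (r ((m / 4 : ℕ) : ZMod m)) ∈ Subgroup.normalizer (U : Set Y) := by
          apply mem_normalizer_of_conj_mem
          intro u hu
          rcases Four.mem_cases hU4 hzU hkU hz1 ht1 hzt hu with rfl | rfl | rfl | rfl
          · simp
          · rw [haz]; exact hzU
          · rw [hat]; exact U.mul_mem hzU hkU
          · have : Dih.lift e (r ((m / 4 : ℕ) : ZMod m)) *
                (Dih.lift e (r ((m / 2 : ℕ) : ZMod m)) * Dih.lift e (sr k)) *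
                (Dih.lift e (r ((m / 4 : ℕ) : ZMod m)))⁻¹ =
                (Dih.lift e (r ((m / 4 : ℕ) : ZMod m)) * Dih.lift e (r ((m / 2 : ℕ) : ZMod m)) *
                  (Dih.lift e (r ((m / 4 : ℕ) : ZMod m)))⁻¹) *
                (Dih.lift e (r ((m / 4 : ℕ) : ZMod m)) * Dih.lift e (sr k) *
                  (Dih.lift e (r ((m / 4 : ℕ) : ZMod m)))⁻¹) := by group
            rw [this, haz, hat]
            exact U.mul_mem hzU (U.mul_mem hzU hkU)
        -- `a⁻¹ t a = z t`
        have hat' : (Dih.lift e (r ((m / 4 : ℕ) : ZMod m)))⁻¹ * Dih.lift e (sr k) *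
            Dih.lift e (r ((m / 4 : ℕ) : ZMod m)) =
            Dih.lift e (r ((m / 2 : ℕ) : ZMod m)) * Dih.lift e (sr k) := by
          have h5 : Dih.lift e (sr k) = (Dih.lift e (r ((m / 4 : ℕ) : ZMod m)))⁻¹ *
              (Dih.lift e (r ((m / 2 : ℕ) : ZMod m)) * Dih.lift e (sr k)) *
              Dih.lift e (r ((m / 4 : ℕ) : ZMod m)) := by
            rw [← hat]; group
          have h6 : (Dih.lift e (r ((m / 4 : ℕ) : ZMod m)))⁻¹ *
              (Dih.lift e (r ((m / 2 : ℕ) : ZMod m)) * Dih.lift e (sr k)) *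
              Dih.lift e (r ((m / 4 : ℕ) : ZMod m)) =
              Dih.lift e (r ((m / 2 : ℕ) : ZMod m)) *
              ((Dih.lift e (r ((m / 4 : ℕ) : ZMod m)))⁻¹ * Dih.lift e (sr k) *
              Dih.lift e (r ((m / 4 : ℕ) : ZMod m))) := by
            calc (Dih.lift e (r ((m / 4 : ℕ) : ZMod m)))⁻¹ *
                (Dih.lift e (r ((m / 2 : ℕ) : ZMod m)) * Dih.lift e (sr k)) *
                Dih.lift e (r ((m / 4 : ℕ) : ZMod m))
                = ((Dih.lift e (r ((m / 4 : ℕ) : ZMod m)))⁻¹ *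
                  Dih.lift e (r ((m / 2 : ℕ) : ZMod m))) * Dih.lift e (sr k) *
                  Dih.lift e (r ((m / 4 : ℕ) : ZMod m)) := by group
              _ = (Dih.lift e (r ((m / 2 : ℕ) : ZMod m)) *
                  (Dih.lift e (r ((m / 4 : ℕ) : ZMod m)))⁻¹) * Dih.lift e (sr k) *
                  Dih.lift e (r ((m / 4 : ℕ) : ZMod m)) := by rw [hcen]
              _ = _ := by group
          rw [h6] at h5
          calc (Dih.lift e (r ((m / 4 : ℕ) : ZMod m)))⁻¹ * Dih.lift e (sr k) *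
                Dih.lift e (r ((m / 4 : ℕ) : ZMod m))
              = (Dih.lift e (r ((m / 2 : ℕ) : ZMod m)) * Dih.lift e (r ((m / 2 : ℕ) : ZMod m))) *
                ((Dih.lift e (r ((m / 4 : ℕ) : ZMod m)))⁻¹ * Dih.lift e (sr k) *
                Dih.lift e (r ((m / 4 : ℕ) : ZMod m))) := by rw [hz2, one_mul]
            _ = Dih.lift e (r ((m / 2 : ℕ) : ZMod m)) * Dih.lift e (sr k) := by
                rw [mul_assoc, ← h5]
        have hcC : n * (Dih.lift e (r ((m / 4 : ℕ) : ZMod m)))⁻¹ ∈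
            Subgroup.centralizer (U : Set Y) := by
          apply DihAut.mem_centralizer_of_conj_eq
          have hz' : n * (Dih.lift e (r ((m / 4 : ℕ) : ZMod m)))⁻¹ *
              Dih.lift e (r ((m / 2 : ℕ) : ZMod m)) *
              (n * (Dih.lift e (r ((m / 4 : ℕ) : ZMod m)))⁻¹)⁻¹ =
              Dih.lift e (r ((m / 2 : ℕ) : ZMod m)) := by
            rw [hcen _]; group
          have ht' : n * (Dih.lift e (r ((m / 4 : ℕ) : ZMod m)))⁻¹ * Dih.lift e (sr k) *
              (n * (Dih.lift e (r ((m / 4 : ℕ) : ZMod m)))⁻¹)⁻¹ = Dih.lift e (sr k) := by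
            have : n * (Dih.lift e (r ((m / 4 : ℕ) : ZMod m)))⁻¹ * Dih.lift e (sr k) *
                (n * (Dih.lift e (r ((m / 4 : ℕ) : ZMod m)))⁻¹)⁻¹ =
                n * ((Dih.lift e (r ((m / 4 : ℕ) : ZMod m)))⁻¹ * Dih.lift e (sr k) *
                  Dih.lift e (r ((m / 4 : ℕ) : ZMod m))) * n⁻¹ := by group
            rw [this, hat']
            have : n * (Dih.lift e (r ((m / 2 : ℕ) : ZMod m)) * Dih.lift e (sr k)) * n⁻¹ =
                (n * Dih.lift e (r ((m / 2 : ℕ) : ZMod m)) * n⁻¹) *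
                  (n * Dih.lift e (sr k) * n⁻¹) := by group
            rw [this, hnz, h, ← mul_assoc, hz2, one_mul]
          intro u hu
          rcases Four.mem_cases hU4 hzU hkU hz1 ht1 hzt hu with rfl | rfl | rfl | rfl
          · group
          · exact hz'
          · exact ht'
          · have : n * (Dih.lift e (r ((m / 4 : ℕ) : ZMod m)))⁻¹ *
                (Dih.lift e (r ((m / 2 : ℕ) : ZMod m)) * Dih.lift e (sr k)) *
                (n * (Dih.lift e (r ((m / 4 : ℕ) : ZMod m)))⁻¹)⁻¹ =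
                (n * (Dih.lift e (r ((m / 4 : ℕ) : ZMod m)))⁻¹ *
                  Dih.lift e (r ((m / 2 : ℕ) : ZMod m)) *
                  (n * (Dih.lift e (r ((m / 4 : ℕ) : ZMod m)))⁻¹)⁻¹) *
                (n * (Dih.lift e (r ((m / 4 : ℕ) : ZMod m)))⁻¹ * Dih.lift e (sr k) *
                  (n * (Dih.lift e (r ((m / 4 : ℕ) : ZMod m)))⁻¹)⁻¹) := by group
            rw [this, hz', ht']
        have e2 : n = (n * (Dih.lift e (r ((m / 4 : ℕ) : ZMod m)))⁻¹) *
            Dih.lift e (r ((m / 4 : ℕ) : ZMod m)) := by group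
        rw [e2]
        exact Subgroup.mul_mem_sup hcC ⟨haT, haN⟩
    · exact sup_le (Subgroup.centralizer_le_normalizer _) inf_le_right
  obtain ⟨K, hKn, hKc, hKm⟩ := Cfsg.Agent.Helper33.hasNormalPComplement_iff_p'.mp hcomp
  have hc := Cfsg.Agent.Helper33.isComplement'_of_normal_p' K hKc hKm T
  obtain ⟨⟨k, s⟩, hks⟩ := hc.2 y
  have hks' : (k : Y) * (s : Y) = y := hks
  have hdisj : K ⊓ (T : Subgroup Y) = ⊥ := hc.disjoint.eq_bot
  have hsT : (s : Y) * Dih.lift e (sr i) * (s : Y)⁻¹ ∈ (T : Subgroup Y) :=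
    Subgroup.mul_mem _ (Subgroup.mul_mem _ s.2 (Dih.lift_mem e _)) (Subgroup.inv_mem _ s.2)
  have key : y * Dih.lift e (sr i) * y⁻¹ = (s : Y) * Dih.lift e (sr i) * (s : Y)⁻¹ := by
    have h1 : y * Dih.lift e (sr i) * y⁻¹ * ((s : Y) * Dih.lift e (sr i) * (s : Y)⁻¹)⁻¹ ∈ K := by
      have e1 : y * Dih.lift e (sr i) * y⁻¹ * ((s : Y) * Dih.lift e (sr i) * (s : Y)⁻¹)⁻¹ =
          (k : Y) * (((s : Y) * Dih.lift e (sr i) * (s : Y)⁻¹) * (k : Y)⁻¹ *
            ((s : Y) * Dih.lift e (sr i) * (s : Y)⁻¹)⁻¹) := by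
        rw [← hks']; group
      rw [e1]
      exact K.mul_mem k.2 (hKn.conj_mem _ (K.inv_mem k.2) _)
    have h2' : y * Dih.lift e (sr i) * y⁻¹ * ((s : Y) * Dih.lift e (sr i) * (s : Y)⁻¹)⁻¹ ∈
        (T : Subgroup Y) := by
      apply Subgroup.mul_mem _ _ (Subgroup.inv_mem _ hsT)
      rw [hy]
      exact Dih.lift_mem e _
    have h3 : y * Dih.lift e (sr i) * y⁻¹ * ((s : Y) * Dih.lift e (sr i) * (s : Y)⁻¹)⁻¹ ∈
        K ⊓ (T : Subgroup Y) := ⟨h1, h2'⟩
    rw [hdisj, Subgroup.mem_bot] at h3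
    exact mul_inv_eq_one.mp h3
  obtain ⟨j', hj', hpar⟩ := dihFour_conj_parity e h2 s.2 i
  rw [← key, hy] at hj'
  have := Dih.lift_injective e hj'
  injection this with h7
  rw [h7]
  exact hpar

end Cfsg.Agent.Helper20
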