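import Mathlib
import Cfsg.Prelude.Def_GeometricClasses
import Cfsg.Prelude.Def_LieClassical

set_option autoImplicit false

namespace Cfsg.Agent.Helper20
open scoped Matrix

/-- the order-three element -/
def e5b3M (F : Type*) [Field F] : Matrix (Fin 2 ⊕ Fin 2) (Fin 2 ⊕ Fin 2) F :=
  Matrix.fromBlocks !![0, 0; 0, 1] !![-1, 0; 0, 0] !![1, 0; 0, 0] !![-1, 0; 0, 1]

/-- its inverse -/
def e5b3Mi (F : Type*) [Field F] : Matrix (Fin 2 ⊕ Fin 2) (Fin 2 ⊕ Fin 2) F :=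
  Matrix.fromBlocks !![-1, 0; 0, 1] !![1, 0; 0, 0] !![-1, 0; 0, 0] !![0, 0; 0, 1]

theorem e5b3_mul_self (F : Type*) [Field F] : e5b3M F * e5b3M F = e5b3Mi F := by
  ext i j
  rcases i with i | i <;> rcases j with j | j <;> fin_cases i <;> fin_cases j <;>
    simp [e5b3M, e5b3Mi, Matrix.mul_apply, Fintype.sum_sum_type, Fin.sum_univ_two]

theorem e5b3_mul_inv (F : Type*) [Field F] : e5b3M F * e5b3Mi F = 1 := by
  ext i j
  rcases i with i | i <;> rcases j with j | j <;> fin_cases i <;> fin_cases j <;>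
    simp [e5b3M, e5b3Mi, Matrix.mul_apply, Fintype.sum_sum_type, Fin.sum_univ_two]

theorem e5b3_inv_mul (F : Type*) [Field F] : e5b3Mi F * e5b3M F = 1 := by
  ext i j
  rcases i with i | i <;> rcases j with j | j <;> fin_cases i <;> fin_cases j <;>
    simp [e5b3M, e5b3Mi, Matrix.mul_apply, Fintype.sum_sum_type, Fin.sum_univ_two]

theorem e5b3_symp (F : Type*) [Field F] :
    (e5b3M F)ᵀ * Matrix.J (Fin 2) F * e5b3M F = Matrix.J (Fin 2) F := by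
  ext i j
  rcases i with i | i <;> rcases j with j | j <;> fin_cases i <;> fin_cases j <;>
    simp [e5b3M, Matrix.J, Matrix.mul_apply, Fintype.sum_sum_type, Fin.sum_univ_two,
      Matrix.one_apply, Matrix.transpose_apply]

theorem e5b3_mem_spGL_of {F : Type*} [Field F] (g : GL (Fin 2 ⊕ Fin 2) F)
    (h : (g : Matrix (Fin 2 ⊕ Fin 2) (Fin 2 ⊕ Fin 2) F)ᵀ * Matrix.J (Fin 2) F *
        (g : Matrix (Fin 2 ⊕ Fin 2) (Fin 2 ⊕ Fin 2) F) = Matrix.J (Fin 2) F) :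
    g ∈ Cfsg.spGL 2 F := by
  intro u v
  show Cfsg.sympForm 2 F ((g : Matrix (Fin 2 ⊕ Fin 2) (Fin 2 ⊕ Fin 2) F) *ᵥ u)
    ((g : Matrix (Fin 2 ⊕ Fin 2) (Fin 2 ⊕ Fin 2) F) *ᵥ v) = Cfsg.sympForm 2 F u v
  unfold Cfsg.sympForm
  rw [← Matrix.vecMul_transpose, ← Matrix.dotProduct_mulVec, Matrix.mulVec_mulVec,
    Matrix.mulVec_mulVec, h]

theorem e5_bad_three {F : Type*} [Field F] :
    ∃ x : GL (Fin 2 ⊕ Fin 2) F, x ∈ Cfsg.spGL 2 F ∧ x ^ 3 = 1 ∧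
      (∀ c : F, (x : Matrix (Fin 2 ⊕ Fin 2) (Fin 2 ⊕ Fin 2) F) ≠ c • 1) ∧
      ((3 : F) ≠ 0 → (x : Matrix (Fin 2 ⊕ Fin 2) (Fin 2 ⊕ Fin 2) F).trace *
        ((x⁻¹ : GL (Fin 2 ⊕ Fin 2) F) : Matrix (Fin 2 ⊕ Fin 2) (Fin 2 ⊕ Fin 2) F).trace ≠ 4) ∧
      ((3 : F) = 0 → ∃ (μ : F) (u w : Fin 2 ⊕ Fin 2 → F),
        (x : Matrix (Fin 2 ⊕ Fin 2) (Fin 2 ⊕ Fin 2) F) = μ • 1 + Matrix.vecMulVec u w) := by
  obtain ⟨x, hx, hxi⟩ : ∃ x : GL (Fin 2 ⊕ Fin 2) F,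
      (x : Matrix (Fin 2 ⊕ Fin 2) (Fin 2 ⊕ Fin 2) F) = e5b3M F ∧
      ((x⁻¹ : GL (Fin 2 ⊕ Fin 2) F) : Matrix (Fin 2 ⊕ Fin 2) (Fin 2 ⊕ Fin 2) F) = e5b3Mi F :=
    ⟨⟨e5b3M F, e5b3Mi F, e5b3_mul_inv F, e5b3_inv_mul F⟩, rfl, rfl⟩
  refine ⟨x, e5b3_mem_spGL_of x (by rw [hx]; exact e5b3_symp F), ?_, ?_, ?_, ?_⟩
  · apply Units.ext
    rw [Units.val_pow_eq_pow_val, hx, pow_succ, pow_two, e5b3_mul_self, e5b3_inv_mul]
    rfl
  · intro c h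
    rw [hx] at h
    have h1 := congrFun (congrFun h (Sum.inl 0)) (Sum.inr 0)
    simp [e5b3M] at h1
  · intro h3 h
    rw [hx, hxi] at h
    have ht1 : (e5b3M F).trace = 1 := by
      simp [e5b3M, Matrix.trace, Fintype.sum_sum_type, Fin.sum_univ_two]
    have ht2 : (e5b3Mi F).trace = 1 := by
      simp [e5b3Mi, Matrix.trace, Fintype.sum_sum_type, Fin.sum_univ_two]
    rw [ht1, ht2] at h
    apply h3
    linear_combination (-1 : F) * h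
  · intro h3
    refine ⟨1, Sum.elim ![-1, 0] ![1, 0], Sum.elim ![1, 0] ![1, 0], ?_⟩
    rw [hx]
    ext i j
    rcases i with i | i <;> rcases j with j | j <;> fin_cases i <;> fin_cases j <;>
      simp [e5b3M, Matrix.vecMulVec_apply] <;> linear_combination (-1 : F) * h3

end Cfsg.Agent.Helper20
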