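import Mathlib

set_option autoImplicit false

/-! PIECE A of CALL S2372 (helper18): the degree 8 extension `L` of `F = F_q` with the
`q`-Frobenius. -/

namespace Cfsg.Agent.Helper20.F4Piece

/-- a unit of order `q ^ k - 1` is fixed by `x ↦ x ^ (q ^ k)` -/
theorem frob_fix_of_order {L : Type*} [Field L] (u : Lˣ) (q k : ℕ) (hq : 1 < q)
    (h : orderOf u = q ^ k - 1) : (u : L) ^ (q ^ k) = u := by
  have h1 : 1 ≤ q ^ k := Nat.one_le_pow _ _ (by omega)
  have h2 : u ^ (q ^ k) = u := by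
    have h3 : q ^ k = (q ^ k - 1) + 1 := by omega
    rw [h3, pow_succ, ← h, pow_orderOf_eq_one, one_mul]
  have h4 := congrArg Units.val h2
  rw [Units.val_pow_eq_pow_val] at h4
  exact h4

/-- a unit of order `q ^ k - 1` is not fixed by `x ↦ x ^ (q ^ m)` for `0 < m < k` -/
theorem frob_ne_of_order {L : Type*} [Field L] (u : Lˣ) (q k m : ℕ) (hq : 1 < q) (hm : 0 < m)
    (hmk : m < k) (h : orderOf u = q ^ k - 1) : (u : L) ^ (q ^ m) ≠ u := by
  intro hu
  have h1 : 1 < q ^ m := Nat.one_lt_pow (by omega) hq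
  have h2 : q ^ m < q ^ k := Nat.pow_lt_pow_right hq hmk
  have h3 : u ^ (q ^ m) = u := by
    apply Units.ext
    rw [Units.val_pow_eq_pow_val]
    exact hu
  have h4 : u ^ (q ^ m - 1) = 1 := by
    have h5 : u ^ (q ^ m - 1) * u = u := by
      rw [← pow_succ, Nat.sub_add_cancel (by omega)]
      exact h3
    exact mul_eq_right.mp h5
  have h6 := orderOf_dvd_of_pow_eq_one h4
  rw [h] at h6
  have h7 := Nat.le_of_dvd (by omega) h6
  omega

theorem exists_octic_frobenius (F : Type*) [Field F] [Fintype F] (q : ℕ)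
    (hF : Fintype.card F = q) :
    ∃ (L : Type) (_ : Field L) (_ : Fintype L) (ι : F →+* L) (φ : L →+* L),
      (∀ x : L, φ x = x ^ q) ∧
      (∀ x : L, φ x = x → ∃ y : F, ι y = x) ∧
      (∀ x : L, φ (φ (φ (φ (φ (φ (φ (φ x))))))) = x) ∧
      (∃ θ : L, φ θ ≠ θ ∧ φ (φ θ) = θ) ∧
      (∃ θ : L, φ (φ θ) ≠ θ ∧ φ (φ (φ (φ θ))) = θ) ∧
      (∃ θ : L, φ (φ (φ (φ θ))) ≠ θ) ∧
      (∃ y : Lˣ, orderOf y = q ^ 4 + 1) := by
  classical
  have hq1 : 1 < q := by
    have h := Fintype.one_lt_card (α := F)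
    rw [hF] at h
    exact h
  have hcp : CharP F (ringChar F) := ringChar.charP F
  have hp : Fact (ringChar F).Prime := ⟨CharP.char_is_prime F (ringChar F)⟩
  obtain ⟨k, -, hk⟩ := FiniteField.card F (ringChar F)
  have hj : q = (ringChar F) ^ (k : ℕ) := by rw [← hk, hF]
  have hne : NeZero 8 := ⟨by norm_num⟩
  let L : Type := FiniteField.Extension F (ringChar F) 8
  let _ : Fintype L := Fintype.ofFinite L
  let fr : L ≃ₐ[F] L := FiniteField.Extension.frob F (ringChar F) 8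
  have hfr : ∀ x : L, fr x = x ^ Fintype.card F := by
    intro x
    have h := FiniteField.Extension.frob_apply (k := F) (p := ringChar F) (n := 8) (x := x)
    rw [Nat.card_eq_fintype_card] at h
    exact h
  have hcard : Fintype.card L = q ^ 8 := by
    rw [Fintype.card_eq_nat_card, FiniteField.natCard_extension, Nat.card_eq_fintype_card, hF]
  have hfix : ∀ x : L, fr x = x → ∃ y : F, algebraMap F L y = x := by
    intro x hx
    have hmem : x ∈ Set.range (algebraMap F L) := by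
      rw [IsGalois.mem_range_algebraMap_iff_fixed]
      intro g
      obtain ⟨i, -, rfl⟩ := FiniteField.Extension.exists_frob_pow_eq F (ringChar F) 8 g
      induction i with
      | zero => simp
      | succ i ih =>
        rw [pow_succ, AlgEquiv.mul_apply]
        change (FiniteField.Extension.frob F (ringChar F) 8 ^ i) (fr x) = x
        rw [hx]; exact ih
    exact hmem
  have hcharL : CharP L (ringChar F) :=
    charP_of_injective_algebraMap (algebraMap F L).injective (ringChar F)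
  have hexp : ExpChar L (ringChar F) := ExpChar.prime hp.out
  have hφ : ∀ x : L, iterateFrobenius L (ringChar F) (k : ℕ) x = x ^ q := by
    intro x
    rw [iterateFrobenius_def, hj]
  have hφ2 : ∀ x : L, iterateFrobenius L (ringChar F) (k : ℕ)
      (iterateFrobenius L (ringChar F) (k : ℕ) x) = x ^ (q ^ 2) := by
    intro x
    rw [hφ, hφ, ← pow_mul, ← pow_two]
  have hφ4 : ∀ x : L, iterateFrobenius L (ringChar F) (k : ℕ)
      (iterateFrobenius L (ringChar F) (k : ℕ) (iterateFrobenius L (ringChar F) (k : ℕ)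
      (iterateFrobenius L (ringChar F) (k : ℕ) x))) = x ^ (q ^ 4) := by
    intro x
    rw [hφ2, hφ2, ← pow_mul]
    congr 1
    ring
  -- a generator of the unit group
  obtain ⟨g, hg⟩ := IsCyclic.exists_generator (α := Lˣ)
  have hog : orderOf g = q ^ 8 - 1 := by
    rw [orderOf_eq_card_of_forall_mem_zpowers hg, Nat.card_eq_fintype_card, Fintype.card_units,
      hcard]
  have hq2 : 1 ≤ q ^ 2 := Nat.one_le_pow _ _ (by omega)
  have hq4 : 1 ≤ q ^ 4 := Nat.one_le_pow _ _ (by omega)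
  have hfac4 : q ^ 8 - 1 = (q ^ 4 + 1) * (q ^ 4 - 1) := by
    obtain ⟨m, hm⟩ : ∃ m, q ^ 4 = m + 1 := ⟨q ^ 4 - 1, by omega⟩
    have h8 : q ^ 8 = (q ^ 4) ^ 2 := by ring
    rw [h8, hm]
    have h : (m + 1) ^ 2 = (m + 1 + 1) * m + 1 := by ring
    rw [h]
    simp
  have hfac2 : q ^ 4 - 1 = (q ^ 2 + 1) * (q ^ 2 - 1) := by
    obtain ⟨m, hm⟩ : ∃ m, q ^ 2 = m + 1 := ⟨q ^ 2 - 1, by omega⟩
    have h4 : q ^ 4 = (q ^ 2) ^ 2 := by ring
    rw [h4, hm]
    have h : (m + 1) ^ 2 = (m + 1 + 1) * m + 1 := by ring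
    rw [h]
    simp
  have hfac8 : q ^ 8 - 1 = ((q ^ 4 + 1) * (q ^ 2 + 1)) * (q ^ 2 - 1) := by
    rw [hfac4, hfac2, mul_assoc]
  obtain ⟨u2, hu2⟩ : ∃ u : Lˣ, u = g ^ ((q ^ 4 + 1) * (q ^ 2 + 1)) := ⟨_, rfl⟩
  have hou2 : orderOf u2 = q ^ 2 - 1 := by
    rw [hu2, orderOf_pow_of_dvd (by positivity) (by rw [hog, hfac8]; exact dvd_mul_right _ _), hog,
      hfac8]
    exact Nat.mul_div_cancel_left _ (by positivity)
  obtain ⟨u4, hu4⟩ : ∃ u : Lˣ, u = g ^ (q ^ 4 + 1) := ⟨_, rfl⟩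
  have hou4 : orderOf u4 = q ^ 4 - 1 := by
    rw [hu4, orderOf_pow_of_dvd (by positivity) (by rw [hog, hfac4]; exact dvd_mul_right _ _), hog,
      hfac4]
    exact Nat.mul_div_cancel_left _ (by positivity)
  have hq41 : 0 < q ^ 4 - 1 := by
    have : 1 < q ^ 4 := Nat.one_lt_pow (by norm_num) hq1
    omega
  obtain ⟨y, hy⟩ : ∃ y : Lˣ, y = g ^ (q ^ 4 - 1) := ⟨_, rfl⟩
  have hoy : orderOf y = q ^ 4 + 1 := by
    rw [hy, orderOf_pow_of_dvd (by omega) (by rw [hog, hfac4]; exact dvd_mul_left _ _), hog,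
      hfac4]
    exact Nat.mul_div_cancel _ hq41
  refine ⟨L, inferInstance, inferInstance, algebraMap F L, iterateFrobenius L (ringChar F) (k : ℕ),
    hφ, ?_, ?_, ?_, ?_, ?_, ⟨y, hoy⟩⟩
  · intro x hx
    apply hfix
    rw [hfr, hF, ← hφ]
    exact hx
  · intro x
    rw [hφ4, hφ4, ← pow_mul]
    have e : q ^ 4 * q ^ 4 = Fintype.card L := by rw [hcard]; ring
    rw [e, FiniteField.pow_card]
  · refine ⟨(u2 : L), ?_, ?_⟩
    · rw [hφ]
      have := frob_ne_of_order u2 q 2 1 hq1 (by norm_num) (by norm_num) hou2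
      rwa [pow_one] at this
    · rw [hφ2]
      exact frob_fix_of_order u2 q 2 hq1 hou2
  · refine ⟨(u4 : L), ?_, ?_⟩
    · rw [hφ2]
      exact frob_ne_of_order u4 q 4 2 hq1 (by norm_num) (by norm_num) hou4
    · rw [hφ4]
      exact frob_fix_of_order u4 q 4 hq1 hou4
  · refine ⟨(g : L), ?_⟩
    rw [hφ4]
    exact frob_ne_of_order g q 8 4 hq1 (by norm_num) (by norm_num) hog

end Cfsg.Agent.Helper20.F4Piece
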