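import Mathlib
import Cfsg.Prelude.Def_GeometricClasses
import Cfsg.Prelude.Def_LieTypeDatum
import Cfsg.Agent.Helper44.SpT

set_option autoImplicit false

namespace Cfsg.Agent.Helper20

open Matrix Module

/-- CardPGSp -/
theorem card_pgsp {F : Type*} [Field F] [Fintype F] (m : ℕ) (hm : 1 ≤ m) :
    Nat.card (Cfsg.PGSp m F) = Nat.card (Matrix.symplecticGroup (Fin m) F) := by
  classical
  have key : ∀ N : Subgroup ↥(Cfsg.GSp m F),
      N = (Cfsg.Geo.scalars (Fin m ⊕ Fin m) F).subgroupOf (Cfsg.GSp m F) →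
      Nat.card (↥(Cfsg.GSp m F) ⧸ N) = Nat.card (Matrix.symplecticGroup (Fin m) F) := by
    intro N hN
    have hNrange : N = (Cfsg.Agent.Helper44.PSpn.scalarGSp : Fˣ →* ↥(Cfsg.GSp m F)).range := by
      ext g
      rw [hN, Subgroup.mem_subgroupOf, Cfsg.Geo.mem_scalars_iff, MonoidHom.mem_range]
      constructor
      · rintro ⟨c, hc⟩
        refine ⟨c, ?_⟩
        apply Subtype.ext
        apply Units.ext
        rw [Cfsg.Agent.Helper44.PSpn.scalarGSp_coe, hc, Matrix.smul_one_eq_diagonal]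
      · rintro ⟨c, rfl⟩
        exact ⟨c, by rw [Cfsg.Agent.Helper44.PSpn.scalarGSp_coe, Matrix.smul_one_eq_diagonal]⟩
    have hNcard : Nat.card N = Fintype.card F - 1 := by
      rw [hNrange, Nat.card_congr (MonoidHom.ofInjective
        (Cfsg.Agent.Helper44.PSpn.scalarGSp_injective hm)).toEquiv.symm, Nat.card_eq_fintype_card,
        Fintype.card_units]
    have hL : Nat.card ↥(Cfsg.GSp m F) = Nat.card (↥(Cfsg.GSp m F) ⧸ N) * Nat.card N :=
      Subgroup.card_eq_card_quotient_mul_card_subgroup N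
    rw [Cfsg.Agent.Helper44.PSpn.card_GSp hm, hNcard] at hL
    have hq : 0 < Fintype.card F - 1 := by
      have := Fintype.one_lt_card (α := F)
      omega
    have h5 : (Fintype.card F - 1) * Nat.card (↥(Cfsg.GSp m F) ⧸ N) =
        (Fintype.card F - 1) * Nat.card (Matrix.symplecticGroup (Fin m) F) := by
      rw [hL, mul_comm]
    exact Nat.eq_of_mul_eq_mul_left hq h5
  exact key _ rfl

end Cfsg.Agent.Helper20
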