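import Mathlib
import Cfsg.Prelude.Def_GeometricClasses
import Cfsg.Prelude.Def_LieTypeDatum

set_option autoImplicit false

namespace Cfsg.Agent.Helper20

open Matrix Module

/-- OrdArith (1/2) -/
theorem ord_arith_plus (q m : ℕ) (hq : 2 ≤ q) (hm : 1 ≤ m) :
    2 * q ^ (m * (m - 1)) * (q ^ m - 1) * ∏ i ∈ Finset.range (m - 1), (q ^ (2 * (i + 1)) - 1)
      < q ^ (m ^ 2) * ∏ i ∈ Finset.range m, (q ^ (2 * (i + 1)) - 1) := by
  obtain ⟨k, rfl⟩ : ∃ k, m = k + 1 := ⟨m - 1, by omega⟩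
  rw [Nat.add_sub_cancel, Finset.prod_range_succ]
  obtain ⟨P, hP⟩ : ∃ P, P = ∏ i ∈ Finset.range k, (q ^ (2 * (i + 1)) - 1) := ⟨_, rfl⟩
  rw [← hP]
  have hPpos : 0 < P := by
    rw [hP]
    apply Finset.prod_pos
    intro i _
    have h1 : 1 < q ^ (2 * (i + 1)) := Nat.one_lt_pow (by omega) (by omega)
    omega
  have hB : 2 ≤ q ^ (k + 1) := by
    calc 2 ≤ q := hq
      _ = q ^ 1 := (pow_one q).symm
      _ ≤ q ^ (k + 1) := Nat.pow_le_pow_right (by omega) (by omega)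
  obtain ⟨B', hB'⟩ : ∃ B', q ^ (k + 1) = B' + 1 := ⟨q ^ (k + 1) - 1, by omega⟩
  have hB'1 : 1 ≤ B' := by omega
  have e1 : q ^ ((k + 1) ^ 2) = q ^ ((k + 1) * k) * (B' + 1) := by
    rw [← hB', ← pow_add]
    congr 1
    ring
  have e2 : q ^ (2 * (k + 1)) - 1 = B' * (B' + 2) := by
    have h1 : q ^ (2 * (k + 1)) = (B' + 1) ^ 2 := by
      rw [← hB', ← pow_mul]
      congr 1
      ring
    rw [h1]
    have h2 : (B' + 1) ^ 2 = B' * (B' + 2) + 1 := by ring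
    omega
  rw [e1, e2, hB', Nat.add_sub_cancel]
  obtain ⟨A, hA'⟩ : ∃ A, A = q ^ ((k + 1) * k) := ⟨_, rfl⟩
  have hA : 0 < A := by rw [hA']; positivity
  rw [← hA']
  have h1 : 0 < A * B' * P := by positivity
  calc 2 * A * B' * P = 2 * (A * B' * P) := by ring
    _ < ((B' + 1) * (B' + 2)) * (A * B' * P) := by
        apply Nat.mul_lt_mul_of_pos_right _ h1
        nlinarith
    _ = A * (B' + 1) * (P * (B' * (B' + 2))) := by ring

/-- OrdArith (2/2) -/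
theorem ord_arith_minus (q m : ℕ) (hq : 3 ≤ q) (hm : 1 ≤ m) :
    2 * q ^ (m * (m - 1)) * (q ^ m + 1) * ∏ i ∈ Finset.range (m - 1), (q ^ (2 * (i + 1)) - 1)
      < q ^ (m ^ 2) * ∏ i ∈ Finset.range m, (q ^ (2 * (i + 1)) - 1) := by
  obtain ⟨k, rfl⟩ : ∃ k, m = k + 1 := ⟨m - 1, by omega⟩
  rw [Nat.add_sub_cancel, Finset.prod_range_succ]
  obtain ⟨P, hP⟩ : ∃ P, P = ∏ i ∈ Finset.range k, (q ^ (2 * (i + 1)) - 1) := ⟨_, rfl⟩
  rw [← hP]
  have hPpos : 0 < P := by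
    rw [hP]
    apply Finset.prod_pos
    intro i _
    have h1 : 1 < q ^ (2 * (i + 1)) := Nat.one_lt_pow (by omega) (by omega)
    omega
  have hB : 3 ≤ q ^ (k + 1) := by
    calc 3 ≤ q := hq
      _ = q ^ 1 := (pow_one q).symm
      _ ≤ q ^ (k + 1) := Nat.pow_le_pow_right (by omega) (by omega)
  obtain ⟨B', hB'⟩ : ∃ B', q ^ (k + 1) = B' + 1 := ⟨q ^ (k + 1) - 1, by omega⟩
  have hB'1 : 2 ≤ B' := by omega
  have e1 : q ^ ((k + 1) ^ 2) = q ^ ((k + 1) * k) * (B' + 1) := by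
    rw [← hB', ← pow_add]
    congr 1
    ring
  have e2 : q ^ (2 * (k + 1)) - 1 = B' * (B' + 2) := by
    have h1 : q ^ (2 * (k + 1)) = (B' + 1) ^ 2 := by
      rw [← hB', ← pow_mul]
      congr 1
      ring
    rw [h1]
    have h2 : (B' + 1) ^ 2 = B' * (B' + 2) + 1 := by ring
    omega
  rw [e1, e2, hB']
  obtain ⟨A, hA'⟩ : ∃ A, A = q ^ ((k + 1) * k) := ⟨_, rfl⟩
  have hA : 0 < A := by rw [hA']; positivity
  rw [← hA']
  have h1 : 0 < A * (B' + 2) * P := by positivity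
  calc 2 * A * (B' + 1 + 1) * P = 2 * (A * (B' + 2) * P) := by ring
    _ < ((B' + 1) * B') * (A * (B' + 2) * P) := by
        apply Nat.mul_lt_mul_of_pos_right _ h1
        nlinarith
    _ = A * (B' + 1) * (P * (B' * (B' + 2))) := by ring

end Cfsg.Agent.Helper20
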