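-- helper20 library: PIECE GU32 of CALL S5832 (helper97): subgroups of GU_3(2) are solvable.
import Mathlib
import Cfsg.Agent.Helper5.UnitCard
import Cfsg.Agent.Helper3.Burnside2

set_option autoImplicit false
open Cfsg Matrix

namespace Cfsg.Agent.Helper20

theorem gu32_solvable {F : Type*} [Field F] [Fintype F] (hF : Fintype.card F = 4) {G : Type*} [Group G] [Finite G] (φ : G →* GL (Fin 3) F) (hφ : Function.Injective φ) (hG : ∀ g, φ g ∈ GU 3 F 2) : Group.IsSolvable G := by
  have hcard : Nat.card (GU 3 F 2) = 648 := by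
    rw [Helper5.card_GU (q := 2) (by rw [hF]; norm_num) 3]
    decide
  have hψ : Function.Injective (φ.codRestrict (GU 3 F 2) hG) := by
    intro x y hxy
    apply hφ
    have := congrArg Subtype.val hxy
    simpa using this
  have hdvd : Nat.card G ∣ 2 ^ 3 * 3 ^ 4 := by
    have h1 : Nat.card G ∣ Nat.card (GU 3 F 2) := Subgroup.card_dvd_of_injective _ hψ
    rw [hcard] at h1
    exact h1
  obtain ⟨k₁, k₂, h1, h2, h3⟩ := (Nat.dvd_mul).1 hdvd
  obtain ⟨a, -, rfl⟩ := (Nat.dvd_prime_pow Nat.prime_two).1 h1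
  obtain ⟨b, -, rfl⟩ := (Nat.dvd_prime_pow Nat.prime_three).1 h2
  exact Helper3.isSolvable_of_card_eq 2 3 a b Nat.prime_two Nat.prime_three h3.symm

end Cfsg.Agent.Helper20
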