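import Mathlib
import Cfsg.Agent.Lead.H581Defs

/-!
# CALL S4221 (Hall 5.8.1), piece E0b (helper20 for lead)
-/

set_option autoImplicit false

namespace Cfsg.Agent.Helper20.H581E0b

open Cfsg.Agent.Lead.H581 Equiv

variable {α : Type*} [Fintype α] [DecidableEq α]

/-- PIECE E0b -/
theorem stab4_card_dvd (G : Subgroup (Perm α)) (a b c d : α) (hd : Dist4 a b c d) :
    Nat.card (stab4 G a b c d) ∣ (Fintype.card α - 4).factorial := by
  classical
  obtain ⟨hab, hac, had, hbc, hbd, hcd⟩ := hd
  obtain ⟨S, hS⟩ : ∃ S : Set α, S = {a, b, c, d} := ⟨_, rfl⟩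
  have hSmem : ∀ x, x ∈ S ↔ (x = a ∨ x = b ∨ x = c ∨ x = d) := by
    intro x; rw [hS]; rfl
  have hinv : ∀ g ∈ stab4 G a b c d, ∀ x, (g x ∈ Sᶜ) ↔ (x ∈ Sᶜ) := by
    intro g hg x
    obtain ⟨-, ga, gb, gc, gd⟩ := hg
    have e : ∀ y, g y = y → (g x = y ↔ x = y) := by
      intro y hy
      constructor
      · intro h2; apply g.injective; rw [h2, hy]
      · intro h2; rw [h2, hy]
    rw [Set.mem_compl_iff, Set.mem_compl_iff, hSmem, hSmem, e a ga, e b gb, e c gc, e d gd]
  let φ : ↥(stab4 G a b c d) →* Perm {x // x ∈ Sᶜ} :=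
    { toFun := fun g => Perm.subtypePerm g.1 (hinv g.1 g.2)
      map_one' := by
        ext x
        rfl
      map_mul' := by
        intro g k
        ext x
        rfl }
  have hφ : Function.Injective φ := by
    intro g k hgk
    apply Subtype.ext
    ext x
    by_cases hx : x ∈ S
    · obtain ⟨-, ga, gb, gc, gd⟩ := g.2
      obtain ⟨-, ka, kb, kc, kd⟩ := k.2
      rcases (hSmem x).1 hx with rfl | rfl | rfl | rfl
      · rw [ga, ka]
      · rw [gb, kb]
      · rw [gc, kc]
      · rw [gd, kd]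
    · have h := congrArg (fun σ : Perm {x // x ∈ Sᶜ} => ((σ ⟨x, hx⟩ : {x // x ∈ Sᶜ}) : α)) hgk
      exact h
  have h1 := Subgroup.card_dvd_of_injective φ hφ
  have hScard : S.ncard = 4 := by
    rw [hS, Set.ncard_insert_of_notMem, Set.ncard_insert_of_notMem, Set.ncard_pair hcd]
    · intro h
      rcases h with h | h
      · exact hbc h
      · exact hbd h
    · intro h
      rcases h with h | h | h
      · exact hab h
      · exact hac h
      · exact had h
  have h2 : Nat.card (Perm {x // x ∈ Sᶜ}) = (Fintype.card α - 4).factorial := by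
    rw [Nat.card_perm]
    congr 1
    have h3 := Set.ncard_add_ncard_compl S
    have h4 : Nat.card {x // x ∈ Sᶜ} = Sᶜ.ncard := Nat.card_coe_set_eq Sᶜ
    rw [Nat.card_eq_fintype_card] at h3
    omega
  rw [h2] at h1
  exact h1

end Cfsg.Agent.Helper20.H581E0b
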