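import Mathlib
import Cfsg.Agent.Helper90.IMDefs

set_option autoImplicit false

namespace Cfsg.Agent.Helper20

open Module Polynomial Cfsg.Agent.Helper90.IM

section
variable {F : Type*} [Field F] {V : Type*} [AddCommGroup V] [Module F V] [FiniteDimensional F V]

theorem mb_pow_mem (T : V →ₗ[F] V) (S : Submodule F V) (hS : S.map T ≤ S) {v : V} (hv : v ∈ S)
    (n : ℕ) : (T ^ n) v ∈ S := by
  induction n with
  | zero => simpa using hv
  | succ n ih =>
    rw [pow_succ', Module.End.mul_apply]
    exact hS (Submodule.mem_map_of_mem ih)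

theorem mb_aeval_mem (T : V →ₗ[F] V) (S : Submodule F V) (hS : S.map T ≤ S) (g : F[X]) {v : V}
    (hv : v ∈ S) : aeval T g v ∈ S := by
  rw [aeval_eq_sum_range, LinearMap.sum_apply]
  refine Submodule.sum_mem _ fun i _ => ?_
  rw [LinearMap.smul_apply]
  exact S.smul_mem _ (mb_pow_mem T S hS hv i)

theorem mb_pow_mem_span (T : V →ₗ[F] V) (P : F[X]) (hP : Irreducible P) (hPT : aeval T P = 0)
    (d : ℕ) (hd : P.natDegree = d) (hd0 : 0 < d) (w : V) (k : ℕ) :
    (T ^ k) w ∈ Submodule.span F (Set.range fun i : Fin d => (T ^ (i : ℕ)) w) := by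
  have hP0 : P ≠ 0 := hP.ne_zero
  obtain ⟨r, hr⟩ : ∃ r : F[X], r = X ^ k % P := ⟨_, rfl⟩
  have hdeg : r.natDegree < d := by
    by_cases hr0 : r = 0
    · rw [hr0]; simpa using hd0
    · rw [← hd]
      refine natDegree_lt_natDegree hr0 ?_
      rw [hr]; exact degree_mod_lt _ hP0
  have h1 : (T ^ k) = aeval T r := by
    have h2 : (X : F[X]) ^ k = P * (X ^ k / P) + r := by
      rw [hr]; exact (EuclideanDomain.div_add_mod _ _).symm
    have h3 := congrArg (aeval T) h2
    rw [map_add, map_mul, hPT, zero_mul, zero_add] at h3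
    rw [← h3]; simp
  rw [h1, aeval_eq_sum_range' hdeg, LinearMap.sum_apply]
  refine Submodule.sum_mem _ fun i hi => ?_
  rw [LinearMap.smul_apply]
  exact Submodule.smul_mem _ _ (Submodule.subset_span ⟨⟨i, Finset.mem_range.1 hi⟩, rfl⟩)

theorem mb_coeff_zero (T : V →ₗ[F] V) (P : F[X]) (hP : Irreducible P) (hPT : aeval T P = 0)
    (d : ℕ) (hd : P.natDegree = d) (S : Submodule F V) (hS : S.map T ≤ S) {v : V} (hv : v ∉ S)
    (c : Fin d → F) (hc : ∑ i, c i • (T ^ (i : ℕ)) v ∈ S) : c = 0 := by
  obtain ⟨g, hg⟩ : ∃ g : F[X], g = ∑ i : Fin d, C (c i) * X ^ (i : ℕ) := ⟨_, rfl⟩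
  have hgv : aeval T g v = ∑ i, c i • (T ^ (i : ℕ)) v := by
    rw [hg]
    simp only [map_sum, map_mul, aeval_C, map_pow, aeval_X, LinearMap.sum_apply,
      Module.End.mul_apply, Module.algebraMap_end_apply]
  have hdeg : g.degree < d := by rw [hg]; exact degree_sum_fin_lt c
  by_cases hg0 : g = 0
  · funext j
    have h1 := congrArg (fun p => p.coeff (j : ℕ)) hg0
    simp only [hg, finsetSum_coeff, coeff_C_mul_X_pow, coeff_zero] at h1
    rw [Finset.sum_eq_single j] at h1
    · simpa using h1
    · intro b _ hb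
      rw [if_neg]
      intro h; exact hb (Fin.ext h.symm)
    · intro h; exact absurd (Finset.mem_univ j) h
  · exfalso
    have hndvd : ¬ P ∣ g := by
      refine not_dvd_of_degree_lt hg0 ?_
      rw [degree_eq_natDegree hP.ne_zero, hd]; exact hdeg
    have hcop : IsCoprime P g := hP.coprime_iff_not_dvd.2 hndvd
    obtain ⟨a, b, hab⟩ := hcop
    have h3 := congrArg (aeval T) hab
    rw [map_add, map_mul, map_mul, hPT, mul_zero, zero_add, map_one] at h3
    have h4 : v = aeval T b (aeval T g v) := by
      rw [← Module.End.mul_apply, h3]; rfl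
    apply hv; rw [h4]; exact mb_aeval_mem T S hS b (hgv ▸ hc)

theorem cyc_basis (T : V →ₗ[F] V) (P : F[X]) (hP : Irreducible P) (hPT : aeval T P = 0) (d : ℕ)
    (hd : P.natDegree = d) (hd0 : 0 < d) :
    ∃ (s : ℕ) (b : Basis (Fin s × Fin d) F V),
      ∀ j i, b (j, i) = (T ^ (i : ℕ)) (b (j, ⟨0, hd0⟩)) := by
  have key : ∀ n : ℕ, ∀ (ι : Type) (_ : Fintype ι) (v : ι → V),
      LinearIndependent F (fun p : ι × Fin d => (T ^ (p.2 : ℕ)) (v p.1)) →
      finrank F V - Fintype.card ι = n →
      ∃ (ι' : Type) (_ : Fintype ι') (v' : ι' → V),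
        LinearIndependent F (fun p : ι' × Fin d => (T ^ (p.2 : ℕ)) (v' p.1)) ∧
        ⊤ ≤ Submodule.span F (Set.range (fun p : ι' × Fin d => (T ^ (p.2 : ℕ)) (v' p.1))) := by
    intro n
    induction n using Nat.strong_induction_on with
    | _ n ih =>
      intro ι instι v hLI hn
      by_cases htop : ⊤ ≤ Submodule.span F
          (Set.range (fun p : ι × Fin d => (T ^ (p.2 : ℕ)) (v p.1)))
      · exact ⟨ι, instι, v, hLI, htop⟩
      · obtain ⟨S, hSdef⟩ : ∃ S : Submodule F V, S = Submodule.span F
            (Set.range (fun p : ι × Fin d => (T ^ (p.2 : ℕ)) (v p.1))) := ⟨_, rfl⟩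
        have hSinv : S.map T ≤ S := by
          rw [hSdef, Submodule.map_span, Submodule.span_le]
          rintro _ ⟨_, ⟨p, rfl⟩, rfl⟩
          have h1 := mb_pow_mem_span T P hP hPT d hd hd0 (v p.1) (p.2 + 1)
          rw [pow_succ', Module.End.mul_apply] at h1
          refine Submodule.span_mono ?_ h1
          rintro _ ⟨i, rfl⟩
          exact ⟨(p.1, i), rfl⟩
        obtain ⟨w, hw⟩ : ∃ w : V, w ∉ S := by
          by_contra hcon
          push Not at hcon
          exact htop (hSdef ▸ fun x _ => hcon x)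
        obtain ⟨v', hv'⟩ : ∃ v' : Option ι → V, v' = fun o => o.elim w v := ⟨_, rfl⟩
        have hLI' : LinearIndependent F
            (fun p : Option ι × Fin d => (T ^ (p.2 : ℕ)) (v' p.1)) := by
          rw [Fintype.linearIndependent_iff]
          intro g hg
          rw [Fintype.sum_prod_type, Fintype.sum_option] at hg
          simp only [hv', Option.elim_none, Option.elim_some] at hg
          have hmem : ∑ i : ι, ∑ j : Fin d, g (some i, j) • (T ^ (j : ℕ)) (v i) ∈ S := by
            rw [hSdef]
            exact Submodule.sum_mem _ fun i _ => Submodule.sum_mem _ fun j _ =>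
              Submodule.smul_mem _ _ (Submodule.subset_span ⟨(i, j), rfl⟩)
          have h0 : ∑ j : Fin d, g (none, j) • (T ^ (j : ℕ)) w ∈ S := by
            have h00 : ∑ j : Fin d, g (none, j) • (T ^ (j : ℕ)) w
                = - ∑ i : ι, ∑ j : Fin d, g (some i, j) • (T ^ (j : ℕ)) (v i) :=
              eq_neg_of_add_eq_zero_left hg
            rw [h00]; exact S.neg_mem hmem
          have hc0 := mb_coeff_zero T P hP hPT d hd S hSinv hw (fun j => g (none, j)) h0
          have hg2 : ∑ i : ι, ∑ j : Fin d, g (some i, j) • (T ^ (j : ℕ)) (v i) = 0 := by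
            have h00 : ∑ j : Fin d, g (none, j) • (T ^ (j : ℕ)) w = 0 := by
              refine Finset.sum_eq_zero fun j _ => ?_
              rw [show g (none, j) = 0 from congrFun hc0 j, zero_smul]
            rw [h00, zero_add] at hg; exact hg
          have hold := Fintype.linearIndependent_iff.1 hLI (fun p => g (some p.1, p.2))
            (by rw [Fintype.sum_prod_type]; exact hg2)
          rintro ⟨o, j⟩
          cases o with
          | none => exact congrFun hc0 j
          | some i => exact hold (i, j)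
        have hcard : (Fintype.card ι + 1) * d ≤ finrank F V := by
          have h5 := hLI'.fintype_card_le_finrank
          rwa [Fintype.card_prod, Fintype.card_option, Fintype.card_fin] at h5
        have hlt : Fintype.card ι + 1 ≤ finrank F V :=
          le_trans (Nat.le_mul_of_pos_right _ hd0) hcard
        exact ih (finrank F V - Fintype.card (Option ι)) (by rw [Fintype.card_option]; omega)
          (Option ι) inferInstance v' hLI' rfl
  obtain ⟨ι', _, v', hLI, hsp⟩ := key _ Empty inferInstance (fun e => e.elim)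
    linearIndependent_empty_type rfl
  obtain ⟨b0, hb0⟩ : ∃ b0 : Basis (ι' × Fin d) F V, b0 = Basis.mk hLI hsp := ⟨_, rfl⟩
  refine ⟨Fintype.card ι', b0.reindex (Equiv.prodCongr (Fintype.equivFin ι') (Equiv.refl _)),
    fun j i => ?_⟩
  simp [hb0, Basis.reindex_apply, Basis.mk_apply]

end

end Cfsg.Agent.Helper20
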