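import Mathlib.GroupTheory.Sylow
import Mathlib.GroupTheory.OrderOfElement
import Cfsg.Prelude.Def_TwoFusion

set_option autoImplicit false

namespace Cfsg.Agent.Helper20

variable {G : Type*} [Group G]

/-- An involution `x` inverts `x * y` when `y` is an involution too. -/
theorem inv_conj_mul (x y : G) (hx : x * x = 1) (hy : y * y = 1) :
    x * (x * y) * x⁻¹ = (x * y)⁻¹ := by
  have hxinv : x⁻¹ = x := inv_eq_of_mul_eq_one_left hx
  have hyinv : y⁻¹ = y := inv_eq_of_mul_eq_one_left hy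
  rw [mul_inv_rev, hxinv, hyinv, ← mul_assoc, hx, one_mul]

theorem inv_mul_pow (x y : G) (hx : x * x = 1) (hy : y * y = 1) (j : ℕ) :
    x * (x * y) ^ j = ((x * y) ^ j)⁻¹ * x := by
  have h := inv_conj_mul x y hx hy
  have h2 : x * (x * y) ^ j * x⁻¹ = ((x * y) ^ j)⁻¹ := by
    rw [← conj_pow, h, inv_pow]
  rw [← h2]; group

/-- For involutions `x`, `y`: `x * (x*y)^m` is a conjugate of `x` or of `y`. -/
theorem inv_mul_pow_conj (x y : G) (hx : x * x = 1) (hy : y * y = 1) (m : ℕ) :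
    ∃ c : G, x * (x * y) ^ m = c * x * c⁻¹ ∨ x * (x * y) ^ m = c * y * c⁻¹ := by
  refine ⟨((x * y) ^ (m / 2))⁻¹, ?_⟩
  have hj := inv_mul_pow x y hx hy (m / 2)
  rcases Nat.even_or_odd' m with ⟨j, rfl | rfl⟩
  · left
    have : 2 * j / 2 = j := by omega
    rw [this] at hj ⊢
    rw [inv_inv, ← hj, two_mul, pow_add, mul_assoc]
  · right
    have : (2 * j + 1) / 2 = j := by omega
    rw [this] at hj ⊢
    have hxy : x * (x * y) = y := by rw [← mul_assoc, hx, one_mul]
    rw [inv_inv]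
    calc x * (x * y) ^ (2 * j + 1) = (x * (x * y) ^ j) * (x * y) * (x * y) ^ j := by
          rw [show 2 * j + 1 = j + 1 + j by ring, pow_add, pow_succ]; group
      _ = ((x * y) ^ j)⁻¹ * (x * (x * y)) * (x * y) ^ j := by rw [hj]; group
      _ = ((x * y) ^ j)⁻¹ * y * (x * y) ^ j := by rw [hxy]

theorem isolated_sq {z : G} (hz : Cfsg.IsIsolatedInvolution z) : z * z = 1 := by
  have := pow_orderOf_eq_one z
  rw [hz.1, pow_two] at this
  exact this

theorem isolated_inv {z : G} (hz : Cfsg.IsIsolatedInvolution z) : z⁻¹ = z :=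
  inv_eq_of_mul_eq_one_left (isolated_sq hz)

theorem isolated_ne_one {z : G} (hz : Cfsg.IsIsolatedInvolution z) : z ≠ 1 := by
  intro h
  have := hz.1
  rw [h, orderOf_one] at this
  omega

theorem conj_sq {z : G} (hz : z * z = 1) (g : G) : (g * z * g⁻¹) * (g * z * g⁻¹) = 1 := by
  calc (g * z * g⁻¹) * (g * z * g⁻¹) = g * (z * z) * g⁻¹ := by group
    _ = 1 := by rw [hz]; group

/-- A conjugate of an isolated involution is isolated. -/
theorem isolated_conj {z : G} (hz : Cfsg.IsIsolatedInvolution z) (g : G) :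
    Cfsg.IsIsolatedInvolution (g * z * g⁻¹) := by
  refine ⟨?_, ?_⟩
  · have : g * z * g⁻¹ = MulAut.conj g z := by simp
    rw [this, MulEquiv.orderOf_eq]; exact hz.1
  · intro h hc
    have h1 : Commute z ((g⁻¹ * h * g) * z * (g⁻¹ * h * g)⁻¹) := by
      have e : (g⁻¹ * h * g) * z * (g⁻¹ * h * g)⁻¹ = g⁻¹ * (h * (g * z * g⁻¹) * h⁻¹) * g := by group
      rw [e]
      have hc' : (g * z * g⁻¹) * (h * (g * z * g⁻¹) * h⁻¹) = (h * (g * z * g⁻¹) * h⁻¹) * (g * z * g⁻¹) := hc
      show z * (g⁻¹ * (h * (g * z * g⁻¹) * h⁻¹) * g) = (g⁻¹ * (h * (g * z * g⁻¹) * h⁻¹) * g) * z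
      calc z * (g⁻¹ * (h * (g * z * g⁻¹) * h⁻¹) * g)
          = g⁻¹ * ((g * z * g⁻¹) * (h * (g * z * g⁻¹) * h⁻¹)) * g := by group
        _ = g⁻¹ * ((h * (g * z * g⁻¹) * h⁻¹) * (g * z * g⁻¹)) * g := by rw [hc']
        _ = (g⁻¹ * (h * (g * z * g⁻¹) * h⁻¹) * g) * z := by group
    have h2 := hz.2 _ h1
    calc h * (g * z * g⁻¹) * h⁻¹ = g * ((g⁻¹ * h * g) * z * (g⁻¹ * h * g)⁻¹) * g⁻¹ := by group
      _ = g * z * g⁻¹ := by rw [h2]

/-- **Key lemma**: the product of an isolated involution with any of its conjugates has odd order. -/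
theorem isolated_odd_order [Finite G] {z : G} (hz : Cfsg.IsIsolatedInvolution z) (g : G) :
    Odd (orderOf (z * (g * z * g⁻¹))) := by
  set w := g * z * g⁻¹ with hw
  have hzz := isolated_sq hz
  have hww : w * w = 1 := conj_sq hzz g
  by_contra hodd
  rw [Nat.not_odd_iff_even] at hodd
  obtain ⟨m, hm⟩ := hodd
  have hpos : 0 < orderOf (z * w) := orderOf_pos _
  have hm0 : 0 < m := by omega
  set u := (z * w) ^ m with hu
  have hu1 : u ≠ 1 := by
    intro h
    have := orderOf_dvd_of_pow_eq_one h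
    have := Nat.le_of_dvd hm0 this
    omega
  have hu2 : u * u = 1 := by
    rw [hu, ← pow_add, ← hm, pow_orderOf_eq_one]
  have huinv : u⁻¹ = u := inv_eq_of_mul_eq_one_left hu2
  -- z commutes with u
  have hzu : z * u = u * z := by
    have := inv_mul_pow z w hzz hww m
    rw [← hu, huinv] at this
    exact this
  obtain ⟨c, hc⟩ := inv_mul_pow_conj z w hzz hww m
  rw [← hu] at hc
  have hconj : ∃ d : G, z * u = d * z * d⁻¹ := by
    rcases hc with hc | hc
    · exact ⟨c, hc⟩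
    · refine ⟨c * g, ?_⟩
      rw [hc, hw]; group
  obtain ⟨d, hd⟩ := hconj
  have hcomm : Commute z (d * z * d⁻¹) := by
    rw [← hd]
    show z * (z * u) = z * u * z
    rw [mul_assoc, hzu]
  have := hz.2 d hcomm
  rw [← hd] at this
  exact hu1 (mul_left_cancel (this.trans (mul_one z).symm))

/-- The canonical odd-order element conjugating `z` to a given conjugate. -/
theorem isolated_exists_pow [Finite G] {z : G} (hz : Cfsg.IsIsolatedInvolution z) (g : G) :
    ∃ n : ℕ, Odd (orderOf ((g * z * g⁻¹ * z) ^ n)) ∧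
      z * (g * z * g⁻¹ * z) ^ n * z⁻¹ = ((g * z * g⁻¹ * z) ^ n)⁻¹ ∧
      (g * z * g⁻¹ * z) ^ n * z * ((g * z * g⁻¹ * z) ^ n)⁻¹ = g * z * g⁻¹ := by
  set w := g * z * g⁻¹ with hw
  have hzz := isolated_sq hz
  have hzinv := isolated_inv hz
  have hww : w * w = 1 := conj_sq hzz g
  have hwinv : w⁻¹ = w := inv_eq_of_mul_eq_one_left hww
  have hodd0 := isolated_odd_order hz g
  rw [← hw] at hodd0
  have hodd : Odd (orderOf (w * z)) := by
    have : w * z = (z * w)⁻¹ := by rw [mul_inv_rev, hzinv, hwinv]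
    rw [this, orderOf_inv]; exact hodd0
  obtain ⟨j, hj⟩ := hodd
  refine ⟨j + 1, ?_, ?_, ?_⟩
  · exact Odd.of_dvd_nat (by rw [hj]; exact ⟨j, rfl⟩) (orderOf_pow_dvd (j + 1))
  · -- z inverts w*z
    have h1 : z * (w * z) * z⁻¹ = (w * z)⁻¹ := by
      rw [mul_inv_rev, hzinv, hwinv]
      calc z * (w * z) * z = z * w * (z * z) := by group
        _ = z * w := by rw [hzz, mul_one]
    rw [← conj_pow, h1, inv_pow]
  · have h1 : z * (w * z) * z⁻¹ = (w * z)⁻¹ := by
      rw [mul_inv_rev, hzinv, hwinv]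
      calc z * (w * z) * z = z * w * (z * z) := by group
        _ = z * w := by rw [hzz, mul_one]
    have h2 : z * (w * z) ^ (j + 1) * z⁻¹ = ((w * z) ^ (j + 1))⁻¹ := by
      rw [← conj_pow, h1, inv_pow]
    have h3 : z * ((w * z) ^ (j + 1))⁻¹ * z⁻¹ = (w * z) ^ (j + 1) := by
      have : z * ((w * z) ^ (j + 1))⁻¹ * z⁻¹ = (z * (w * z) ^ (j + 1) * z⁻¹)⁻¹ := by group
      rw [this, h2, inv_inv]
    have h4 : (w * z) ^ (2 * j + 1) = 1 := by rw [← hj]; exact pow_orderOf_eq_one _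
    calc (w * z) ^ (j + 1) * z * ((w * z) ^ (j + 1))⁻¹
        = (w * z) ^ (j + 1) * (z * ((w * z) ^ (j + 1))⁻¹ * z⁻¹) * z := by group
      _ = (w * z) ^ (j + 1) * (w * z) ^ (j + 1) * z := by rw [h3]
      _ = (w * z) ^ (2 * j + 1) * (w * z) * z := by
          rw [← pow_add, ← pow_succ]; congr 2; ring
      _ = w * (z * z) := by rw [h4]; group
      _ = w := by rw [hzz, mul_one]

/-- Squaring is injective on elements of odd order (when the squares agree). -/
theorem eq_of_sq_eq_of_odd [Finite G] (k k' : G) (hk : Odd (orderOf k)) (hk' : Odd (orderOf k'))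
    (h : k ^ 2 = k' ^ 2) : k = k' := by
  set N := orderOf (k ^ 2) with hN
  have hNodd : Odd N := Odd.of_dvd_nat hk (orderOf_pow_dvd 2)
  have h1 : (k ^ 2) ^ N = 1 := pow_orderOf_eq_one _
  have h1' : (k' ^ 2) ^ N = 1 := by rw [← h]; exact h1
  have hkN : k ^ N = 1 := by
    have : orderOf k ∣ 2 * N := orderOf_dvd_of_pow_eq_one (by rw [pow_mul]; exact h1)
    have hc : Nat.Coprime (orderOf k) 2 := Nat.Coprime.symm (Nat.coprime_two_left.mpr hk)
    exact orderOf_dvd_iff_pow_eq_one.mp (hc.dvd_of_dvd_mul_left this)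
  have hk'N : k' ^ N = 1 := by
    have : orderOf k' ∣ 2 * N := orderOf_dvd_of_pow_eq_one (by rw [pow_mul]; exact h1')
    have hc : Nat.Coprime (orderOf k') 2 := Nat.Coprime.symm (Nat.coprime_two_left.mpr hk')
    exact orderOf_dvd_iff_pow_eq_one.mp (hc.dvd_of_dvd_mul_left this)
  obtain ⟨j, hj⟩ := hNodd
  have e1 : k = (k ^ 2) ^ (j + 1) := by
    rw [← pow_mul, show 2 * (j + 1) = N + 1 by omega, pow_succ, hkN, one_mul]
  have e2 : k' = (k' ^ 2) ^ (j + 1) := by
    rw [← pow_mul, show 2 * (j + 1) = N + 1 by omega, pow_succ, hk'N, one_mul]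
  rw [e1, e2, h]

/-- If `z` inverts `k` then `k z k⁻¹ = k² z`. -/
theorem conj_eq_sq_mul (z k : G) (h : z * k * z⁻¹ = k⁻¹) : k * z * k⁻¹ = k ^ 2 * z := by
  have h3 : z * k⁻¹ * z⁻¹ = k := by
    have : z * k⁻¹ * z⁻¹ = (z * k * z⁻¹)⁻¹ := by group
    rw [this, h, inv_inv]
  calc k * z * k⁻¹ = k * (z * k⁻¹ * z⁻¹) * z := by group
    _ = k ^ 2 * z := by rw [h3, pow_two]

/-- Odd-order elements inverted by `z` are determined by the conjugate of `z` they produce. -/
theorem odd_inv_unique [Finite G] (z k k' : G) (hk : Odd (orderOf k)) (hk' : Odd (orderOf k'))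
    (h : z * k * z⁻¹ = k⁻¹) (h' : z * k' * z⁻¹ = k'⁻¹) (he : k * z * k⁻¹ = k' * z * k'⁻¹) :
    k = k' := by
  rw [conj_eq_sq_mul z k h, conj_eq_sq_mul z k' h'] at he
  exact eq_of_sq_eq_of_odd k k' hk hk' (mul_right_cancel he)

/-- An element of odd order lies in any subgroup containing its square. -/
theorem mem_of_sq_mem_of_odd (H : Subgroup G) (x : G) (hodd : Odd (orderOf x)) (h : x ^ 2 ∈ H) :
    x ∈ H := by
  obtain ⟨j, hj⟩ := hodd
  have : x = (x ^ 2) ^ (j + 1) := by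
    rw [← pow_mul, show 2 * (j + 1) = orderOf x + 1 by omega, pow_succ, pow_orderOf_eq_one, one_mul]
  rw [this]
  exact H.pow_mem h _

/-- Variant of the key lemma with the factors in the other order. -/
theorem isolated_odd_order' [Finite G] {z : G} (hz : Cfsg.IsIsolatedInvolution z) (g : G) :
    Odd (orderOf (g * z * g⁻¹ * z)) := by
  have hzinv := isolated_inv hz
  have hwinv : (g * z * g⁻¹)⁻¹ = g * z * g⁻¹ :=
    inv_eq_of_mul_eq_one_left (conj_sq (isolated_sq hz) g)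
  have : g * z * g⁻¹ * z = (z * (g * z * g⁻¹))⁻¹ := by rw [mul_inv_rev, hzinv, hwinv]
  rw [this, orderOf_inv]
  exact isolated_odd_order hz g

end Cfsg.Agent.Helper20
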