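import Mathlib.GroupTheory.Transfer
import Mathlib.GroupTheory.Sylow
import Mathlib.GroupTheory.Nilpotent
import Mathlib.GroupTheory.Abelianization.Defs
import Cfsg.Prelude.Def_Transfer
import Cfsg.Agent.Helper20.Isolated

set_option autoImplicit false

namespace Cfsg.Agent.Helper20

variable {G : Type*} [Group G]

/-- An isolated involution is central in every Sylow 2-subgroup containing it. -/
theorem isolated_sylow_le_centralizer [Finite G] {z : G} (hz : Cfsg.IsIsolatedInvolution z)
    (T : Sylow 2 G) (hzT : z ∈ T) : (T : Subgroup G) ≤ Subgroup.centralizer ({z} : Set G) := by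
  have : Fact (Nat.Prime 2) := ⟨Nat.prime_two⟩
  intro t ht
  rw [Subgroup.mem_centralizer_iff]
  intro y hy
  rw [Set.mem_singleton_iff] at hy
  subst hy
  have hodd := isolated_odd_order hz t
  have hmem : y * (t * y * t⁻¹) ∈ (T : Subgroup G) :=
    T.mul_mem hzT (T.mul_mem (T.mul_mem ht hzT) (T.inv_mem ht))
  obtain ⟨k, hk⟩ := (IsPGroup.iff_orderOf.mp T.isPGroup') ⟨_, hmem⟩
  rw [Subgroup.orderOf_mk] at hk
  have h1 : orderOf (y * (t * y * t⁻¹)) = 1 := by
    rw [hk] at hodd ⊢
    rcases Nat.eq_zero_or_pos k with h0 | h0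
    · rw [h0, pow_zero]
    · exfalso
      have : Even (2 ^ k) := (Nat.even_pow' (by omega)).mpr even_two
      exact (Nat.not_even_iff_odd.mpr hodd) this
  rw [orderOf_eq_one_iff] at h1
  have h2 : t * y * t⁻¹ = y := by
    have := eq_inv_of_mul_eq_one_right h1
    rwa [isolated_inv hz] at this
  calc y * t = (t * y * t⁻¹) * t := by rw [h2]
    _ = t * y := by group

/-- The centralizer of an isolated involution has odd index. -/
theorem isolated_index_odd [Finite G] {z : G} (hz : Cfsg.IsIsolatedInvolution z) :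
    Odd (Subgroup.centralizer ({z} : Set G)).index := by
  have : Fact (Nat.Prime 2) := ⟨Nat.prime_two⟩
  have h2 : IsPGroup 2 (Subgroup.zpowers z) := by
    apply IsPGroup.of_card (n := 1)
    rw [Nat.card_zpowers, hz.1, pow_one]
  obtain ⟨T, hT⟩ := h2.exists_le_sylow
  have hzT : z ∈ T := hT (Subgroup.mem_zpowers z)
  have hle := isolated_sylow_le_centralizer hz T hzT
  have hdvd := Subgroup.index_dvd_of_le hle
  have hnd := T.not_dvd_index
  rw [← Nat.not_even_iff_odd, even_iff_two_dvd]
  intro h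
  exact hnd (dvd_trans h hdvd)

/-- The set of odd order elements inverted by `z`. -/
def invSet (z : G) : Set G := {k | Odd (orderOf k) ∧ z * k * z⁻¹ = k⁻¹}

theorem exists_invSet_rep [Finite G] {z : G} (hz : Cfsg.IsIsolatedInvolution z) (g : G) :
    ∃ k ∈ invSet z, g⁻¹ * k ∈ Subgroup.centralizer ({z} : Set G) := by
  obtain ⟨n, h1, h2, h3⟩ := isolated_exists_pow hz g
  refine ⟨(g * z * g⁻¹ * z) ^ n, ⟨h1, h2⟩, ?_⟩
  rw [Subgroup.mem_centralizer_iff]
  intro x hx
  rw [Set.mem_singleton_iff] at hx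
  subst hx
  set k := (g * x * g⁻¹ * x) ^ n with hk
  calc x * (g⁻¹ * k) = g⁻¹ * (g * x * g⁻¹) * k := by group
    _ = g⁻¹ * (k * x * k⁻¹) * k := by rw [h3]
    _ = g⁻¹ * k * x := by group

theorem invSet_unique [Finite G] {z : G} (k k' : G) (hk : k ∈ invSet z)
    (hk' : k' ∈ invSet z) (h : k⁻¹ * k' ∈ Subgroup.centralizer ({z} : Set G)) : k = k' := by
  rw [Subgroup.mem_centralizer_iff] at h
  have h1 := h z (Set.mem_singleton z)
  apply odd_inv_unique z k k' hk.1 hk'.1 hk.2 hk'.2
  calc k * z * k⁻¹ = k * (z * (k⁻¹ * k')) * k'⁻¹ := by group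
    _ = k * ((k⁻¹ * k') * z) * k'⁻¹ := by rw [h1]
    _ = k' * z * k'⁻¹ := by group

theorem invSet_conj {z : G} (k c : G) (hk : k ∈ invSet z)
    (hc : c ∈ Subgroup.centralizer ({z} : Set G)) : c⁻¹ * k * c ∈ invSet z := by
  rw [Subgroup.mem_centralizer_iff] at hc
  have h1 : z * c = c * z := hc z (Set.mem_singleton z)
  refine ⟨?_, ?_⟩
  · have : c⁻¹ * k * c = MulAut.conj c⁻¹ k := by simp
    rw [this, MulEquiv.orderOf_eq]; exact hk.1
  · have h2 : z * c⁻¹ = c⁻¹ * z := by
      calc z * c⁻¹ = c⁻¹ * (c * z) * c⁻¹ := by group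
        _ = c⁻¹ * (z * c) * c⁻¹ := by rw [h1]
        _ = c⁻¹ * z := by group
    have h3 : c * z⁻¹ = z⁻¹ * c := by
      calc c * z⁻¹ = z⁻¹ * (z * c) * z⁻¹ := by group
        _ = z⁻¹ * (c * z) * z⁻¹ := by rw [h1]
        _ = z⁻¹ * c := by group
    calc z * (c⁻¹ * k * c) * z⁻¹ = (z * c⁻¹) * k * (c * z⁻¹) := by group
      _ = (c⁻¹ * z) * k * (z⁻¹ * c) := by rw [h2, h3]
      _ = c⁻¹ * (z * k * z⁻¹) * c := by group
      _ = (c⁻¹ * k * c)⁻¹ := by rw [hk.2]; group

/-- The canonical representative (odd order, inverted by `z`) of a coset of `C_G(z)`. -/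
noncomputable def invRep [Finite G] {z : G} (hz : Cfsg.IsIsolatedInvolution z)
    (q : G ⧸ Subgroup.centralizer ({z} : Set G)) : G :=
  Classical.choose (exists_invSet_rep hz q.out)

theorem invRep_mem [Finite G] {z : G} (hz : Cfsg.IsIsolatedInvolution z)
    (q : G ⧸ Subgroup.centralizer ({z} : Set G)) : invRep hz q ∈ invSet z :=
  (Classical.choose_spec (exists_invSet_rep hz q.out)).1

theorem invRep_coe [Finite G] {z : G} (hz : Cfsg.IsIsolatedInvolution z)
    (q : G ⧸ Subgroup.centralizer ({z} : Set G)) :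
    ((invRep hz q : G) : G ⧸ Subgroup.centralizer ({z} : Set G)) = q := by
  have h := (Classical.choose_spec (exists_invSet_rep hz q.out)).2
  calc ((invRep hz q : G) : G ⧸ Subgroup.centralizer ({z} : Set G))
      = ((q.out : G) : G ⧸ Subgroup.centralizer ({z} : Set G)) := (QuotientGroup.eq.mpr h).symm
    _ = q := QuotientGroup.out_eq' q

theorem invRep_smul [Finite G] {z : G} (hz : Cfsg.IsIsolatedInvolution z)
    (c : G) (hc : c ∈ Subgroup.centralizer ({z} : Set G))
    (q : G ⧸ Subgroup.centralizer ({z} : Set G)) :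
    invRep hz (c⁻¹ • q) = c⁻¹ * invRep hz q * c := by
  apply invSet_unique _ _ (invRep_mem hz _) (invSet_conj _ c (invRep_mem hz q) hc)
  rw [← QuotientGroup.eq, invRep_coe]
  have h1 : ((c⁻¹ * invRep hz q * c : G) : G ⧸ Subgroup.centralizer ({z} : Set G))
      = ((c⁻¹ * invRep hz q : G) : G ⧸ Subgroup.centralizer ({z} : Set G)) := by
    rw [QuotientGroup.eq]
    have : (c⁻¹ * invRep hz q * c)⁻¹ * (c⁻¹ * invRep hz q) = c⁻¹ := by group
    rw [this]
    exact Subgroup.inv_mem _ hc
  rw [h1]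
  conv_lhs => rw [← invRep_coe hz q]
  rfl

open Subgroup Subgroup.leftTransversals in
/-- The transfer into an abelian quotient of `C_G(z)`, restricted to `C_G(z)`, is the
`|G : C_G(z)|`-th power map. -/
theorem transfer_isolated [Finite G] {z : G} (hz : Cfsg.IsIsolatedInvolution z)
    {A : Type*} [CommGroup A] (ϕ : Subgroup.centralizer ({z} : Set G) →* A)
    (c : Subgroup.centralizer ({z} : Set G)) :
    MonoidHom.transfer ϕ (c : G) = ϕ c ^ (Subgroup.centralizer ({z} : Set G)).index := by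
  classical
  letI := (Subgroup.centralizer ({z} : Set G)).fintypeQuotientOfFiniteIndex
  let T : (Subgroup.centralizer ({z} : Set G)).LeftTransversal :=
    ⟨Set.range (invRep hz), isComplement_range_left (invRep_coe hz)⟩
  rw [MonoidHom.transfer_def ϕ T]
  unfold Subgroup.leftTransversals.diff
  simp only
  have key : ∀ q : G ⧸ Subgroup.centralizer ({z} : Set G),
      ((T.2.leftQuotientEquiv q : G))⁻¹ * (((c : G) • T).2.leftQuotientEquiv q : G) = (c : G) := by
    intro q
    rw [smul_apply_eq_smul_apply_inv_smul]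
    have h1 : ∀ q, (T.2.leftQuotientEquiv q : G) = invRep hz q :=
      fun q => IsComplement.leftQuotientEquiv_apply (invRep_coe hz) q
    rw [h1, h1, invRep_smul hz c c.2 q, smul_eq_mul]
    group
  have key2 : ∀ q : G ⧸ Subgroup.centralizer ({z} : Set G),
      (⟨((T.2.leftQuotientEquiv q : G))⁻¹ * (((c : G) • T).2.leftQuotientEquiv q : G),
        QuotientGroup.leftRel_apply.mp <| Quotient.exact'
          ((T.2.leftQuotientEquiv.symm_apply_apply q).trans
            ((((c : G) • T).2.leftQuotientEquiv.symm_apply_apply q).symm))⟩ :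
        Subgroup.centralizer ({z} : Set G)) = c := fun q => Subtype.ext (key q)
  simp only [key2]
  rw [Finset.prod_const, Finset.card_univ, Subgroup.index_eq_card]
  congr 1
  exact (Nat.card_eq_fintype_card).symm

end Cfsg.Agent.Helper20
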