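/-
helper20: CALL NP piece EMB (double): a nondegenerate space contains a copy of every nondegenerate
space of smaller dimension (from helper96's `oemb_main`).
-/
import Mathlib
import Cfsg.Prelude.Def_GeometricClasses
import Cfsg.Prelude.Def_Classical
import Cfsg.Agent.Helper13.NPDefs
import Cfsg.Agent.Helper96.OHDefs
import Cfsg.Agent.Helper96.OHEMB

set_option autoImplicit false

namespace Cfsg.Agent.Helper20.NP5989

open Module Cfsg Cfsg.Geo Cfsg.Agent.Helper13.NP Cfsg.Agent.Helper96.OH

variable {ι : Type} [Fintype ι] [DecidableEq ι] {F : Type*} [Field F] [Fintype F]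
  (Q : (ι → F) → F)

/-- EMB: a nondegenerate space contains a copy of every nondegenerate space of smaller
dimension. -/
theorem np_emb (hQ : IsNondegenerateQuadraticForm Q) (h2 : (2 : F) ≠ 0)
    (K R : Submodule F (ι → F)) (hK : ONd Q K) (hR : ONd Q R)
    (hdim : finrank F R + 1 ≤ finrank F K) :
    ∃ R' : Submodule F (ι → F), R' ≤ K ∧ AreIsometricFor Q R' R := by
  obtain ⟨R', h1, -, -, -, h5⟩ := Cfsg.Agent.Helper96.OHEmb.oemb_main Q hQ h2 K R hK hR hdim
  exact ⟨R', h1, h5⟩

end Cfsg.Agent.Helper20.NP5989
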