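/-
helper20: CALL NP piece SUBATOM (double): invariant nondegenerate subspaces of dimension `c * b`
inside an invariant nondegenerate subspace without fixed vectors.
-/
import Mathlib
import Cfsg.Prelude.Def_GeometricClasses
import Cfsg.Prelude.Def_Classical
import Cfsg.Agent.Helper13.NPDefs
import Cfsg.Agent.Helper96.OHDefs
import Cfsg.Agent.Helper26.OHOATOM
import Cfsg.Agent.Helper31.OHOPERP
import Cfsg.Agent.Helper33.OType

set_option autoImplicit false

namespace Cfsg.Agent.Helper20.NP5989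

open Module Cfsg Cfsg.Geo Cfsg.Agent.Helper13.NP Cfsg.Agent.Helper96.OH

variable {ι : Type} [Fintype ι] [DecidableEq ι] {F : Type*} [Field F] [Fintype F]
  (Q : (ι → F) → F)

/-- SUBATOM: induction on `b`. -/
theorem np_sub_atom (hQ : IsNondegenerateQuadraticForm Q) (h2 : (2 : F) ≠ 0)
    (T : Module.End F (ι → F)) (hT : OPres Q T) (r : ℕ) [Fact r.Prime] (hr2 : 2 < r)
    (hrF : (r : F) ≠ 0) (hTr : T ^ r = 1) (i c : ℕ)
    (hi : i = orderOf ((Fintype.card F : ℕ) : ZMod r)) (hc : c = if Even i then i else 2 * i)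
    (D : Submodule F (ι → F)) (hDT : D.map T ≤ D) (hD : ONd Q D)
    (hDk : D ⊓ LinearMap.ker (T - 1) = ⊥) (b : ℕ) (hb : c * b ≤ finrank F D) :
    ∃ E : Submodule F (ι → F), E ≤ D ∧ E.map T ≤ E ∧ ONd Q E ∧ finrank F E = c * b := by
  induction b with
  | zero =>
    refine ⟨⊥, bot_le, ?_, ?_, ?_⟩
    · rw [Submodule.map_bot]
    · intro w hw hw0
      exact absurd ((Submodule.mem_bot F).mp hw) hw0
    · rw [finrank_bot, mul_zero]
  | succ b ih =>
    obtain ⟨E₀, hE₀D, hE₀T, hE₀nd, hE₀dim⟩ := ih (le_trans (Nat.mul_le_mul_left c (Nat.le_succ b)) hb)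
    rcases Nat.eq_zero_or_pos c with hc0 | hcpos
    · refine ⟨E₀, hE₀D, hE₀T, hE₀nd, ?_⟩
      rw [hE₀dim, hc0, zero_mul, zero_mul]
    · obtain ⟨P, hPD, hPT, hPnd, hinf, hsup, horth, hdim⟩ :=
        Cfsg.Agent.Helper31.OH5992.o_perp Q hQ T hT r (by omega) hTr D E₀ hD hE₀nd hE₀D hDT hE₀T
      have hPdim : c ≤ finrank F P := by
        have : c * (b + 1) = c * b + c := by ring
        omega
      have hP0 : P ≠ ⊥ := by
        rintro rfl
        rw [finrank_bot] at hPdim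
        omega
      have hPk : P ⊓ LinearMap.ker (T - 1) = ⊥ := by
        rw [eq_bot_iff, ← hDk]
        exact inf_le_inf_right _ hPD
      obtain ⟨E₁, hE₁P, hE₁T, hE₁nd, hE₁dim⟩ :=
        Cfsg.Agent.Helper26.OH5992.o_atom Q hQ h2 T hT r hr2 hrF hTr i c hi hc P hPT hPnd hP0 hPk
      have horth' : OOrth Q E₀ E₁ := fun u hu v hv => horth u hu v (hE₁P hv)
      refine ⟨E₀ ⊔ E₁, sup_le hE₀D (hE₁P.trans hPD), ?_, ?_, ?_⟩
      · rw [Submodule.map_sup]
        exact sup_le_sup hE₀T hE₁T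
      · exact Cfsg.Agent.Helper33.OType.nondeg_sup Q hQ E₀ E₁ hE₀nd hE₁nd horth'
      · rw [Cfsg.Agent.Helper33.OType.finrank_sup_of_orth Q E₀ E₁ hE₀nd horth', hE₀dim, hE₁dim]
        ring

end Cfsg.Agent.Helper20.NP5989
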