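import Mathlib
import Cfsg.Agent.Helper27.SameOrderA

set_option autoImplicit false

namespace Cfsg.Agent.Helper20

open Cfsg.Agent.Helper27.SO

private lemma alt4_orders : ∀ g : ↥(alternatingGroup (Fin 4)), g = 1 ∨ (g ≠ 1 ∧ g ^ 2 = 1) ∨
    (g ≠ 1 ∧ g ^ 3 = 1) := by
  decide +kernel

private lemma alt4_orderOf (g : ↥(alternatingGroup (Fin 4))) :
    orderOf g = 1 ∨ orderOf g = 2 ∨ orderOf g = 3 := by
  rcases alt4_orders g with h | ⟨h1, h2⟩ | ⟨h1, h3⟩
  · left; rw [h]; exact orderOf_one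
  · right; left; exact orderOf_eq_prime h2 h1
  · right; right; exact orderOf_eq_prime h3 h1

private lemma alt4_card1 : Nat.card {g : ↥(alternatingGroup (Fin 4)) // orderOf g = 1} = 1 := by
  have : ∀ g : ↥(alternatingGroup (Fin 4)), orderOf g = 1 ↔ g = 1 := fun g => orderOf_eq_one_iff
  simp only [this]
  rw [Nat.card_eq_fintype_card]
  decide +kernel

private lemma alt4_card2 : Nat.card {g : ↥(alternatingGroup (Fin 4)) // orderOf g = 2} = 3 := by
  have : ∀ g : ↥(alternatingGroup (Fin 4)), orderOf g = 2 ↔ (g ≠ 1 ∧ g ^ 2 = 1) := by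
    intro g
    constructor
    · intro h
      refine ⟨?_, ?_⟩
      · rintro rfl; rw [orderOf_one] at h; omega
      · rw [← h]; exact pow_orderOf_eq_one g
    · rintro ⟨h1, h2⟩; exact orderOf_eq_prime h2 h1
  simp only [this]
  rw [Nat.card_eq_fintype_card]
  decide +kernel

private lemma alt4_card3 : Nat.card {g : ↥(alternatingGroup (Fin 4)) // orderOf g = 3} = 8 := by
  have : ∀ g : ↥(alternatingGroup (Fin 4)), orderOf g = 3 ↔ (g ≠ 1 ∧ g ^ 3 = 1) := by
    intro g
    constructor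
    · intro h
      refine ⟨?_, ?_⟩
      · rintro rfl; rw [orderOf_one] at h; omega
      · rw [← h]; exact pow_orderOf_eq_one g
    · rintro ⟨h1, h2⟩; exact orderOf_eq_prime h2 h1
  simp only [this]
  rw [Nat.card_eq_fintype_card]
  decide +kernel

private lemma alt4_ex2 : ∃ g : ↥(alternatingGroup (Fin 4)), g ≠ 1 ∧ g ^ 2 = 1 := by
  decide +kernel

private lemma alt4_ex3 : ∃ g : ↥(alternatingGroup (Fin 4)), g ≠ 1 ∧ g ^ 3 = 1 := by
  decide +kernel

/-- PIECE ALT4 -/
theorem nse_alt4 :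
    ((fun m : ℕ => Nat.card {g : ↥(alternatingGroup (Fin 4)) // orderOf g = m}) ''
      Set.range (orderOf : ↥(alternatingGroup (Fin 4)) → ℕ)) = {1, 3, 8} := by
  ext x
  simp only [Set.mem_image, Set.mem_range, Set.mem_insert_iff, Set.mem_singleton_iff]
  constructor
  · rintro ⟨m, ⟨g, rfl⟩, rfl⟩
    rcases alt4_orderOf g with h | h | h
    · left; rw [h]; exact alt4_card1
    · right; left; rw [h]; exact alt4_card2
    · right; right; rw [h]; exact alt4_card3
  · rintro (rfl | rfl | rfl)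
    · exact ⟨1, ⟨1, orderOf_one⟩, alt4_card1⟩
    · obtain ⟨g, h1, h2⟩ := alt4_ex2
      exact ⟨2, ⟨g, orderOf_eq_prime h2 h1⟩, alt4_card2⟩
    · obtain ⟨g, h1, h2⟩ := alt4_ex3
      exact ⟨3, ⟨g, orderOf_eq_prime h2 h1⟩, alt4_card3⟩

end Cfsg.Agent.Helper20
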