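import Mathlib
import Cfsg.Agent.Helper27.SameOrderA

set_option autoImplicit false

namespace Cfsg.Agent.Helper20

open Cfsg.Agent.Helper27.SO

set_option maxRecDepth 100000 in
private lemma alt5_orders : ∀ g : ↥(alternatingGroup (Fin 5)), g = 1 ∨ (g ≠ 1 ∧ g ^ 2 = 1) ∨
    (g ≠ 1 ∧ g ^ 3 = 1) ∨ (g ≠ 1 ∧ g ^ 5 = 1) := by
  decide +kernel

private lemma alt5_orderOf (g : ↥(alternatingGroup (Fin 5))) :
    orderOf g = 1 ∨ orderOf g = 2 ∨ orderOf g = 3 ∨ orderOf g = 5 := by
  haveI : Fact (Nat.Prime 5) := ⟨Nat.prime_five⟩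
  rcases alt5_orders g with h | ⟨h1, h2⟩ | ⟨h1, h3⟩ | ⟨h1, h3⟩
  · left; rw [h]; exact orderOf_one
  · right; left; exact orderOf_eq_prime h2 h1
  · right; right; left; exact orderOf_eq_prime h3 h1
  · right; right; right; exact orderOf_eq_prime h3 h1

private lemma alt5_card1 : Nat.card {g : ↥(alternatingGroup (Fin 5)) // orderOf g = 1} = 1 := by
  have : ∀ g : ↥(alternatingGroup (Fin 5)), orderOf g = 1 ↔ g = 1 := fun g => orderOf_eq_one_iff
  simp only [this]
  rw [Nat.card_eq_fintype_card]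
  decide +kernel

private lemma alt5_iff (p : ℕ) (hp : p.Prime) (g : ↥(alternatingGroup (Fin 5))) :
    orderOf g = p ↔ (g ≠ 1 ∧ g ^ p = 1) := by
  haveI : Fact p.Prime := ⟨hp⟩
  constructor
  · intro h
    refine ⟨?_, ?_⟩
    · rintro rfl; rw [orderOf_one] at h; exact hp.one_lt.ne h
    · rw [← h]; exact pow_orderOf_eq_one g
  · rintro ⟨h1, h2⟩; exact orderOf_eq_prime h2 h1

set_option maxRecDepth 100000 in
private lemma alt5_card2 : Nat.card {g : ↥(alternatingGroup (Fin 5)) // orderOf g = 2} = 15 := by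
  simp only [alt5_iff 2 Nat.prime_two]
  rw [Nat.card_eq_fintype_card]
  decide +kernel

set_option maxRecDepth 100000 in
private lemma alt5_card3 : Nat.card {g : ↥(alternatingGroup (Fin 5)) // orderOf g = 3} = 20 := by
  simp only [alt5_iff 3 Nat.prime_three]
  rw [Nat.card_eq_fintype_card]
  decide +kernel

set_option maxRecDepth 100000 in
private lemma alt5_card5 : Nat.card {g : ↥(alternatingGroup (Fin 5)) // orderOf g = 5} = 24 := by
  simp only [alt5_iff 5 Nat.prime_five]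
  rw [Nat.card_eq_fintype_card]
  decide +kernel

set_option maxRecDepth 100000 in
private lemma alt5_ex2 : ∃ g : ↥(alternatingGroup (Fin 5)), g ≠ 1 ∧ g ^ 2 = 1 := by
  decide +kernel

set_option maxRecDepth 100000 in
private lemma alt5_ex3 : ∃ g : ↥(alternatingGroup (Fin 5)), g ≠ 1 ∧ g ^ 3 = 1 := by
  decide +kernel

set_option maxRecDepth 100000 in
private lemma alt5_ex5 : ∃ g : ↥(alternatingGroup (Fin 5)), g ≠ 1 ∧ g ^ 5 = 1 := by
  decide +kernel

/-- PIECE ALT5 -/
theorem nse_alt5 :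
    ((fun m : ℕ => Nat.card {g : ↥(alternatingGroup (Fin 5)) // orderOf g = m}) ''
      Set.range (orderOf : ↥(alternatingGroup (Fin 5)) → ℕ)) = {1, 15, 20, 24} := by
  ext x
  simp only [Set.mem_image, Set.mem_range, Set.mem_insert_iff, Set.mem_singleton_iff]
  constructor
  · rintro ⟨m, ⟨g, rfl⟩, rfl⟩
    rcases alt5_orderOf g with h | h | h | h
    · left; rw [h]; exact alt5_card1
    · right; left; rw [h]; exact alt5_card2
    · right; right; left; rw [h]; exact alt5_card3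
    · right; right; right; rw [h]; exact alt5_card5
  · rintro (rfl | rfl | rfl | rfl)
    · exact ⟨1, ⟨1, orderOf_one⟩, alt5_card1⟩
    · obtain ⟨g, h1, h2⟩ := alt5_ex2
      exact ⟨2, ⟨g, orderOf_eq_prime h2 h1⟩, alt5_card2⟩
    · obtain ⟨g, h1, h2⟩ := alt5_ex3
      exact ⟨3, ⟨g, orderOf_eq_prime h2 h1⟩, alt5_card3⟩
    · obtain ⟨g, h1, h2⟩ := alt5_ex5
      haveI : Fact (Nat.Prime 5) := ⟨Nat.prime_five⟩
      exact ⟨5, ⟨g, orderOf_eq_prime h2 h1⟩, alt5_card5⟩

end Cfsg.Agent.Helper20
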