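import Mathlib
import Cfsg.Agent.Helper27.SameOrderA

set_option autoImplicit false

namespace Cfsg.Agent.Helper20

open Cfsg.Agent.Helper27.SO

variable {H : Type*} [Group H] [Finite H]

/-- PIECE ISO4 -/
theorem iso_alt4_of_sc (hc : Nat.card H = 12) (h3 : sc H 3 = 8) :
    Nonempty (H ≃* ↥(alternatingGroup (Fin 4))) := by
  classical
  haveI hp3 : Fact (Nat.Prime 3) := ⟨Nat.prime_three⟩
  -- Sylow 3-subgroups have order 3
  have hcardP : ∀ P : Sylow 3 H, Nat.card (P : Subgroup H) = 3 := by
    intro P
    have h1 : 3 ^ 1 ∣ Nat.card (P : Subgroup H) :=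
      P.pow_dvd_card_of_pow_dvd_card (by rw [hc]; norm_num)
    obtain ⟨n, hn⟩ := IsPGroup.iff_card.mp P.isPGroup'
    have h2 : Nat.card (P : Subgroup H) ∣ 12 := hc ▸ Subgroup.card_subgroup_dvd_card _
    rw [hn] at h1 h2 ⊢
    have hn2 : n < 2 := by
      by_contra hcon
      push Not at hcon
      have : 3 ^ 2 ∣ 12 := (pow_dvd_pow 3 hcon).trans h2
      omega
    have hn1 : n ≠ 0 := by
      rintro rfl
      norm_num at h1
    have : n = 1 := by omega
    rw [this]; norm_num
  -- elements of P have order 1 or 3
  have horder : ∀ (P : Sylow 3 H) (g : H), g ∈ (P : Subgroup H) → g ≠ 1 → orderOf g = 3 := by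
    intro P g hg hg1
    have hd : orderOf g ∣ 3 := by
      have := orderOf_dvd_natCard (⟨g, hg⟩ : (P : Subgroup H))
      rw [hcardP P] at this
      rwa [← Subgroup.orderOf_mk g hg]
    rcases (Nat.dvd_prime Nat.prime_three).mp hd with h | h
    · exact absurd (orderOf_eq_one_iff.mp h) hg1
    · exact h
  have hzp : ∀ (P : Sylow 3 H) (g : H), g ∈ (P : Subgroup H) → g ≠ 1 →
      Subgroup.zpowers g = (P : Subgroup H) := by
    intro P g hg hg1
    apply Subgroup.eq_of_le_of_card_ge
    · rwa [Subgroup.zpowers_le]
    · rw [Nat.card_zpowers, horder P g hg hg1, hcardP P]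
  -- the number of Sylow 3-subgroups is 4
  have hn3 : Nat.card (Sylow 3 H) = 4 := by
    obtain ⟨P⟩ : Nonempty (Sylow 3 H) := inferInstance
    have hdvd : Nat.card (Sylow 3 H) ∣ 4 := by
      have h := Sylow.card_dvd_index P
      have hidx : (P : Subgroup H).index = 4 := by
        have := Subgroup.card_mul_index (P : Subgroup H)
        rw [hcardP P, hc] at this
        omega
      rwa [hidx] at h
    have hmod : Nat.card (Sylow 3 H) ≡ 1 [MOD 3] := card_sylow_modEq_one 3 H
    have hle : Nat.card (Sylow 3 H) ≤ 4 := Nat.le_of_dvd (by norm_num) hdvd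
    have hne1 : Nat.card (Sylow 3 H) ≠ 1 := by
      intro h1
      haveI : Subsingleton (Sylow 3 H) := (Nat.card_eq_one_iff_unique.mp h1).1
      -- every element of order 3 lies in P
      have hsub : ∀ g : H, orderOf g = 3 → g ∈ (P : Subgroup H) := by
        intro g hg
        have hpg : IsPGroup 3 (Subgroup.zpowers g) := by
          apply IsPGroup.of_card (n := 1)
          rw [Nat.card_zpowers, hg]; norm_num
        obtain ⟨Q, hQ⟩ := hpg.exists_le_sylow
        have : Q = P := Subsingleton.elim _ _
        rw [this] at hQ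
        exact hQ (Subgroup.mem_zpowers g)
      have hle3 : sc H 3 ≤ Nat.card (P : Subgroup H) := by
        unfold sc
        apply Nat.card_le_card_of_injective
          (fun g : {g : H // orderOf g = 3} => (⟨g.1, hsub g.1 g.2⟩ : (P : Subgroup H)))
        intro a b hab
        apply Subtype.ext
        exact congrArg (fun x : (P : Subgroup H) => (x : H)) hab
      rw [hcardP P, h3] at hle3
      omega
    have hmod' : Nat.card (Sylow 3 H) % 3 = 1 := hmod
    interval_cases hk : Nat.card (Sylow 3 H)
    · simp at hdvd
    · exact absurd rfl hne1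
    · omega
    · omega
    · rfl
  -- the action on the four Sylow 3-subgroups is faithful
  have hinj : Function.Injective (MulAction.toPermHom H (Sylow 3 H)) := by
    rw [injective_iff_map_eq_one]
    intro g hg
    by_contra hg1
    have hfix : ∀ Q : Sylow 3 H, g • Q = Q := by
      intro Q
      have := congrArg (fun σ : Equiv.Perm (Sylow 3 H) => σ Q) hg
      simpa using this
    have hmem : ∀ Q : Sylow 3 H, g ∈ (Q : Subgroup H) := by
      intro Q
      have hgN : g ∈ Subgroup.normalizer ((Q : Subgroup H) : Set H) :=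
        Sylow.smul_eq_iff_mem_normalizer.mp (hfix Q)
      have hNidx : (Subgroup.normalizer ((Q : Subgroup H) : Set H)).index = 4 := by
        have hh := Sylow.card_eq_index_normalizer Q
        rw [hn3] at hh
        exact hh.symm
      have hNcard : Nat.card (Subgroup.normalizer ((Q : Subgroup H) : Set H)) = 3 := by
        have := Subgroup.card_mul_index (Subgroup.normalizer ((Q : Subgroup H) : Set H))
        rw [hNidx, hc] at this
        omega
      have hEq : (Q : Subgroup H) = Subgroup.normalizer ((Q : Subgroup H) : Set H) := by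
        apply Subgroup.eq_of_le_of_card_ge Subgroup.le_normalizer
        rw [hNcard, hcardP Q]
      rw [hEq]; exact hgN
    have hall : ∀ Q Q' : Sylow 3 H, Q = Q' := by
      intro Q Q'
      apply Sylow.ext
      rw [← hzp Q g (hmem Q) hg1, ← hzp Q' g (hmem Q') hg1]
    haveI : Subsingleton (Sylow 3 H) := ⟨hall⟩
    have : Nat.card (Sylow 3 H) ≤ 1 := Finite.card_le_one_iff_subsingleton.mpr inferInstance
    omega
  -- transport to `Fin 4`
  have e : Sylow 3 H ≃ Fin 4 := Finite.equivFinOfCardEq hn3
  let ψ : H →* Equiv.Perm (Fin 4) :=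
    (e.permCongrHom.toMonoidHom).comp (MulAction.toPermHom H (Sylow 3 H))
  have hψ : Function.Injective ψ := by
    intro a b hab
    apply hinj
    exact e.permCongrHom.injective hab
  have hrc : Nat.card ψ.range = 12 := by
    rw [← hc]
    exact (Nat.card_congr (MonoidHom.ofInjective hψ).toEquiv).symm
  have hidx : ψ.range.index = 2 := by
    have := Subgroup.card_mul_index ψ.range
    rw [hrc, Nat.card_perm, Nat.card_eq_fintype_card, Fintype.card_fin] at this
    have h24 : Nat.factorial 4 = 24 := by decide
    omega
  have hr : ψ.range = alternatingGroup (Fin 4) := Equiv.Perm.eq_alternatingGroup_of_index_eq_two hidx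
  exact ⟨(MonoidHom.ofInjective hψ).trans (MulEquiv.subgroupCongr hr)⟩

end Cfsg.Agent.Helper20
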