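import Mathlib
import Cfsg.Agent.Helper27.SameOrderA

set_option autoImplicit false

namespace Cfsg.Agent.Helper20

open Cfsg.Agent.Helper27.SO

variable {H : Type*} [Group H] [Finite H]

/-- PIECE NC -/
theorem card_normalizer_dvd {p : ℕ} [Fact p.Prime] (P : Sylow p H)
    (hP : Nat.card (P : Subgroup H) = p) :
    Nat.card (Subgroup.normalizer ((P : Subgroup H) : Set H)) ∣
      (p - 1) * Nat.card (Subgroup.centralizer ((P : Subgroup H) : Set H)) := by
  have hp : p.Prime := Fact.out
  haveI hcyc : IsCyclic (P : Subgroup H) := isCyclic_of_prime_card (p := p) hP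
  have key := Subgroup.card_dvd_of_injective _
    (QuotientGroup.kerLift_injective (P : Subgroup H).normalizerMonoidHom)
  rw [Subgroup.normalizerMonoidHom_ker, ← Subgroup.index, ← Subgroup.relIndex] at key
  rw [IsCyclic.card_mulAut, hP, Nat.totient_prime hp] at key
  have hle : Subgroup.centralizer ((P : Subgroup H) : Set H) ≤
      Subgroup.normalizer ((P : Subgroup H) : Set H) := Subgroup.centralizer_le_normalizer _
  have hcard : Nat.card (Subgroup.normalizer ((P : Subgroup H) : Set H)) =
      (Subgroup.centralizer ((P : Subgroup H) : Set H)).relIndex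
        (Subgroup.normalizer ((P : Subgroup H) : Set H)) *
      Nat.card (Subgroup.centralizer ((P : Subgroup H) : Set H)) := by
    rw [Subgroup.relIndex, ← Nat.card_congr (Subgroup.subgroupOfEquivOfLe hle).toEquiv, mul_comm,
      Subgroup.card_mul_index]
  rw [hcard]
  exact mul_dvd_mul_right key _

end Cfsg.Agent.Helper20
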