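import Mathlib
import Cfsg.Agent.Helper27.SameOrderA

set_option autoImplicit false

namespace Cfsg.Agent.Helper20

open Cfsg.Agent.Helper27.SO

variable {H : Type*} [Group H] [Finite H]

/-- PIECE PAIR -/
theorem sc_mul_eq_card_pairs {a b : ℕ} (hab : a.Coprime b) :
    sc H (a * b) =
      Nat.card {x : H × H // orderOf x.1 = a ∧ orderOf x.2 = b ∧ Commute x.1 x.2} := by
  obtain ⟨s, t, hst⟩ : ∃ s t : ℤ, (a : ℤ) * s + (b : ℤ) * t = 1 := by
    refine ⟨Nat.gcdA a b, Nat.gcdB a b, ?_⟩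
    rw [← Nat.gcd_eq_gcd_ab, hab.gcd_eq_one]
    rfl
  have rec1 : ∀ x y : H, x ^ a = 1 → y ^ b = 1 → Commute x y → (x * y) ^ ((b : ℤ) * t) = x := by
    intro x y hx hy hc
    rw [hc.mul_zpow, zpow_mul y, zpow_natCast, hy, one_zpow, mul_one]
    have h1 : (b : ℤ) * t = 1 - (a : ℤ) * s := by linarith
    rw [h1, zpow_sub, zpow_one, zpow_mul, zpow_natCast, hx, one_zpow, inv_one, mul_one]
  have rec2 : ∀ x y : H, x ^ a = 1 → y ^ b = 1 → Commute x y → (x * y) ^ ((a : ℤ) * s) = y := by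
    intro x y hx hy hc
    rw [hc.mul_zpow, zpow_mul x, zpow_natCast, hx, one_zpow, one_mul]
    have h1 : (a : ℤ) * s = 1 - (b : ℤ) * t := by linarith
    rw [h1, zpow_sub, zpow_one, zpow_mul, zpow_natCast, hy, one_zpow, inv_one, mul_one]
  unfold sc
  symm
  apply Nat.card_eq_of_bijective
    (fun x : {x : H × H // orderOf x.1 = a ∧ orderOf x.2 = b ∧ Commute x.1 x.2} =>
      (⟨x.1.1 * x.1.2, by
        have h1 := x.2.2.2.orderOf_mul_eq_mul_orderOf_of_coprime
          (by rw [x.2.1, x.2.2.1]; exact hab)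
        rw [h1, x.2.1, x.2.2.1]⟩ : {g : H // orderOf g = a * b}))
  constructor
  · rintro ⟨⟨x, y⟩, hx, hy, hc⟩ ⟨⟨x', y'⟩, hx', hy', hc'⟩ h
    have h1 : x * y = x' * y' := congrArg Subtype.val h
    simp only at hx hy hc hx' hy' hc'
    have ex : x ^ a = 1 := by rw [← hx]; exact pow_orderOf_eq_one x
    have ey : y ^ b = 1 := by rw [← hy]; exact pow_orderOf_eq_one y
    have ex' : x' ^ a = 1 := by rw [← hx']; exact pow_orderOf_eq_one x'
    have ey' : y' ^ b = 1 := by rw [← hy']; exact pow_orderOf_eq_one y'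
    have e1 : x = x' := by rw [← rec1 x y ex ey hc, h1, rec1 x' y' ex' ey' hc']
    have e2 : y = y' := by rw [← rec2 x y ex ey hc, h1, rec2 x' y' ex' ey' hc']
    subst e1
    subst e2
    rfl
  · rintro ⟨g, hg⟩
    have hpos : 0 < a * b := by rw [← hg]; exact orderOf_pos g
    have ha0 : 0 < a := Nat.pos_of_mul_pos_right hpos
    have hb0 : 0 < b := Nat.pos_of_mul_pos_left hpos
    obtain ⟨x, hx⟩ : ∃ x : H, x = g ^ ((b : ℤ) * t) := ⟨_, rfl⟩
    obtain ⟨y, hy⟩ : ∃ y : H, y = g ^ ((a : ℤ) * s) := ⟨_, rfl⟩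
    have hc : Commute x y := by
      rw [hx, hy]
      exact Commute.zpow_zpow_self g _ _
    have hxy : x * y = g := by
      rw [hx, hy, ← zpow_add, add_comm, hst, zpow_one]
    have hgab : g ^ (a * b) = 1 := by rw [← hg]; exact pow_orderOf_eq_one g
    have hxa : x ^ a = 1 := by
      rw [hx, ← zpow_natCast, ← zpow_mul]
      have h1 : (b : ℤ) * t * (a : ℤ) = ((a * b : ℕ) : ℤ) * t := by push_cast; ring
      rw [h1, zpow_mul, zpow_natCast, hgab, one_zpow]
    have hyb : y ^ b = 1 := by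
      rw [hy, ← zpow_natCast, ← zpow_mul]
      have h1 : (a : ℤ) * s * (b : ℤ) = ((a * b : ℕ) : ℤ) * s := by push_cast; ring
      rw [h1, zpow_mul, zpow_natCast, hgab, one_zpow]
    have hox : orderOf x ∣ a := orderOf_dvd_of_pow_eq_one hxa
    have hoy : orderOf y ∣ b := orderOf_dvd_of_pow_eq_one hyb
    have hcop : (orderOf x).Coprime (orderOf y) :=
      Nat.Coprime.coprime_dvd_left hox (Nat.Coprime.coprime_dvd_right hoy hab)
    have hmul : orderOf x * orderOf y = a * b := by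
      rw [← hc.orderOf_mul_eq_mul_orderOf_of_coprime hcop, hxy, hg]
    have hlx : orderOf x ≤ a := Nat.le_of_dvd ha0 hox
    have hly : orderOf y ≤ b := Nat.le_of_dvd hb0 hoy
    have hox0 : 0 < orderOf x := orderOf_pos x
    have hoy0 : 0 < orderOf y := orderOf_pos y
    have hoxa : orderOf x = a := by
      by_contra hne
      have hlt : orderOf x < a := lt_of_le_of_ne hlx hne
      have h5 : orderOf x * orderOf y < a * b :=
        lt_of_lt_of_le (Nat.mul_lt_mul_of_pos_right hlt hoy0) (Nat.mul_le_mul_left a hly)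
      omega
    have hoyb : orderOf y = b := by
      by_contra hne
      have hlt : orderOf y < b := lt_of_le_of_ne hly hne
      have h5 : orderOf x * orderOf y < a * b :=
        lt_of_lt_of_le (Nat.mul_lt_mul_of_pos_left hlt hox0) (Nat.mul_le_mul_right b hlx)
      omega
    exact ⟨⟨(x, y), hoxa, hoyb, hc⟩, Subtype.ext hxy⟩

end Cfsg.Agent.Helper20
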