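-- helper20 library: PIECE L3 of CALL S5874 (helper95): swapping the factors of a tensor structure.
import Mathlib
import Cfsg.Prelude.Def_GeometricClasses

set_option autoImplicit false
open Cfsg Cfsg.Geo Matrix

namespace Cfsg.Agent.Helper20

variable {ι : Type} [Fintype ι] [DecidableEq ι] {F : Type*} [Field F]

theorem o12_swap_le {d k : ℕ} (e : ι ≃ Fin d × Fin k) (P : GL ι F) :
    tensorProductSubgroup d k e P ≤
      tensorProductSubgroup k d (e.trans (Equiv.prodComm (Fin d) (Fin k))) P := by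
  intro g hg
  obtain ⟨y, hy, rfl⟩ := Subgroup.mem_map.mp hg
  obtain ⟨x, ⟨a, b, hx⟩, rfl⟩ := Subgroup.mem_map.mp hy
  refine Subgroup.mem_map.mpr ⟨_, Subgroup.mem_map.mpr
    ⟨glReindex (Equiv.prodComm (Fin d) (Fin k)) x, ⟨b, a, ?_⟩, rfl⟩, ?_⟩
  · ext i j
    show (Matrix.reindexAlgEquiv F F (Equiv.prodComm (Fin d) (Fin k))
      (x : Matrix (Fin d × Fin k) (Fin d × Fin k) F)) i j = _
    rw [hx]
    simp [Matrix.kroneckerMap_apply, mul_comm]
  · congr 1

theorem o12_tensor_swap (f : (ι → F) → (ι → F) → F) {n₁ n₂ : ℕ} (e : ι ≃ Fin n₁ × Fin n₂)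
    (P : GL ι F) (f₁ : (Fin n₁ → F) → (Fin n₁ → F) → F) (f₂ : (Fin n₂ → F) → (Fin n₂ → F) → F)
    (hT : IsTensorFormStructure id f f₁ f₂ e P) :
    IsTensorFormStructure id f f₂ f₁ (e.trans (Equiv.prodComm (Fin n₁) (Fin n₂))) P ∧
    tensorProductSubgroup n₁ n₂ e P =
      tensorProductSubgroup n₂ n₁ (e.trans (Equiv.prodComm (Fin n₁) (Fin n₂))) P := by
  refine ⟨?_, le_antisymm (o12_swap_le e P) ?_⟩
  · obtain ⟨c, hc, h⟩ := hT
    refine ⟨c, hc, fun x y => ?_⟩
    have h1 := h (x ∘ Prod.swap) (y ∘ Prod.swap)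
    have hx : x ∘ (e.trans (Equiv.prodComm (Fin n₁) (Fin n₂))) = (x ∘ Prod.swap) ∘ e := rfl
    have hy : y ∘ (e.trans (Equiv.prodComm (Fin n₁) (Fin n₂))) = (y ∘ Prod.swap) ∘ e := rfl
    rw [hx, hy, h1]
    congr 1
    simp only [formOfGram, id]
    rw [← Equiv.sum_comp (Equiv.prodComm (Fin n₂) (Fin n₁))]
    apply Finset.sum_congr rfl
    intro p _
    rw [← Equiv.sum_comp (Equiv.prodComm (Fin n₂) (Fin n₁))]
    apply Finset.sum_congr rfl
    intro q _
    simp [Matrix.kroneckerMap_apply, mul_comm]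
  · have h := o12_swap_le (e.trans (Equiv.prodComm (Fin n₁) (Fin n₂))) P
    have he : (e.trans (Equiv.prodComm (Fin n₁) (Fin n₂))).trans (Equiv.prodComm (Fin n₂) (Fin n₁))
        = e := by
      ext i <;> rfl
    rw [he] at h
    exact h

end Cfsg.Agent.Helper20
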