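-- helper20 library: PIECE S1 of CALL S5874 (helper95): hyperbolic planes over fields with at most 3 elements.
import Mathlib
import Cfsg.Prelude.Def_GeometricClasses

set_option autoImplicit false
open Cfsg Cfsg.Geo Matrix

namespace Cfsg.Agent.Helper20

variable {ι : Type} [Fintype ι] [DecidableEq ι] {F : Type*} [Field F]

theorem o12_plus_plane_small [Fintype F] (hq : Fintype.card F ≤ 3) (Q : (ι → F) → F)
    (hQ : IsNondegenerateQuadraticForm Q) (W : Submodule F (ι → F))
    (hdim : Module.finrank F W = 2) (hnd : IsNondegenerateOn (QuadraticMap.polar Q) W)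
    (hplus : IsPlusTypeOn Q W) :
    ∃ x : ι → F, Q x ≠ 0 ∧
      isometryGroup F Q ⊓ subspaceStabilizer W ≤ subspaceStabilizer (Submodule.span F {x}) := by
  classical
  obtain ⟨U, hUW, hUs, hUd⟩ := hplus
  have hB := hQ.polar_bilinear
  have hQadd : ∀ u v, Q (u + v) = Q u + Q v + QuadraticMap.polar Q u v := by
    intro u v; simp only [QuadraticMap.polar]; ring
  have hBcomm : ∀ u v, QuadraticMap.polar Q u v = QuadraticMap.polar Q v u :=
    fun u v => QuadraticMap.polar_comm Q u v
  have hBself : ∀ u, Q u = 0 → QuadraticMap.polar Q u u = 0 := by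
    intro u hu
    have h1 := hQadd u u
    have h2 : u + u = (2 : F) • u := (two_smul F u).symm
    rw [h2, hQ.smul, hu] at h1
    linear_combination -h1
  have hB0 : ∀ u, QuadraticMap.polar Q 0 u = 0 := by
    intro u
    have := hB.smul_left 0 u u
    simpa using this
  have hU1 : Module.finrank F U = 1 := by omega
  have hUne : U ≠ ⊥ := by
    intro h; rw [h, finrank_bot] at hU1; omega
  obtain ⟨e, heU, he0⟩ := Submodule.exists_mem_ne_zero_of_ne_bot hUne
  have heW : e ∈ W := hUW heU
  have hQe : Q e = 0 := hUs e heU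
  obtain ⟨⟨f', hf'W, hf'⟩, -⟩ := hnd e heW he0
  obtain ⟨a, ha⟩ : ∃ a : F, a * QuadraticMap.polar Q f' e = 1 := ⟨_, inv_mul_cancel₀ hf'⟩
  obtain ⟨f, hf⟩ : ∃ f : ι → F, f = a • f' + (-(a ^ 2 * Q f')) • e := ⟨_, rfl⟩
  have hfW : f ∈ W := by
    rw [hf]; exact W.add_mem (W.smul_mem a hf'W) (W.smul_mem _ heW)
  have hBee : QuadraticMap.polar Q e e = 0 := hBself e hQe
  have hBfe : QuadraticMap.polar Q f e = 1 := by
    rw [hf, hB.add_left, hB.smul_left, hB.smul_left, hBee, mul_zero, add_zero]; exact ha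
  have hQf : Q f = 0 := by
    rw [hf, hQadd, hQ.smul, hQ.smul, hQe, hB.smul_left, hB.smul_right]
    linear_combination (-(a ^ 2 * Q f')) * ha
  have hBef : QuadraticMap.polar Q e f = 1 := by rw [hBcomm]; exact hBfe
  have hBff : QuadraticMap.polar Q f f = 0 := hBself f hQf
  have hQst : ∀ s t : F, Q (s • e + t • f) = s * t := by
    intro s t
    rw [hQadd, hQ.smul, hQ.smul, hQe, hQf, hB.smul_left, hB.smul_right, hBef]; ring
  have hli : LinearIndependent F ![e, f] := by
    rw [LinearIndependent.pair_iff]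
    intro s t hst
    have h1 : QuadraticMap.polar Q (s • e + t • f) e = 0 := by rw [hst]; exact hB0 e
    have h2 : QuadraticMap.polar Q (s • e + t • f) f = 0 := by rw [hst]; exact hB0 f
    rw [hB.add_left, hB.smul_left, hB.smul_left, hBee, hBfe] at h1
    rw [hB.add_left, hB.smul_left, hB.smul_left, hBef, hBff] at h2
    constructor
    · linear_combination h2
    · linear_combination h1
  have hspan : Submodule.span F {e, f} = W := by
    apply Submodule.eq_of_le_of_finrank_eq
    · rw [Submodule.span_le]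
      intro z hz
      rcases hz with rfl | hz
      · exact heW
      · rw [Set.mem_singleton_iff.1 hz]; exact hfW
    · have h := finrank_span_eq_card hli
      rw [Matrix.range_cons_cons_empty] at h
      rw [h, hdim]; rfl
  have hWmem : ∀ w ∈ W, ∃ s t : F, w = s • e + t • f := by
    intro w hw
    rw [← hspan, Submodule.mem_span_pair] at hw
    obtain ⟨s, t, rfl⟩ := hw
    exact ⟨s, t, rfl⟩
  have hsq : ∀ t : F, t ≠ 0 → t * t = 1 := by
    intro t ht
    have h1 := FiniteField.pow_card_sub_one_eq_one t ht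
    have h2 : 1 < Fintype.card F := Fintype.one_lt_card
    have h3 : Fintype.card F = 2 ∨ Fintype.card F = 3 := by omega
    rcases h3 with h | h
    · rw [h] at h1
      have h4 : t = 1 := by simpa using h1
      rw [h4, mul_one]
    · rw [h] at h1
      have h4 : t ^ 2 = 1 := h1
      rw [← h4]; ring
  obtain ⟨x, hx⟩ : ∃ x : ι → F, x = e + f := ⟨_, rfl⟩
  have hQx : Q x = 1 := by
    have := hQst 1 1
    rw [one_smul, one_smul, mul_one] at this
    rw [hx]; exact this
  have hkey : ∀ g : GL ι F, g ∈ isometryGroup F Q ⊓ subspaceStabilizer W →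
      ∃ c : F, (g : Matrix ι ι F) *ᵥ x = c • x := by
    intro g hg
    have hgQ : ∀ u, Q ((g : Matrix ι ι F) *ᵥ u) = Q u := fun u => hg.1 u u
    have hgW : ∀ v, v ∈ W ↔ (g : Matrix ι ι F) *ᵥ v ∈ W := hg.2
    have hxW : x ∈ W := by rw [hx]; exact W.add_mem heW hfW
    obtain ⟨s, t, hst⟩ := hWmem _ ((hgW x).1 hxW)
    have h1 : s * t = 1 := by rw [← hQst, ← hst, hgQ, hQx]
    have ht0 : t ≠ 0 := by
      rintro rfl
      rw [mul_zero] at h1
      exact zero_ne_one h1
    have h2 : s = t := by
      calc s = s * (t * t) := by rw [hsq t ht0, mul_one]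
        _ = (s * t) * t := by ring
        _ = t := by rw [h1, one_mul]
    refine ⟨t, ?_⟩
    rw [hst, h2, hx, smul_add]
  refine ⟨x, by rw [hQx]; exact one_ne_zero, ?_⟩
  intro g hg v
  obtain ⟨c, hc⟩ := hkey g hg
  obtain ⟨c', hc'⟩ := hkey g⁻¹ (Subgroup.inv_mem _ hg)
  show v ∈ Submodule.span F {x} ↔ (g : Matrix ι ι F) *ᵥ v ∈ Submodule.span F {x}
  constructor
  · intro hv
    obtain ⟨d, rfl⟩ := Submodule.mem_span_singleton.1 hv
    rw [Matrix.mulVec_smul, hc, smul_smul]
    exact Submodule.smul_mem _ _ (Submodule.mem_span_singleton_self x)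
  · intro hv
    obtain ⟨d, hd⟩ := Submodule.mem_span_singleton.1 hv
    have h1 : v = ((g⁻¹ : GL ι F) : Matrix ι ι F) *ᵥ ((g : Matrix ι ι F) *ᵥ v) := by
      rw [Matrix.mulVec_mulVec, ← Units.val_mul, inv_mul_cancel, Units.val_one, Matrix.one_mulVec]
    rw [h1, ← hd, Matrix.mulVec_smul, hc', smul_smul]
    exact Submodule.smul_mem _ _ (Submodule.mem_span_singleton_self x)

end Cfsg.Agent.Helper20
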