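import Mathlib
import Cfsg.Prelude.Def_GeometricClasses
import Cfsg.Agent.Helper98.Tensor2

/-!
# CALL S5871, piece T22 (helper20 for helper97)

Over the field with two elements a tensor decomposition `2 ⊗ n₂` normalises a field of degree 2.
-/

set_option autoImplicit false
set_option linter.unusedSectionVars false

open Cfsg Cfsg.Geo Matrix
open scoped Kronecker

namespace Cfsg.Agent.Helper20

variable {ι : Type} [Fintype ι] [DecidableEq ι] {F : Type*} [Field F]

/-- The quadratic field generated by a matrix `J` with `J² = J + 1` whose norm form is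
anisotropic. -/
theorem quadField_artin {κ : Type} [Fintype κ] [DecidableEq κ] [Nonempty κ] (J : Matrix κ κ F)
    (hJ : J * J = J + 1)
    (hN : ∀ α β : F, α ^ 2 + α * β - β ^ 2 = 0 → α = 0 ∧ β = 0) :
    ∃ K : Subalgebra F (Matrix κ κ F), IsFieldSubalgebra 2 K ∧
      ∀ x : Matrix κ κ F, x ∈ K ↔ ∃ α β : F, x = α • (1 : Matrix κ κ F) + β • J := by
  classical
  have hmul : ∀ α β α' β' : F,
      (α • (1 : Matrix κ κ F) + β • J) * (α' • (1 : Matrix κ κ F) + β' • J) =
      (α * α' + β * β') • (1 : Matrix κ κ F) + (α * β' + β * α' + β * β') • J := by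
    intro α β α' β'
    simp only [add_mul, mul_add, smul_mul_assoc, mul_smul_comm, one_mul, mul_one, hJ, smul_smul,
      smul_add]
    module
  obtain ⟨K, hK⟩ : ∃ K : Subalgebra F (Matrix κ κ F),
      ∀ x : Matrix κ κ F, x ∈ K ↔ ∃ α β : F, x = α • (1 : Matrix κ κ F) + β • J := by
    refine ⟨{ carrier := {x | ∃ α β : F, x = α • (1 : Matrix κ κ F) + β • J}
              mul_mem' := ?_
              one_mem' := ⟨1, 0, by simp⟩
              add_mem' := ?_
              zero_mem' := ⟨0, 0, by simp⟩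
              algebraMap_mem' := fun c => ⟨c, 0, by simp [Algebra.algebraMap_eq_smul_one]⟩ },
            fun x => Iff.rfl⟩
    · rintro _ _ ⟨α, β, rfl⟩ ⟨α', β', rfl⟩
      exact ⟨_, _, hmul α β α' β'⟩
    · rintro _ _ ⟨α, β, rfl⟩ ⟨α', β', rfl⟩
      exact ⟨α + α', β + β', by module⟩
  have hzero : ∀ α β : F, α • (1 : Matrix κ κ F) + β • J = 0 → α = 0 ∧ β = 0 := by
    intro α β h
    have h1 := hmul α β (α + β) (-β)
    rw [h, zero_mul] at h1
    have h2 : (α ^ 2 + α * β - β ^ 2) • (1 : Matrix κ κ F) = 0 := by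
      rw [h1]
      module
    rcases smul_eq_zero.mp h2 with h3 | h3
    · exact hN α β h3
    · exact absurd h3 one_ne_zero
  refine ⟨K, ⟨?_, ?_, ?_⟩, hK⟩
  · intro x hx y hy
    obtain ⟨α, β, rfl⟩ := (hK x).mp hx
    obtain ⟨α', β', rfl⟩ := (hK y).mp hy
    rw [hmul, hmul]
    congr 1
    · ring_nf
    · ring_nf
  · intro x hx hx0
    obtain ⟨α, β, rfl⟩ := (hK x).mp hx
    have hNne : α ^ 2 + α * β - β ^ 2 ≠ 0 := by
      intro h0
      obtain ⟨rfl, rfl⟩ := hN α β h0
      apply hx0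
      simp
    refine ⟨((α + β) / (α ^ 2 + α * β - β ^ 2)) • (1 : Matrix κ κ F) +
      (-β / (α ^ 2 + α * β - β ^ 2)) • J, (hK _).mpr ⟨_, _, rfl⟩, ?_⟩
    rw [hmul]
    have e1 : α * ((α + β) / (α ^ 2 + α * β - β ^ 2)) + β * (-β / (α ^ 2 + α * β - β ^ 2)) = 1 := by
      rw [← mul_div_assoc, ← mul_div_assoc, ← add_div, div_eq_one_iff_eq hNne]
      ring
    have e2 : α * (-β / (α ^ 2 + α * β - β ^ 2)) + β * ((α + β) / (α ^ 2 + α * β - β ^ 2)) +
        β * (-β / (α ^ 2 + α * β - β ^ 2)) = 0 := by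
      rw [← mul_div_assoc, ← mul_div_assoc, ← mul_div_assoc, ← add_div, ← add_div,
        div_eq_zero_iff]
      left
      ring
    rw [e1, e2, one_smul, zero_smul, add_zero]
  · have hli : LinearIndependent F ![(1 : Matrix κ κ F), J] := by
      rw [LinearIndependent.pair_iff]
      intro s t h
      exact hzero s t h
    have hspan : Subalgebra.toSubmodule K =
        Submodule.span F (Set.range ![(1 : Matrix κ κ F), J]) := by
      ext x
      rw [Matrix.range_cons_cons_empty, Submodule.mem_span_pair]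
      constructor
      · intro hx
        obtain ⟨α, β, rfl⟩ := (hK x).mp hx
        exact ⟨α, β, rfl⟩
      · rintro ⟨α, β, rfl⟩
        exact (hK _).mpr ⟨α, β, rfl⟩
    have h1 : Module.finrank F K = Module.finrank F (Subalgebra.toSubmodule K) := rfl
    rw [h1, hspan, finrank_span_eq_card hli]
    rfl

/-- Over the field with two elements, a `2 × 2` matrix with `M² = M + 1` is `ω` or `ω + 1`. -/
theorem f2_sq_cases [Fintype F] (hq : Fintype.card F = 2) (M : Matrix (Fin 2) (Fin 2) F)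
    (hM : M * M = M + 1) :
    M = (!![0, 1; 1, 1] : Matrix (Fin 2) (Fin 2) F) ∨
      M = (!![0, 1; 1, 1] : Matrix (Fin 2) (Fin 2) F) + 1 := by
  have h11 := Helper98.F2_two hq
  have hx01 := Helper98.F2_cases hq
  have hx2 : ∀ x : F, x * x = x := by
    intro x
    rcases hx01 x with rfl | rfl
    · exact mul_zero 0
    · exact mul_one 1
  have e00 : M 0 0 * M 0 0 + M 0 1 * M 1 0 = M 0 0 + 1 := by
    have := congrFun (congrFun hM 0) 0
    simpa [Matrix.mul_apply, Fin.sum_univ_two] using this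
  have e01 : M 0 0 * M 0 1 + M 0 1 * M 1 1 = M 0 1 := by
    have := congrFun (congrFun hM 0) 1
    simpa [Matrix.mul_apply, Fin.sum_univ_two] using this
  rw [hx2] at e00
  have hqr : M 0 1 * M 1 0 = 1 := by linear_combination e00
  have hq1 : M 0 1 = 1 := by
    rcases hx01 (M 0 1) with h | h
    · rw [h, zero_mul] at hqr
      exact absurd hqr.symm one_ne_zero
    · exact h
  have hr1 : M 1 0 = 1 := by rw [hq1, one_mul] at hqr; exact hqr
  rw [hq1, mul_one, one_mul] at e01
  rcases hx01 (M 0 0) with hp | hp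
  · left
    have hs : M 1 1 = 1 := by rw [hp, zero_add] at e01; exact e01
    ext i j
    fin_cases i <;> fin_cases j <;> simp [hp, hq1, hr1, hs]
  · right
    have hs : M 1 1 = 0 := by
      rw [hp] at e01
      linear_combination e01
    ext i j
    fin_cases i <;> fin_cases j <;> simp [hp, hq1, hr1, hs, h11]

/-- **Piece T22 of the S5871 call.** -/
theorem o12p_tensor_two_f2 [Fintype F] (hq : Fintype.card F = 2) {n₂ : ℕ} (hn₂ : 0 < n₂)
    (e : ι ≃ Fin 2 × Fin n₂) (P : GL ι F) :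
    ∃ K : Subalgebra F (Matrix ι ι F), IsFieldSubalgebra 2 K ∧
      tensorProductSubgroup 2 n₂ e P ≤ subalgebraNormalizer K := by
  classical
  have h11 := Helper98.F2_two hq
  have hx01 := Helper98.F2_cases hq
  have hN : ∀ α β : F, α ^ 2 + α * β - β ^ 2 = 0 → α = 0 ∧ β = 0 := by
    intro α β h
    rcases hx01 α with rfl | rfl <;> rcases hx01 β with rfl | rfl
    · exact ⟨rfl, rfl⟩
    · exfalso; norm_num at h
    · exfalso; norm_num at h
    · exfalso; norm_num at h
  obtain ⟨w, hw⟩ : ∃ w : Matrix (Fin 2) (Fin 2) F, w = !![0, 1; 1, 1] := ⟨_, rfl⟩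
  have hww : w * w = w + 1 := by
    rw [hw]
    exact Helper98.om2_sq
  have hcard : Fintype.card ι = 2 * n₂ := by
    have := Fintype.card_congr e
    rw [Fintype.card_prod, Fintype.card_fin, Fintype.card_fin] at this
    exact this
  have hne : Nonempty ι := by
    apply Fintype.card_pos_iff.mp
    rw [hcard]
    omega
  obtain ⟨Jh, hJh⟩ : ∃ Jh : Matrix ι ι F,
      Jh = Helper98.conjReindex e P (w ⊗ₖ (1 : Matrix (Fin n₂) (Fin n₂) F)) := ⟨_, rfl⟩
  have hJsq : Jh * Jh = Jh + 1 := by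
    rw [hJh, ← map_mul, ← Matrix.mul_kronecker_mul, Matrix.one_mul, hww, Matrix.add_kronecker,
      Matrix.one_kronecker_one, map_add, map_one]
  obtain ⟨K, hKf, hK⟩ := quadField_artin Jh hJsq hN
  refine ⟨K, hKf, ?_⟩
  have hfwd : ∀ g ∈ tensorProductSubgroup 2 n₂ e P, ∀ k ∈ K,
      (g : Matrix ι ι F) * k * ((g⁻¹ : GL ι F) : Matrix ι ι F) ∈ K := by
    intro g hgT k hk
    obtain ⟨A, B, hab⟩ := Helper98.mem_tensorProductSubgroup hgT
    have hAi : (A : Matrix (Fin 2) (Fin 2) F) * ((A⁻¹ : GL (Fin 2) F) : Matrix (Fin 2) (Fin 2) F)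
        = 1 := by
      rw [← Units.val_mul, mul_inv_cancel, Units.val_one]
    have hiA : ((A⁻¹ : GL (Fin 2) F) : Matrix (Fin 2) (Fin 2) F) * (A : Matrix (Fin 2) (Fin 2) F)
        = 1 := by
      rw [← Units.val_mul, inv_mul_cancel, Units.val_one]
    obtain ⟨M, hM'⟩ : ∃ M : Matrix (Fin 2) (Fin 2) F, M = (A : Matrix (Fin 2) (Fin 2) F) * w *
        ((A⁻¹ : GL (Fin 2) F) : Matrix (Fin 2) (Fin 2) F) := ⟨_, rfl⟩
    have hAw : (A : Matrix (Fin 2) (Fin 2) F) * w = M * (A : Matrix (Fin 2) (Fin 2) F) := by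
      rw [hM', Matrix.mul_assoc, hiA, Matrix.mul_one]
    have hMM : M * M = M + 1 := by
      have e1 : M * M = (A : Matrix (Fin 2) (Fin 2) F) * (w * w) *
          ((A⁻¹ : GL (Fin 2) F) : Matrix (Fin 2) (Fin 2) F) := by
        calc M * M = M * (A : Matrix (Fin 2) (Fin 2) F) * w *
              ((A⁻¹ : GL (Fin 2) F) : Matrix (Fin 2) (Fin 2) F) := by
              rw [Matrix.mul_assoc (M * (A : Matrix (Fin 2) (Fin 2) F)),
                Matrix.mul_assoc M, ← Matrix.mul_assoc (A : Matrix (Fin 2) (Fin 2) F) w, ← hM']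
          _ = (A : Matrix (Fin 2) (Fin 2) F) * w * w *
              ((A⁻¹ : GL (Fin 2) F) : Matrix (Fin 2) (Fin 2) F) := by rw [← hAw]
          _ = (A : Matrix (Fin 2) (Fin 2) F) * (w * w) *
              ((A⁻¹ : GL (Fin 2) F) : Matrix (Fin 2) (Fin 2) F) := by
              rw [Matrix.mul_assoc (A : Matrix (Fin 2) (Fin 2) F) w w]
      rw [e1, hww, Matrix.mul_add, Matrix.add_mul, Matrix.mul_one, hAi, ← hM']
    have hgJ : (g : Matrix ι ι F) * Jh =
        Helper98.conjReindex e P (M ⊗ₖ (1 : Matrix (Fin n₂) (Fin n₂) F)) * (g : Matrix ι ι F) := by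
      rw [hab, hJh, ← map_mul, ← map_mul, ← Matrix.mul_kronecker_mul, ← Matrix.mul_kronecker_mul,
        Matrix.mul_one, Matrix.one_mul, hAw]
    have hgi : (g : Matrix ι ι F) * ((g⁻¹ : GL ι F) : Matrix ι ι F) = 1 := by
      rw [← Units.val_mul, mul_inv_cancel, Units.val_one]
    have hJ' : Helper98.conjReindex e P (M ⊗ₖ (1 : Matrix (Fin n₂) (Fin n₂) F)) = Jh ∨
        Helper98.conjReindex e P (M ⊗ₖ (1 : Matrix (Fin n₂) (Fin n₂) F)) = Jh + 1 := by
      rcases f2_sq_cases hq M hMM with h | h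
      · left; rw [h, hJh, hw]
      · right
        rw [h, hJh, hw, Matrix.add_kronecker, Matrix.one_kronecker_one, map_add, map_one]
    have hconj : (g : Matrix ι ι F) * Jh * ((g⁻¹ : GL ι F) : Matrix ι ι F) =
        Helper98.conjReindex e P (M ⊗ₖ (1 : Matrix (Fin n₂) (Fin n₂) F)) := by
      rw [hgJ, Matrix.mul_assoc, hgi, Matrix.mul_one]
    obtain ⟨α, β, rfl⟩ := (hK k).mp hk
    have e1 : (g : Matrix ι ι F) * (α • (1 : Matrix ι ι F) + β • Jh) *
        ((g⁻¹ : GL ι F) : Matrix ι ι F) =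
        α • (1 : Matrix ι ι F) + β • ((g : Matrix ι ι F) * Jh * ((g⁻¹ : GL ι F) : Matrix ι ι F)) := by
      rw [Matrix.mul_add, Matrix.add_mul, Matrix.mul_smul, Matrix.smul_mul, Matrix.mul_one, hgi,
        Matrix.mul_smul, Matrix.smul_mul]
    rw [e1, hconj]
    rcases hJ' with h | h
    · rw [h]; exact (hK _).mpr ⟨α, β, rfl⟩
    · rw [h]; exact (hK _).mpr ⟨α + β, β, by module⟩
  intro g hgT
  show ∀ k : Matrix ι ι F, k ∈ K ↔
    (g : Matrix ι ι F) * k * ((g⁻¹ : GL ι F) : Matrix ι ι F) ∈ K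
  intro k
  constructor
  · exact hfwd g hgT k
  · intro hk
    have h1 := hfwd g⁻¹ (Subgroup.inv_mem _ hgT) _ hk
    rw [inv_inv] at h1
    have hig : ((g⁻¹ : GL ι F) : Matrix ι ι F) * (g : Matrix ι ι F) = 1 := by
      rw [← Units.val_mul, inv_mul_cancel, Units.val_one]
    have h2 : ((g⁻¹ : GL ι F) : Matrix ι ι F) *
        ((g : Matrix ι ι F) * k * ((g⁻¹ : GL ι F) : Matrix ι ι F)) * (g : Matrix ι ι F) = k := by
      rw [← Matrix.mul_assoc, ← Matrix.mul_assoc, hig, Matrix.one_mul, Matrix.mul_assoc, hig,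
        Matrix.mul_one]
    rw [h2] at h1
    exact h1

end Cfsg.Agent.Helper20
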