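import Mathlib
import Cfsg.Prelude.Def_GeometricClasses

/-!
# CALL S5871, piece TA (helper20 for helper97): additivity of the plus type

If `W₁ ⟂ W₂` are nondegenerate, `W₁ ⊔ W₂` and `W₁` are of plus type, then so is `W₂`.
-/

set_option autoImplicit false
set_option linter.unusedSectionVars false

open Cfsg Cfsg.Geo Matrix
open scoped Kronecker

namespace Cfsg.Agent.Helper20

variable {ι : Type} [Fintype ι] [DecidableEq ι] {F : Type*} [Field F]

/-- In a subspace `W` on which the nondegenerate symmetric form `B` is nondegenerate, two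
subspaces that are orthogonal to each other have dimensions adding up to at most `dim W`. -/
theorem ta_perp_bound (B : LinearMap.BilinForm F (ι → F)) (hB : B.Nondegenerate)
    (W X Y : Submodule F (ι → F)) (hW : ∀ w ∈ W, (∀ x ∈ W, B x w = 0) → w = 0)
    (hX : X ≤ W) (hY : Y ≤ W) (hXY : ∀ x ∈ X, ∀ y ∈ Y, B x y = 0) :
    Module.finrank F X + Module.finrank F Y ≤ Module.finrank F W := by
  have hWinf : W ⊓ B.orthogonal W = ⊥ := by
    rw [eq_bot_iff]
    intro w hw
    rw [Submodule.mem_bot]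
    exact hW w hw.1 (fun x hx => (LinearMap.BilinForm.mem_orthogonal_iff.1 hw.2) x hx)
  have h1 := LinearMap.BilinForm.finrank_orthogonal hB W
  have h2 := LinearMap.BilinForm.finrank_orthogonal hB X
  have hWle := Submodule.finrank_le W
  have hXle := Submodule.finrank_le X
  have hsup : W ⊔ B.orthogonal W = ⊤ := by
    apply Submodule.eq_top_of_finrank_eq
    have h3 := Submodule.finrank_sup_add_finrank_inf_eq W (B.orthogonal W)
    rw [hWinf, finrank_bot] at h3
    omega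
  have hsup2 : B.orthogonal X ⊔ W = ⊤ := by
    rw [eq_top_iff, ← hsup, sup_comm]
    exact sup_le_sup_right (LinearMap.BilinForm.orthogonal_le hX) W
  have hYle : Y ≤ B.orthogonal X ⊓ W := by
    intro y hy
    exact ⟨LinearMap.BilinForm.mem_orthogonal_iff.2 (fun x hx => hXY x hx y hy), hY hy⟩
  have h4 := Submodule.finrank_sup_add_finrank_inf_eq (B.orthogonal X) W
  rw [hsup2, finrank_top] at h4
  have h5 := Submodule.finrank_mono hYle
  omega

/-- **Piece TA of the S5871 call.** -/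
theorem o12p_type_add (Q : (ι → F) → F) (hQ : IsNondegenerateQuadraticForm Q)
    (W₁ W₂ : Submodule F (ι → F)) (hnd₁ : IsNondegenerateOn (QuadraticMap.polar Q) W₁)
    (hnd₂ : IsNondegenerateOn (QuadraticMap.polar Q) W₂)
    (horth : AreOrthogonalFor (QuadraticMap.polar Q) W₁ W₂)
    (hsum : IsPlusTypeOn Q (W₁ ⊔ W₂)) (h₁ : IsPlusTypeOn Q W₁) : IsPlusTypeOn Q W₂ := by
  classical
  have hb := hQ.polar_bilinear
  obtain ⟨B, hBdef⟩ : ∃ B : LinearMap.BilinForm F (ι → F),
      ∀ x y, B x y = QuadraticMap.polar Q x y :=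
    ⟨LinearMap.mk₂ F (fun x y => QuadraticMap.polar Q x y) hb.add_left
      (fun c m n => by rw [smul_eq_mul]; exact hb.smul_left c m n) hb.add_right
      (fun c m n => by rw [smul_eq_mul]; exact hb.smul_right c m n), fun x y => rfl⟩
  have hpolar : ∀ x y, QuadraticMap.polar Q x y = Q (x + y) - Q x - Q y := fun x y => rfl
  have hsym : ∀ x y, B x y = B y x := by
    intro x y
    rw [hBdef, hBdef, hpolar, hpolar, add_comm x y]
    ring
  have hBnd : B.Nondegenerate := by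
    refine ⟨?_, ?_⟩
    · intro x hx
      by_contra hx0
      obtain ⟨y, hy⟩ := (hQ.nondegenerate x hx0).2
      exact hy (by rw [← hBdef]; exact hx y)
    · intro y hy
      by_contra hy0
      obtain ⟨x, hx⟩ := (hQ.nondegenerate y hy0).1
      exact hx (by rw [← hBdef]; exact hy x)
  obtain ⟨U, hUle, hUts, hUdim⟩ := hsum
  obtain ⟨T, hTle, hTts, hTdim⟩ := h₁
  have hts : ∀ (X : Submodule F (ι → F)), (∀ w ∈ X, Q w = 0) →
      ∀ x ∈ X, ∀ y ∈ X, B x y = 0 := by
    intro X hX x hx y hy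
    rw [hBdef, hpolar, hX _ (X.add_mem hx hy), hX x hx, hX y hy]
    ring
  have h12 : ∀ x ∈ W₁, ∀ y ∈ W₂, B x y = 0 := fun x hx y hy => by
    rw [hBdef]; exact horth x hx y hy
  have hW₁ : ∀ w ∈ W₁, (∀ x ∈ W₁, B x w = 0) → w = 0 := by
    intro w hw h
    by_contra hw0
    obtain ⟨x, hx, hxw⟩ := (hnd₁ w hw hw0).1
    exact hxw (by rw [← hBdef]; exact h x hx)
  have hW₂ : ∀ w ∈ W₂, (∀ x ∈ W₂, B x w = 0) → w = 0 := by
    intro w hw h
    by_contra hw0
    obtain ⟨x, hx, hxw⟩ := (hnd₂ w hw hw0).1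
    exact hxw (by rw [← hBdef]; exact h x hx)
  have hinf : W₁ ⊓ W₂ = ⊥ := by
    rw [eq_bot_iff]
    intro w hw
    rw [Submodule.mem_bot]
    exact hW₁ w hw.1 (fun x hx => h12 x hx w hw.2)
  have hdimV' : Module.finrank F ↥(W₁ ⊔ W₂) = Module.finrank F W₁ + Module.finrank F W₂ := by
    have h3 := Submodule.finrank_sup_add_finrank_inf_eq W₁ W₂
    rw [hinf, finrank_bot] at h3
    omega
  have hV' : ∀ w ∈ W₁ ⊔ W₂, (∀ x ∈ W₁ ⊔ W₂, B x w = 0) → w = 0 := by
    intro w hw h
    obtain ⟨a, ha, b, hb', rfl⟩ := Submodule.mem_sup.1 hw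
    have ha0 : a = 0 := by
      apply hW₁ a ha
      intro x hx
      have h3 := h x (Submodule.mem_sup_left hx)
      rw [map_add, h12 x hx b hb', add_zero] at h3
      exact h3
    have hb0 : b = 0 := by
      apply hW₂ b hb'
      intro x hx
      have h3 := h x (Submodule.mem_sup_right hx)
      rw [map_add, hsym x a, h12 a ha x hx, zero_add] at h3
      exact h3
    rw [ha0, hb0, add_zero]
  have hT1 : T ≤ W₁ ⊔ W₂ := hTle.trans le_sup_left
  obtain ⟨U₂, hU₂⟩ : ∃ U₂ : Submodule F (ι → F), U₂ = W₂ ⊓ (U ⊔ T) := ⟨_, rfl⟩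
  have hU₂le : U₂ ≤ W₂ := by rw [hU₂]; exact inf_le_left
  have hQ2 : ∀ t ∈ T, B t t = 0 := fun t ht => hts T hTts t ht t ht
  have hU₂ts : ∀ w ∈ U₂, Q w = 0 := by
    intro w hw
    rw [hU₂] at hw
    obtain ⟨u, hu, t, ht, rfl⟩ := Submodule.mem_sup.1 hw.2
    have e1 : Q (u + t) = B u t := by
      rw [hBdef, hpolar, hUts u hu, hTts t ht]
      ring
    rw [e1]
    have e2 : B (u + t) t = B u t + B t t := by rw [map_add, LinearMap.add_apply]
    have e3 : B (u + t) t = 0 := by rw [hsym]; exact h12 t (hTle ht) _ hw.1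
    rw [e3, hQ2 t ht, add_zero] at e2
    exact e2.symm
  refine ⟨U₂, hU₂le, hU₂ts, ?_⟩
  have hUTle : U ⊔ T ≤ W₁ ⊔ W₂ := sup_le hUle hT1
  have hc1 := Submodule.finrank_sup_add_finrank_inf_eq W₂ (U ⊔ T)
  have hc2 := Submodule.finrank_sup_add_finrank_inf_eq U T
  have hc3 := ta_perp_bound B hBnd (W₁ ⊔ W₂) (U ⊓ T) (W₂ ⊔ (U ⊔ T)) hV'
    (inf_le_left.trans hUle) (sup_le le_sup_right hUTle) (by
      intro x hx y hy
      obtain ⟨w, hw, z, hz, rfl⟩ := Submodule.mem_sup.1 hy
      obtain ⟨u, hu, t, ht, rfl⟩ := Submodule.mem_sup.1 hz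
      rw [map_add, map_add, h12 x (hTle hx.2) w hw, hts U hUts x hx.1 u hu,
        hts T hTts x hx.2 t ht]
      simp)
  have hc4 := ta_perp_bound B hBnd W₂ U₂ U₂ hW₂ hU₂le hU₂le (hts U₂ hU₂ts)
  rw [← hU₂] at hc1
  omega

end Cfsg.Agent.Helper20
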