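/-
helper20: CALL OD (part 2) piece PMK (double): wrapper of helper43's `key_general` for the Jordan
type `(3, 1, 2^(d-2))` of the minus form.
-/
import Mathlib
import Cfsg.Agent.Helper96.OHDefs
import Cfsg.Agent.Helper43.UniMain
import Cfsg.Agent.Helper43.UniMinus

set_option autoImplicit false

namespace Cfsg.Agent.Helper20.OD59

open Module Cfsg Cfsg.Geo
open Cfsg.Agent.Helper96.OH
open scoped MatrixGroups

variable {F : Type*} [Field F]

/-- PMK: an invariant member `W` with `2 dim (W ⊓ ker N) = m ± 1`, and `A ^ p = 1`. -/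
theorem od_pm_key [Fintype F] (p : ℕ) [Fact p.Prime] [CharP F p]
    (hodd : Odd (Fintype.card F)) (d m : ℕ) (hd : 4 ≤ d) (hde : Even d) (hmo : Odd m) (hmd : m < d)
    (a b : F) (hab : ∀ x y : F, x ^ 2 + a * x * y + b * y ^ 2 = 0 → x = 0 ∧ y = 0)
    (Good : Submodule F ((Fin (d - 1) ⊕ Fin (d - 1)) ⊕ Fin 2 → F) → Prop)
    (hG : ∀ W, Good W → finrank F W = m ∧ ONd (Cfsg.quadFormMinus (d - 1) F a b) W)
    (H : ∀ x : GL ((Fin (d - 1) ⊕ Fin (d - 1)) ⊕ Fin 2) F,
      x ∈ Cfsg.Geo.omegaGL (Cfsg.quadFormMinus (d - 1) F a b) →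
      (∃ z : F, ((x ^ p : GL ((Fin (d - 1) ⊕ Fin (d - 1)) ⊕ Fin 2) F) :
        Matrix ((Fin (d - 1) ⊕ Fin (d - 1)) ⊕ Fin 2) ((Fin (d - 1) ⊕ Fin (d - 1)) ⊕ Fin 2) F) =
        z • (1 : Matrix ((Fin (d - 1) ⊕ Fin (d - 1)) ⊕ Fin 2)
          ((Fin (d - 1) ⊕ Fin (d - 1)) ⊕ Fin 2) F)) →
      (∀ z : F, (x : Matrix ((Fin (d - 1) ⊕ Fin (d - 1)) ⊕ Fin 2)
        ((Fin (d - 1) ⊕ Fin (d - 1)) ⊕ Fin 2) F) ≠
        z • (1 : Matrix ((Fin (d - 1) ⊕ Fin (d - 1)) ⊕ Fin 2)
          ((Fin (d - 1) ⊕ Fin (d - 1)) ⊕ Fin 2) F)) →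
      ∃ W, Good W ∧ W.map (Matrix.toLin' (x : Matrix ((Fin (d - 1) ⊕ Fin (d - 1)) ⊕ Fin 2)
        ((Fin (d - 1) ⊕ Fin (d - 1)) ⊕ Fin 2) F)) ≤ W)
    (A : Matrix ((Fin (d - 1) ⊕ Fin (d - 1)) ⊕ Fin 2) ((Fin (d - 1) ⊕ Fin (d - 1)) ⊕ Fin 2) F)
    (hA : ∀ v, Cfsg.quadFormMinus (d - 1) F a b (A.mulVec v) = Cfsg.quadFormMinus (d - 1) F a b v)
    (hk1 : finrank F (LinearMap.ker (Matrix.toLin' A - 1)) = d)
    (hk2 : finrank F (LinearMap.ker ((Matrix.toLin' A - 1) ^ 2)) = 2 * d - 1)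
    (hk3 : (Matrix.toLin' A - 1) ^ 3 = 0) :
    ∃ W, Good W ∧ W.map (Matrix.toLin' A) ≤ W ∧ A ^ p = 1 ∧
      ((m % 4 = 1 ∧
          2 * finrank F ↥(W ⊓ LinearMap.ker (Matrix.toLin' A - 1)) = m + 1) ∨
        (m % 4 = 3 ∧
          2 * finrank F ↥(W ⊓ LinearMap.ker (Matrix.toLin' A - 1)) + 1 = m)) := by
  classical
  have hpp : p.Prime := Fact.out
  have hp2 : p ≠ 2 := by
    intro h
    obtain ⟨n, -, hn⟩ := FiniteField.card F p
    rw [h] at hn
    rw [hn] at hodd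
    exact (Nat.not_even_iff_odd.mpr hodd) (Nat.even_pow.mpr ⟨even_two, n.pos.ne'⟩)
  have hp3 : 3 ≤ p := by
    have := hpp.two_le
    omega
  haveI : Nonempty ((Fin (d - 1) ⊕ Fin (d - 1)) ⊕ Fin 2) := ⟨Sum.inr 0⟩
  have hcard : Fintype.card ((Fin (d - 1) ⊕ Fin (d - 1)) ⊕ Fin 2) = 2 * d := by
    rw [Fintype.card_sum, Fintype.card_sum, Fintype.card_fin, Fintype.card_fin]
    omega
  obtain ⟨μ, hμdef⟩ : ∃ μ : Multiset ℕ, μ = 3 ::ₘ 1 ::ₘ Multiset.replicate (d - 2) 2 := ⟨_, rfl⟩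
  have hμ : ∀ e ∈ μ, 0 < e ∧ e ≤ p := by
    intro e he
    rw [hμdef, Multiset.mem_cons, Multiset.mem_cons] at he
    rcases he with rfl | rfl | he
    · exact ⟨by norm_num, hp3⟩
    · exact ⟨by norm_num, by omega⟩
    · rw [Multiset.eq_of_mem_replicate he]
      exact ⟨by norm_num, by omega⟩
  have hsum : μ.sum = Fintype.card ((Fin (d - 1) ⊕ Fin (d - 1)) ⊕ Fin 2) := by
    rw [hcard, hμdef, Multiset.sum_cons, Multiset.sum_cons, Multiset.sum_replicate, smul_eq_mul]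
    omega
  have hkd : ∀ l, Cfsg.Agent.Helper43.UniIso.kdim μ l =
      min 3 l + (min 1 l + (d - 2) * min 2 l) := by
    intro l
    unfold Cfsg.Agent.Helper43.UniIso.kdim
    rw [hμdef, Multiset.map_cons, Multiset.map_cons, Multiset.sum_cons, Multiset.sum_cons,
      Multiset.map_replicate, Multiset.sum_replicate, smul_eq_mul]
  have hfull : finrank F ((Fin (d - 1) ⊕ Fin (d - 1)) ⊕ Fin 2 → F) = 2 * d := by
    rw [Module.finrank_fintype_fun_eq_card, hcard]
  have hk : ∀ l, finrank F ↥(LinearMap.ker ((Matrix.toLin' A - 1) ^ l)) =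
      Cfsg.Agent.Helper43.UniIso.kdim μ l := by
    intro l
    rw [hkd]
    rcases Nat.lt_or_ge l 3 with hl | hl
    · interval_cases l
      · rw [pow_zero, Module.End.one_eq_id, LinearMap.ker_id, finrank_bot]
        simp
      · rw [pow_one, hk1]
        have e1 : min 3 1 = 1 := by decide
        have e2 : min 1 1 = 1 := by decide
        have e3 : min 2 1 = 1 := by decide
        rw [e1, e2, e3]
        omega
      · rw [hk2]
        have e4 : min 3 2 = 2 := by decide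
        have e5 : min 1 2 = 1 := by decide
        have e6 : min 2 2 = 2 := by decide
        rw [e4, e5, e6]
        omega
    · have h0 : (Matrix.toLin' A - 1) ^ l = 0 := by
        obtain ⟨j, rfl⟩ := Nat.exists_eq_add_of_le hl
        rw [pow_add, hk3, zero_mul]
      rw [h0, LinearMap.ker_zero, finrank_top, hfull, min_eq_left hl, min_eq_left (by omega),
        min_eq_left (by omega)]
      omega
  have key := Cfsg.Agent.Helper43.UniMain.key_general p hp2
    (Cfsg.Agent.Helper43.minusQF (d - 1) F a b)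
    (Cfsg.Agent.Helper43.OrthEven.minusQF_nondeg (d - 1) a b hab) m Good
    (fun W hW => hG W hW)
    (fun x hxΩ hxp hx1 hxs => H x hxΩ ⟨1, by rw [hxp]; simp⟩ hxs) μ hμ hsum A hA hk
  rcases key with hμ1 | ⟨W, ν, hGW, hWA, hnil, hνμ, hνs, hνp, hνc⟩
  · exfalso
    have h3 : (3 : ℕ) ∈ μ := by
      rw [hμdef]
      exact Multiset.mem_cons_self _ _
    rw [hμ1] at h3
    have := Multiset.eq_of_mem_replicate h3
    omega
  · have hWm : finrank F ↥W = m := (hG W hGW).1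
    have hAp : A ^ p = 1 := by
      have h := sub_pow_char_of_commute (p := p) (Commute.one_right A)
      rw [hnil, one_pow] at h
      exact sub_eq_zero.mp h.symm
    have hN0 : finrank F ↥(W ⊓ LinearMap.ker ((Matrix.toLin' A - 1) ^ 0)) = 0 := by
      rw [pow_zero, Module.End.one_eq_id, LinearMap.ker_id, inf_bot_eq, finrank_bot]
    have hN3 : finrank F ↥(W ⊓ LinearMap.ker ((Matrix.toLin' A - 1) ^ 3)) = m := by
      rw [hk3, LinearMap.ker_zero, inf_top_eq]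
      exact hWm
    have hN4 : finrank F ↥(W ⊓ LinearMap.ker ((Matrix.toLin' A - 1) ^ 4)) = m := by
      rw [show (4 : ℕ) = 3 + 1 from rfl, pow_succ, hk3, zero_mul, LinearMap.ker_zero, inf_top_eq]
      exact hWm
    have E1 := hνc 1 le_rfl
    have E2 := hνc 2 (by norm_num)
    have E3 := hνc 3 (by norm_num)
    rw [show (1 : ℕ) - 1 = 0 from rfl, show (1 : ℕ) + 1 = 2 from rfl, hN0, pow_one] at E1
    rw [show (2 : ℕ) - 1 = 1 from rfl, show (2 : ℕ) + 1 = 3 from rfl, pow_one, hN3] at E2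
    rw [show (3 : ℕ) - 1 = 2 from rfl, show (3 : ℕ) + 1 = 4 from rfl, hN4, hN3] at E3
    have hc3 : ν.count 3 ≤ 1 := by
      have h1 := Multiset.count_le_of_le 3 hνμ
      have h2 : μ.count 3 = 1 := by
        rw [hμdef, Multiset.count_cons_self, Multiset.count_cons_of_ne (by norm_num),
          Multiset.count_replicate]
        simp
      omega
    have hc1 : ν.count 1 ≤ 1 := by
      have h1 := Multiset.count_le_of_le 1 hνμ
      have h2 : μ.count 1 = 1 := by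
        rw [hμdef, Multiset.count_cons_of_ne (by norm_num), Multiset.count_cons_self,
          Multiset.count_replicate]
        simp
      omega
    obtain ⟨t, ht⟩ := hνp 2 even_two
    obtain ⟨s, hs⟩ := hmo
    refine ⟨W, hGW, hWA, hAp, ?_⟩
    omega

end Cfsg.Agent.Helper20.OD59
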