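/-
helper20: CALL OD (part 2) piece PMX: a unipotent isometry of the minus form of Jordan type
`(3, 1, 2^(d-2))`, `d` even.
-/
import Mathlib
import Cfsg.Agent.Helper43.UniMinus

set_option autoImplicit false

namespace Cfsg.Agent.Helper20.OD59

open Module Cfsg Cfsg.Geo
open scoped MatrixGroups

variable {F : Type*} [Field F]

/-- PMX: a unipotent isometry `A` of the minus form with `dim ker N = d`, `dim ker N² = 2d - 1`,
`N³ = 0` (`N = toLin' A - 1`). -/
theorem od_pm_exists [Fintype F] (h2 : (2 : F) ≠ 0) (d : ℕ) (hd : 2 ≤ d) (hde : Even d) (a b : F)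
    (hab : ∀ x y : F, x ^ 2 + a * x * y + b * y ^ 2 = 0 → x = 0 ∧ y = 0) :
    ∃ A : Matrix ((Fin (d - 1) ⊕ Fin (d - 1)) ⊕ Fin 2) ((Fin (d - 1) ⊕ Fin (d - 1)) ⊕ Fin 2) F,
      (∀ v, Cfsg.quadFormMinus (d - 1) F a b (A.mulVec v) = Cfsg.quadFormMinus (d - 1) F a b v) ∧
      finrank F (LinearMap.ker (Matrix.toLin' A - 1)) = d ∧
      finrank F (LinearMap.ker ((Matrix.toLin' A - 1) ^ 2)) = 2 * d - 1 ∧
      (Matrix.toLin' A - 1) ^ 3 = 0 := by
  obtain ⟨μ, hμ⟩ : ∃ μ : Multiset ℕ, μ = 3 ::ₘ 1 ::ₘ Multiset.replicate (d - 2) 2 := ⟨_, rfl⟩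
  have hpos : ∀ e ∈ μ, 0 < e := by
    intro e he
    rw [hμ, Multiset.mem_cons, Multiset.mem_cons] at he
    rcases he with rfl | rfl | he
    · norm_num
    · norm_num
    · rw [Multiset.eq_of_mem_replicate he]
      norm_num
  have hpar : ∀ e : ℕ, Even e → Even (μ.count e) := by
    intro e he
    have h3 : e ≠ 3 := by
      rintro rfl
      exact absurd he (by decide)
    have h1 : e ≠ 1 := by
      rintro rfl
      exact absurd he (by decide)
    rw [hμ, Multiset.count_cons_of_ne h3, Multiset.count_cons_of_ne h1, Multiset.count_replicate]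
    split_ifs
    · exact (Nat.even_sub hd).mpr ⟨fun _ => even_two, fun _ => hde⟩
    · exact ⟨0, rfl⟩
  have hsum : μ.sum = 2 * d := by
    rw [hμ, Multiset.sum_cons, Multiset.sum_cons, Multiset.sum_replicate, smul_eq_mul]
    omega
  have hodd : ∃ e ∈ μ, Odd e := ⟨3, by rw [hμ]; exact Multiset.mem_cons_self _ _, by decide⟩
  obtain ⟨A, hA, hk⟩ :=
    Cfsg.Agent.Helper43.UniMinus.exists_matrix_minus h2 a b hab d μ hpos hpar hsum hodd
  have hkd : ∀ l, Cfsg.Agent.Helper43.UniIso.kdim μ l =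
      min 3 l + (min 1 l + (d - 2) * min 2 l) := by
    intro l
    unfold Cfsg.Agent.Helper43.UniIso.kdim
    rw [hμ, Multiset.map_cons, Multiset.map_cons, Multiset.sum_cons, Multiset.sum_cons,
      Multiset.map_replicate, Multiset.sum_replicate, smul_eq_mul]
  have e1 : min 3 1 = 1 := by decide
  have e2 : min 1 1 = 1 := by decide
  have e3 : min 2 1 = 1 := by decide
  have e4 : min 3 2 = 2 := by decide
  have e5 : min 1 2 = 1 := by decide
  have e6 : min 2 2 = 2 := by decide
  have e7 : min 3 3 = 3 := by decide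
  have e8 : min 1 3 = 1 := by decide
  have e9 : min 2 3 = 2 := by decide
  refine ⟨A, hA, ?_, ?_, ?_⟩
  · have h1 := hk 1
    rw [pow_one, hkd, e1, e2, e3] at h1
    rw [h1]
    omega
  · rw [hk 2, hkd, e4, e5, e6]
    omega
  · have h3 := hk 3
    rw [hkd, e7, e8, e9] at h3
    have hcard : finrank F ((Fin (d - 1) ⊕ Fin (d - 1)) ⊕ Fin 2 → F) = 2 * d := by
      rw [Module.finrank_fintype_fun_eq_card, Fintype.card_sum, Fintype.card_sum,
        Fintype.card_fin, Fintype.card_fin]
      omega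
    have htop : LinearMap.ker ((Matrix.toLin' A - 1) ^ 3) = ⊤ := by
      apply Submodule.eq_top_of_finrank_eq
      rw [h3, hcard]
      omega
    exact LinearMap.ker_eq_top.mp htop

end Cfsg.Agent.Helper20.OD59
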