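import Cfsg.Agent.Helper45.OctE

set_option autoImplicit false
set_option linter.unusedSectionVars false
set_option linter.unusedSimpArgs false
set_option linter.unusedVariables false
set_option linter.style.haveILetI false

universe u

namespace Cfsg.Agent.Helper20.OctP

open Cfsg Matrix Module Cfsg.Agent.Helper45 Cfsg.Agent.Helper45.AO Cfsg.Agent.Helper45.OO
  Cfsg.Agent.Helper45.Oct

section Generic

variable {ι : Type} [Fintype ι] [DecidableEq ι] {F : Type u} [Field F] [Fintype F]
  (Q : QuadraticForm F (ι → F))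

/-- PIECE CP -/
theorem exists_cpair (hQ : (QuadraticMap.polarBilin Q).Nondegenerate)
    (hn : 5 ≤ Fintype.card ι) :
    ∃ L M : Submodule F (ι → F), IsLine Q L ∧ IsLine Q M ∧ Meet L M ∧ ¬ Perp Q L M := by
  obtain ⟨e, he, he0⟩ := exists_sing_ne_zero Q hn
  obtain ⟨u, v, hu, hv, heu, hev, huv, hue⟩ := exists_pair_perp Q hQ hn e he0
  have hve : ∀ t : F, v ≠ t • e := by
    intro t h
    rw [h, QuadraticMap.polar_smul_right, QuadraticMap.polar_comm, heu, smul_zero] at huv
    exact zero_ne_one huv
  refine ⟨Submodule.span F {e, u}, Submodule.span F {e, v},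
    ⟨e, u, tsp_of_perp Q e u he hu heu he0 hue, rfl⟩, ⟨e, v, tsp_of_perp Q e v he hv hev he0 hve, rfl⟩,
    ⟨e, he0, Submodule.subset_span (by simp), Submodule.subset_span (by simp)⟩, ?_⟩
  intro hperp
  have := hperp u (Submodule.subset_span (by simp)) v (Submodule.subset_span (by simp))
  rw [huv] at this
  exact one_ne_zero this

end Generic

end Cfsg.Agent.Helper20.OctP
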