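import Cfsg.Agent.Helper45.OctE

set_option autoImplicit false
set_option linter.unusedSectionVars false
set_option linter.unusedSimpArgs false
set_option linter.unusedVariables false
set_option linter.style.haveILetI false

universe u

namespace Cfsg.Agent.Helper20.OctP

open Cfsg Matrix Module Cfsg.Agent.Helper45 Cfsg.Agent.Helper45.AO Cfsg.Agent.Helper45.OO
  Cfsg.Agent.Helper45.Oct

section Octo

variable {F : Type u} [Field F] [Fintype F] (Q : QuadraticForm F (Fin 4 ⊕ Fin 4 → F))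
  (hq : ⇑Q = quadFormPlus 4 F)

omit [Fintype F] in
/-- a field automorphism fixes the coordinates of the identity octonion -/
theorem gf_one8_fix (σ : F ≃+* F) (i : Fin 4 ⊕ Fin 4) :
    σ ((one8 : Fin 4 ⊕ Fin 4 → F) i) = (one8 : Fin 4 ⊕ Fin 4 → F) i := by
  rcases i with i | i <;> fin_cases i <;> simp [one8]

include hq in
/-- the entries of the reflection in the identity octonion -/
theorem gf_refl_entry (i j : Fin 4 ⊕ Fin 4) :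
    (((reflO Q one8 (q_one8_ne Q hq) : ↥(isometryGroup F ⇑Q)) : GL (Fin 4 ⊕ Fin 4) F) :
      Matrix (Fin 4 ⊕ Fin 4) (Fin 4 ⊕ Fin 4) F) i j =
    (Pi.single j (1 : F) : Fin 4 ⊕ Fin 4 → F) i -
      ((Pi.single j (1 : F) : Fin 4 ⊕ Fin 4 → F) (Sum.inr 0) +
        (Pi.single j (1 : F) : Fin 4 ⊕ Fin 4 → F) (Sum.inl 0)) *
        (one8 : Fin 4 ⊕ Fin 4 → F) i := by
  have h := congrFun (mv_reflO Q one8 (q_one8_ne Q hq) (Pi.single j (1 : F))) i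
  have h2 : mv ⇑Q (reflO Q one8 (q_one8_ne Q hq)) (Pi.single j (1 : F)) i =
      (((reflO Q one8 (q_one8_ne Q hq) : ↥(isometryGroup F ⇑Q)) : GL (Fin 4 ⊕ Fin 4) F) :
      Matrix (Fin 4 ⊕ Fin 4) (Fin 4 ⊕ Fin 4) F) i j := by
    show ((((reflO Q one8 (q_one8_ne Q hq) : ↥(isometryGroup F ⇑Q)) : GL (Fin 4 ⊕ Fin 4) F) :
      Matrix (Fin 4 ⊕ Fin 4) (Fin 4 ⊕ Fin 4) F) *ᵥ Pi.single j (1 : F)) i = _
    rw [Matrix.mulVec_single_one]
    rfl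
  rw [← h2, h, q_one8 Q hq, inv_one, one_mul]
  have h3 : QuadraticMap.polar ⇑Q (one8 : Fin 4 ⊕ Fin 4 → F) (Pi.single j (1 : F)) =
      (Pi.single j (1 : F) : Fin 4 ⊕ Fin 4 → F) (Sum.inr 0) +
        (Pi.single j (1 : F) : Fin 4 ⊕ Fin 4 → F) (Sum.inl 0) := by
    rw [hq, pol_eq]
    simp only [one8_l0, one8_l1, one8_l2, one8_l3, one8_r0, one8_r1, one8_r2, one8_r3]
    ring
  rw [h3]
  simp only [Pi.sub_apply, Pi.smul_apply, smul_eq_mul]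

include hq in
/-- PIECE GF -/
theorem gamma_comm_field (γ : MulAut (POmega F ⇑Q))
    (hγ : Ind ⇑Q ((reflO Q one8 (q_one8_ne Q hq) : ↥(isometryGroup F ⇑Q)) :
      GL (Fin 4 ⊕ Fin 4) F) γ)
    (σ : F ≃+* F) (hσ : IsSemisimilarityPair ⇑Q (1 : GL (Fin 4 ⊕ Fin 4) F) σ) :
    γ * semiAut ⇑Q 1 σ hσ = semiAut ⇑Q 1 σ hσ * γ := by
  have hfix : glMap σ ((reflO Q one8 (q_one8_ne Q hq) : ↥(isometryGroup F ⇑Q)) :
      GL (Fin 4 ⊕ Fin 4) F) = ((reflO Q one8 (q_one8_ne Q hq) : ↥(isometryGroup F ⇑Q)) :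
      GL (Fin 4 ⊕ Fin 4) F) := by
    apply Units.ext
    ext i j
    rw [glMap_coe, Matrix.map_apply, gf_refl_entry Q hq i j]
    simp only [map_sub, map_mul, map_add, gf_one8_fix, Pi.single_apply, apply_ite, map_one, map_zero]
  obtain ⟨ρ, hρ⟩ : ∃ ρ : ↥(isometryGroup F ⇑Q), ρ = reflO Q one8 (q_one8_ne Q hq) := ⟨_, rfl⟩
  rw [← hρ] at hγ hfix
  rw [ind_iff] at hγ
  have hnorm : (Omega F ⇑Q).Normal := inferInstance
  apply MulEquiv.ext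
  intro x
  obtain ⟨s, rfl⟩ := QuotientGroup.mk_surjective x
  show γ (semiAut ⇑Q 1 σ hσ (QuotientGroup.mk s)) = semiAut ⇑Q 1 σ hσ (γ (QuotientGroup.mk s))
  obtain ⟨s', hs'⟩ : ∃ s' : ↥(Omega F ⇑Q), (s' : ↥(isometryGroup F ⇑Q)) = ρ * s * ρ⁻¹ :=
    ⟨⟨ρ * s * ρ⁻¹, hnorm.conj_mem _ s.2 ρ⟩, rfl⟩
  have hs'' : ((s' : ↥(isometryGroup F ⇑Q)) : GL (Fin 4 ⊕ Fin 4) F) =
      (ρ : GL (Fin 4 ⊕ Fin 4) F) * ((s : ↥(isometryGroup F ⇑Q)) : GL (Fin 4 ⊕ Fin 4) F) *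
        (ρ : GL (Fin 4 ⊕ Fin 4) F)⁻¹ := by
    rw [hs']; rfl
  have h1 : γ (QuotientGroup.mk s) = QuotientGroup.mk s' := hγ s s' hs''
  rw [h1, semiAut_mk, semiAut_mk]
  apply hγ
  rw [semiΩ_coe, semiΩ_coe, hs'', map_mul, map_mul, map_inv, hfix]
  group

end Octo

end Cfsg.Agent.Helper20.OctP
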