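import Cfsg.Agent.Helper45.OctH
import Cfsg.Agent.Helper45.OutH
import Cfsg.Agent.Helper61.TriS3
import Cfsg.Agent.Helper48.TriS4
import Cfsg.Agent.Helper61.TriD8F

set_option autoImplicit false
set_option linter.unusedSectionVars false
set_option linter.unusedSimpArgs false
set_option linter.unusedVariables false
set_option linter.style.haveILetI false

universe u

namespace Cfsg.Agent.Helper20.OctP

open Cfsg Matrix Module Cfsg.Agent.Helper45 Cfsg.Agent.Helper45.AO Cfsg.Agent.Helper45.OO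
  Cfsg.Agent.Helper45.Oct

section Generic

variable {ι : Type} [Fintype ι] [DecidableEq ι] {F : Type u} [Field F] [Fintype F]
  (Q : QuadraticForm F (ι → F))

/-- PIECE NI -/
theorem pair_not_inn (h2 : (2 : F) ≠ 0) (hQ : (QuadraticMap.polarBilin Q).Nondegenerate)
    (hn : 5 ≤ Fintype.card ι) (hneg : negO Q ∈ Omega F ⇑Q)
    (b c : ι → F) (hb : Q b ≠ 0) (hc : Q c ≠ 0) (hbc : ¬ IsSquare (Q b * Q c))
    (δ : MulAut (POmega F ⇑Q))
    (hδ : Ind ⇑Q ((reflO Q b hb * reflO Q c hc : ↥(isometryGroup F ⇑Q)) : GL ι F) δ) :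
    δ ∉ Inn (POmega F ⇑Q) := by
  intro hinn
  have hmem : reflO Q b hb * reflO Q c hc ∈ Omega F ⇑Q :=
    omega_of_mem_inn Q (scalar_of_ind Q hQ hn) hneg ⟨b, hb⟩ _ δ hδ hinn
  have hspin : spin ⇑Q 1 (reflO Q b hb * reflO Q c hc) = 1 :=
    Abelianization.commutator_subset_ker (spin ⇑Q 1) hmem
  rw [map_mul] at hspin
  by_cases hsb : IsSquare (Q b)
  · have hsc : ¬ IsSquare (Q c) := by
      intro hsc
      exact hbc (hsb.mul hsc)
    rw [spin_one_reflO_sq Q h2 b hb hsb, spin_one_reflO_nsq Q h2 c hc hsc] at hspin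
    exact absurd hspin (by decide)
  · have hsc : IsSquare (Q c) := by
      by_contra hsc
      exact hbc (isSquare_mul_of_not h2 hsb hsc)
    rw [spin_one_reflO_nsq Q h2 b hb hsb, spin_one_reflO_sq Q h2 c hc hsc] at hspin
    exact absurd hspin (by decide)

end Generic

end Cfsg.Agent.Helper20.OctP
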