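import Cfsg.Agent.Helper45.OctH
import Cfsg.Agent.Helper45.OutH
import Cfsg.Agent.Helper61.TriS3
import Cfsg.Agent.Helper48.TriS4
import Cfsg.Agent.Helper61.TriD8F

set_option autoImplicit false
set_option linter.unusedSectionVars false
set_option linter.unusedSimpArgs false
set_option linter.unusedVariables false
set_option linter.style.haveILetI false

universe u

namespace Cfsg.Agent.Helper20.OctP

open Cfsg Matrix Module Cfsg.Agent.Helper45 Cfsg.Agent.Helper45.AO Cfsg.Agent.Helper45.OO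
  Cfsg.Agent.Helper45.Oct

section Grp

/-- PIECE S4O -/
theorem s4_out {A : Type*} [Group A] (I : Subgroup A) [I.Normal] (K : Subgroup A) (hIK : I ≤ K)
    (f : ℕ) (hf : 0 < f) (ψ γ δ θ : A)
    (hord : ∀ n : ℕ, ψ ^ n ∈ I ↔ f ∣ n)
    (hKrel : I.relIndex K = 8)
    (hψK : ∀ k ∈ K, ψ * k * ψ⁻¹ ∈ K)
    (hKψ : ∀ i : ℕ, ψ ^ i ∈ K → ψ ^ i ∈ I)
    (hcard : Nat.card (A ⧸ I) = 24 * f)
    (hγ : γ ∈ K) (hδ : δ ∈ K) (hδc : ∀ k ∈ K, k * δ * k⁻¹ * δ⁻¹ ∈ I)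
    (hθδ : θ * δ * θ⁻¹ ∈ K)
    (hγθδ : γ * (θ * δ * θ⁻¹) * γ⁻¹ * (θ * δ * θ⁻¹)⁻¹ ∉ I)
    (hψγ : ψ * γ = γ * ψ) (hψθ : ψ * θ = θ * ψ) :
    Nonempty (A ⧸ I ≃* Equiv.Perm (Fin 4) × Multiplicative (ZMod f)) := by
  haveI : Finite (A ⧸ I) := Nat.finite_of_card_ne_zero (by rw [hcard]; omega)
  obtain ⟨π, hπ⟩ : ∃ π : A →* A ⧸ I, π = QuotientGroup.mk' I := ⟨_, rfl⟩
  have hπker : π.ker = I := by rw [hπ]; exact QuotientGroup.ker_mk' I
  have hπ1 : ∀ a : A, π a = 1 ↔ a ∈ I := by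
    intro a
    constructor
    · intro h
      have h1 : a ∈ π.ker := MonoidHom.mem_ker.mpr h
      rwa [hπker] at h1
    · intro h
      have h1 : a ∈ π.ker := by rw [hπker]; exact h
      exact MonoidHom.mem_ker.mp h1
  have hord' : orderOf (π ψ) = f := by
    rw [orderOf_eq_iff hf]
    constructor
    · rw [← map_pow, hπ1, hord]
    · intro m hm hm0 h
      rw [← map_pow, hπ1, hord] at h
      exact absurd (Nat.le_of_dvd hm0 h) (by omega)
  have hK8 : Nat.card (K.map π) = 8 := by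
    rw [← Subgroup.relIndex_ker, hπker, hKrel]
  have hmemK : ∀ a : A, π a ∈ K.map π ↔ a ∈ K := by
    intro a
    constructor
    · intro h
      obtain ⟨k0, hk0, hk⟩ := Subgroup.mem_map.mp h
      have h1 : π (k0⁻¹ * a) = 1 := by rw [map_mul, map_inv, hk, inv_mul_cancel]
      have h2 := hIK ((hπ1 _).mp h1)
      have h3 := K.mul_mem hk0 h2
      rwa [mul_inv_cancel_left] at h3
    · exact fun h => Subgroup.mem_map_of_mem π h
  refine Cfsg.Agent.Helper48.TriCall.s4_times_cyclic f (π ψ) hord' (K.map π) hK8 ?_ ?_ hcard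
    (π γ) (π δ) (π θ) ((hmemK γ).mpr hγ) ((hmemK δ).mpr hδ) ?_ ?_ ?_ ?_ ?_
  · intro k hk
    obtain ⟨k0, hk0, rfl⟩ := Subgroup.mem_map.mp hk
    rw [← map_inv, ← map_mul, ← map_mul, hmemK]
    exact hψK k0 hk0
  · intro i hi
    rw [← map_zpow] at hi ⊢
    rw [hmemK] at hi
    rw [hπ1]
    obtain ⟨n, rfl | rfl⟩ := Int.eq_nat_or_neg i
    · rw [zpow_natCast] at hi ⊢
      exact hKψ n hi
    · rw [_root_.zpow_neg, zpow_natCast] at hi ⊢
      have h1 := K.inv_mem hi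
      rw [inv_inv] at h1
      exact I.inv_mem (hKψ n h1)
  · intro k hk
    obtain ⟨k0, hk0, rfl⟩ := Subgroup.mem_map.mp hk
    have h1 := (hπ1 _).mpr (hδc k0 hk0)
    rw [map_mul, map_mul, map_mul, map_inv, map_inv] at h1
    have h2 := mul_inv_eq_one.mp h1
    exact mul_inv_eq_iff_eq_mul.mp h2
  · rw [← map_inv, ← map_mul, ← map_mul, hmemK]
    exact hθδ
  · intro h
    apply hγθδ
    rw [← hπ1]
    have e : π (γ * (θ * δ * θ⁻¹) * γ⁻¹ * (θ * δ * θ⁻¹)⁻¹) =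
        π γ * (π θ * π δ * (π θ)⁻¹) * (π γ)⁻¹ * (π θ * π δ * (π θ)⁻¹)⁻¹ := by
      simp only [map_mul, map_inv]
    rw [e, h]
    group
  · rw [← map_mul, ← map_mul, hψγ]
  · rw [← map_mul, ← map_mul, hψθ]

end Grp

end Cfsg.Agent.Helper20.OctP
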