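import Cfsg.Agent.Helper45.OctE

set_option autoImplicit false
set_option linter.unusedSectionVars false
set_option linter.unusedSimpArgs false
set_option linter.unusedVariables false
set_option linter.style.haveILetI false

universe u

namespace Cfsg.Agent.Helper20.OctP

open Cfsg Matrix Module Cfsg.Agent.Helper45 Cfsg.Agent.Helper45.AO Cfsg.Agent.Helper45.OO
  Cfsg.Agent.Helper45.Oct

section Generic

variable {ι : Type} [Fintype ι] [DecidableEq ι] {F : Type u} [Field F] [Fintype F]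
  (Q : QuadraticForm F (ι → F))

/-- the analogue of `mv_semiΩ` for the whole isometry group -/
theorem tf_mv_semiO (g : GL ι F) (σ : F ≃+* F) (hg : IsSemisimilarityPair ⇑Q g σ)
    (h : ↥(isometryGroup F ⇑Q)) (x : ι → F) :
    mv ⇑Q (semiO ⇑Q g σ hg h) (semiMap g σ x) = semiMap g σ (mv ⇑Q h x) := by
  show (((semiO ⇑Q g σ hg h : ↥(isometryGroup F ⇑Q)) : GL ι F) : Matrix ι ι F) *ᵥ
    semiMap g σ x = semiMap g σ ((((h : ↥(isometryGroup F ⇑Q)) : GL ι F) : Matrix ι ι F) *ᵥ x)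
  rw [semiMap_mulVec, semiO_coe]

end Generic

section Octo

variable {F : Type u} [Field F] [Fintype F] (Q : QuadraticForm F (Fin 4 ⊕ Fin 4 → F))
  (hq : ⇑Q = quadFormPlus 4 F)

omit [Fintype F] in
/-- a field automorphism, applied coordinatewise, preserves the octonion product -/
theorem tf_om (σ : F ≃+* F) (x y : Fin 4 ⊕ Fin 4 → F) :
    semiMap (1 : GL (Fin 4 ⊕ Fin 4) F) σ (om x y) =
      om (semiMap (1 : GL (Fin 4 ⊕ Fin 4) F) σ x) (semiMap (1 : GL (Fin 4 ⊕ Fin 4) F) σ y) := by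
  have h1 : ∀ z : Fin 4 ⊕ Fin 4 → F,
      semiMap (1 : GL (Fin 4 ⊕ Fin 4) F) σ z = fun i => σ (z i) := by
    intro z
    unfold semiMap
    rw [Units.val_one, Matrix.one_mulVec]
  rw [h1, h1, h1]
  apply ext8 <;>
    simp only [om_l0, om_l1, om_l2, om_l3, om_r0, om_r1, om_r2, om_r3, map_sub, map_add, map_mul]

include hq in
/-- PIECE TF -/
theorem theta_comm_field (hQ : (QuadraticMap.polarBilin Q).Nondegenerate)
    (θ : MulAut (POmega F ⇑Q))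
    (hθ : ∀ (g₁ g₂ : ↥(Omega F ⇑Q)) (g₃ : ↥(isometryGroup F ⇑Q)),
      Tri Q (g₁ : ↥(isometryGroup F ⇑Q)) (g₂ : ↥(isometryGroup F ⇑Q)) g₃ →
        θ (QuotientGroup.mk g₁) = QuotientGroup.mk g₂)
    (σ : F ≃+* F) (hσ : IsSemisimilarityPair ⇑Q (1 : GL (Fin 4 ⊕ Fin 4) F) σ) :
    θ * semiAut ⇑Q 1 σ hσ = semiAut ⇑Q 1 σ hσ * θ := by
  apply MulEquiv.ext
  intro x
  obtain ⟨g₁, rfl⟩ := QuotientGroup.mk_surjective x
  obtain ⟨g₂, g₃, htri⟩ := exists_tri_omega Q hq hQ g₁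
  show θ (semiAut ⇑Q 1 σ hσ (QuotientGroup.mk g₁)) = semiAut ⇑Q 1 σ hσ (θ (QuotientGroup.mk g₁))
  rw [hθ g₁ g₂ g₃ htri, semiAut_mk, semiAut_mk]
  apply hθ _ _ (semiO ⇑Q 1 σ hσ g₃)
  intro x y
  obtain ⟨x', rfl⟩ : ∃ x', semiMap (1 : GL (Fin 4 ⊕ Fin 4) F) σ x' = x :=
    ⟨semiInv 1 σ x, semiMap_semiInv 1 σ x⟩
  obtain ⟨y', rfl⟩ : ∃ y', semiMap (1 : GL (Fin 4 ⊕ Fin 4) F) σ y' = y :=
    ⟨semiInv 1 σ y, semiMap_semiInv 1 σ y⟩
  rw [← tf_om σ x' y', mv_semiΩ, mv_semiΩ, tf_mv_semiO, htri x' y', tf_om]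

end Octo

end Cfsg.Agent.Helper20.OctP
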