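import Mathlib
import Cfsg.Agent.Helper45.IDMinus
import Cfsg.Agent.Helper43.OrthSemi
import Cfsg.Agent.Helper43.USimDet
import Cfsg.Agent.Helper43.NormGen

/-!
# S2720, piece LIFT: an element of odd prime order of the `PGO`-image lifts to an isometry of the
same order.
-/

set_option autoImplicit false
set_option linter.unusedSectionVars false

namespace Cfsg.Agent.Helper20.PFLIFT

open Cfsg Matrix Polynomial Cfsg.Agent.Helper45 Cfsg.Agent.Helper45.ID

universe u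

variable {ι : Type} [Fintype ι] [DecidableEq ι] {F : Type u} [Field F] [Fintype F]

theorem pf_ind_pow (Q : (ι → F) → F) {g : GL ι F} (hg : g ∈ Geo.quadSimilarityGroup (F := F) Q)
    {β : MulAut (POmega F Q)} (h : Ind Q g β) (k : ℕ) : Ind Q (g ^ k) (β ^ k) := by
  induction k with
  | zero => rw [pow_zero, pow_zero]; exact ind_one Q
  | succ k ih => rw [pow_succ, pow_succ]; exact ind_mul Q hg ih h

/-- LIFT: an element of odd prime order of the `PGO`-image is induced by an isometry `g` with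
`g ^ r = 1`. -/
theorem pf_lift (Q : QuadraticForm F (ι → F)) {n : ℕ} {J : Matrix ι ι F} {v₀ : ι → F}
    (D : KData ⇑Q n J v₀)
    (hscal : ∀ g : GL ι F, g ∈ Geo.quadSimilarityGroup (F := F) ⇑Q → Ind ⇑Q g 1 →
      ∃ c : F, (g : Matrix ι ι F) = c • (1 : Matrix ι ι F))
    (x : MulAut (POmega F ⇑Q)) (hx : x ∈ pgoAut F ⇑Q) {r : ℕ} (hr : r.Prime) (hro : Odd r)
    (hxr : orderOf x = r) :
    ∃ g : ↥(isometryGroup F ⇑Q), Ind ⇑Q (g : GL ι F) x ∧ g ^ r = 1 ∧ g ≠ 1 := by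
  obtain ⟨g₀, hg₀, hind⟩ := (mem_pgoAut_iff (⇑Q) x).1 hx
  have hxr1 : x ^ r = 1 := by rw [← hxr]; exact pow_orderOf_eq_one x
  have hindr : Ind ⇑Q (g₀ ^ r) 1 := by
    have := pf_ind_pow (⇑Q) hg₀ hind r
    rwa [hxr1] at this
  obtain ⟨lam, hlam⟩ := hscal (g₀ ^ r) (pow_mem hg₀ r) hindr
  obtain ⟨hμ, hμ0⟩ := D.mult_spec hg₀
  obtain ⟨μ, hμdef⟩ : ∃ μ, μ = mult ⇑Q v₀ g₀ := ⟨_, rfl⟩
  rw [← hμdef] at hμ hμ0
  have hpow : ∀ k : ℕ, ∀ v, Q (((g₀ ^ k : GL ι F) : Matrix ι ι F) *ᵥ v) = μ ^ k * Q v := by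
    intro k
    induction k with
    | zero => intro v; simp
    | succ k ih =>
      intro v
      rw [pow_succ, Units.val_mul, ← Matrix.mulVec_mulVec, ih, hμ, pow_succ, mul_assoc]
  have hμr : μ ^ r = lam * lam := by
    have h1 := hpow r v₀
    rw [hlam, Matrix.smul_mulVec, Matrix.one_mulVec, QuadraticMap.map_smul, D.hv₀] at h1
    rw [smul_eq_mul, mul_one, mul_one] at h1
    exact h1.symm
  obtain ⟨k, hk⟩ := hro
  have hμk : μ ^ (2 * k + 1) = lam * lam := by rw [← hk]; exact hμr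
  have hlam0 : lam ≠ 0 := by
    rintro rfl
    rw [mul_zero] at hμr
    exact hμ0 ((pow_eq_zero_iff hr.ne_zero).1 hμr)
  have hμk0 : μ ^ (k + 1) ≠ 0 := pow_ne_zero _ hμ0
  obtain ⟨s, hs⟩ : ∃ s, s = lam / μ ^ (k + 1) := ⟨_, rfl⟩
  have hsl : s * μ ^ (k + 1) = lam := by rw [hs, div_mul_cancel₀ _ hμk0]
  have hs0 : s ≠ 0 := by rw [hs]; exact div_ne_zero hlam0 hμk0
  have hs2 : s * s * μ = 1 := by
    apply mul_right_cancel₀ (pow_ne_zero (2 * k + 1) hμ0)
    calc s * s * μ * μ ^ (2 * k + 1) = (s * μ ^ (k + 1)) * (s * μ ^ (k + 1)) := by ring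
      _ = lam * lam := by rw [hsl]
      _ = 1 * μ ^ (2 * k + 1) := by rw [one_mul, hμk]
  have hsr : s ^ r * lam = 1 := by
    apply mul_right_cancel₀ (pow_ne_zero (2 * k + 1) hμk0)
    calc s ^ r * lam * (μ ^ (k + 1)) ^ (2 * k + 1)
        = (s * μ ^ (k + 1)) ^ (2 * k + 1) * lam := by rw [hk]; ring
      _ = lam ^ (2 * k + 1) * lam := by rw [hsl]
      _ = (lam * lam) ^ (k + 1) := by ring
      _ = (μ ^ (2 * k + 1)) ^ (k + 1) := by rw [hμk]
      _ = 1 * (μ ^ (k + 1)) ^ (2 * k + 1) := by ring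
  obtain ⟨z, hz⟩ : ∃ z : GL ι F, (z : Matrix ι ι F) = s • (1 : Matrix ι ι F) := by
    refine ⟨Matrix.GeneralLinearGroup.scalar ι (Units.mk0 s hs0), ?_⟩
    rw [Matrix.GeneralLinearGroup.coe_scalar, Matrix.scalar_apply, Matrix.smul_one_eq_diagonal]
    rfl
  have hmem : z * g₀ ∈ isometryGroup F ⇑Q := by
    rw [mem_iso_iff]
    intro v
    rw [Units.val_mul, hz, Matrix.smul_mul, Matrix.one_mul, Matrix.smul_mulVec,
      QuadraticMap.map_smul, hμ, smul_eq_mul]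
    linear_combination (Q v) * hs2
  have hindg : Ind ⇑Q (z * g₀) x := by
    have := ind_mul (⇑Q) hg₀ (ind_scalar (⇑Q) z s hz) hind
    rwa [one_mul] at this
  refine ⟨⟨z * g₀, hmem⟩, hindg, ?_, ?_⟩
  · apply Subtype.ext
    rw [Subgroup.coe_pow, Subgroup.coe_one]
    apply Units.ext
    have hl : ((g₀ : Matrix ι ι F)) ^ r = lam • (1 : Matrix ι ι F) := by
      rw [← hlam, Units.val_pow_eq_pow_val]
    show ((z * g₀ : GL ι F) ^ r : GL ι F).1 = 1
    rw [Units.val_pow_eq_pow_val, Units.val_mul, hz, Matrix.smul_mul, Matrix.one_mul, _root_.smul_pow, hl,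
      smul_smul, hsr, one_smul]
  · intro h1
    have h2 : z * g₀ = 1 := congrArg Subtype.val h1
    rw [h2] at hindg
    have e1 := ind_unique (⇑Q) 1 (one_mem _) x hindg
    have e2 := ind_unique (⇑Q) 1 (one_mem _) 1 (ind_one (⇑Q))
    have hx1 : x = 1 := by rw [e1, ← e2]
    rw [hx1, orderOf_one] at hxr
    exact hr.one_lt.ne hxr

end Cfsg.Agent.Helper20.PFLIFT
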