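import Cfsg.Agent.Helper85.PiGen

set_option autoImplicit false

namespace Cfsg.Agent.Helper20.PiDL4

open Cfsg Cfsg.FusionSystem Cfsg.Agent.Helper85 Cfsg.Agent.Helper88

variable {Ω : Type*} [Group Ω] {S : Subgroup Ω}

theorem pi_dl4 [Finite S] {p : ℕ} [Fact p.Prime] (hS : IsPGroup p S) {F : FusionSystem S}
    {T R : Subgroup Ω} (c : PiCtx F p T R) (hgi : PiGi F p T) {A : Subgroup Ω} {f g : Ω → Ω}
    (hAR : F.IsConj A R) (hAT : A ≤ T) (hf : IsMap F A f) (hg : IsMap F (img A f) g)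
    (h1 : PiQ F p T R A f) (h2 : PiQ F p T R (img A f) g) : PiQ F p T R A (g ∘ f) := by
  intro χ₁ χ₃ a b u β₀ hgood₁ hgood₃ hu hβ₀ hrel
  have hh := c.hyp
  have hRS : R ≤ S := c.fn.1
  -- a chart of `img A f`
  have hA'R : F.IsConj (img A f) R := Helper88.isConj_trans F (Helper88.isConj_symm F hf.isConj) hAR
  have hA'T : img A f ≤ T := by
    unfold img
    rw [Subgroup.closure_le]
    rintro _ ⟨x, hx, rfl⟩
    exact pi_mapsTo hS hh hf x hx (hAT hx)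
  obtain ⟨χ₂, m, hgood₂⟩ := hgi R (img A f) c.fn hA'R hA'T
  obtain ⟨hχ₁, himg₁, ha, hgen₁⟩ := hgood₁
  obtain ⟨hχ₂, himg₂, hm, hgen₂⟩ := hgood₂
  -- the automorphism `χ₂ ∘ f ∘ χ₁⁻¹` of `R`
  have hχ₁A : IsMap F A χ₁ := hχ₁.restrict (le_inf hAT Subgroup.le_normalizer)
  have hχ₂A : IsMap F (img A f) χ₂ := hχ₂.restrict (le_inf hA'T Subgroup.le_normalizer)
  obtain ⟨χ₁', hχ₁', hinv, hinv2, -⟩ := hχ₁A.exists_inv
  rw [himg₁] at hχ₁' hinv2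
  have hθ : IsMap F R (χ₂ ∘ f ∘ χ₁') :=
    (hχ₁'.comp hf (fun r hr => (hinv2 r hr).1)).comp hχ₂A
      (fun r hr => hf.apply_mem_img (hinv2 r hr).1)
  have hθR : ∀ r ∈ R, (χ₂ ∘ f ∘ χ₁') r ∈ R := by
    intro r hr
    have h3 : χ₂ (f (χ₁' r)) ∈ img (img A f) χ₂ :=
      hχ₂A.apply_mem_img (hf.apply_mem_img (hinv2 r hr).1)
    rw [himg₂] at h3
    exact h3
  obtain ⟨α, hα, hαθ⟩ := hθ.exists_aut (hθ.img_eq_of_mapsTo hθR)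
  have hχ₁R : ∀ x ∈ A, χ₁ x ∈ R := by
    intro x hx
    have h3 := hχ₁A.apply_mem_img hx
    rw [himg₁] at h3
    exact h3
  have hαx : ∀ x ∈ A, autFun α (χ₁ x) = χ₂ (f x) := by
    intro x hx
    rw [hαθ _ (hχ₁R x hx)]
    show χ₂ (f (χ₁' (χ₁ x))) = χ₂ (f x)
    rw [hinv x hx]
  -- factor `α = σ β`
  have : Finite R := Helper88.finite_of_le hRS
  obtain ⟨hRa, -⟩ := Cfsg.Agent.Helper84.saturated_fullyNormalized hS F hh.sat c.fn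
  obtain ⟨P₀, hP₀⟩ := hRa.2
  obtain ⟨σ, hσ, β, hβ, hαeq⟩ := exists_sylow_mul_pResidual P₀ ⟨α, hα⟩
  have hαeq' : α = (σ : MulAut R) * (β : MulAut R) := congrArg Subtype.val hαeq
  rw [hP₀, Subgroup.mem_subgroupOf] at hσ
  obtain ⟨u₁, hu₁, hsc⟩ := (Helper88.mem_autInducedBy_iff S R _).1 hσ
  have hσfun : ∀ r ∈ R, autFun (σ : MulAut R) r = u₁ * r * u₁⁻¹ := by
    intro r hr
    rw [autFun_apply' _ hr, hsc]
  have hu₁N : u₁ ∈ normalizerIn S R := by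
    refine mem_normalizerIn_iff.2 ⟨hu₁, ?_⟩
    rw [Subgroup.mem_normalizer_iff]
    intro r
    constructor
    · intro hr
      rw [← hσfun r hr]; exact autFun_mem _ hr
    · intro hr
      have h3 : autFun (σ : MulAut R) (autFun ((σ : MulAut R))⁻¹ (u₁ * r * u₁⁻¹)) = u₁ * r * u₁⁻¹ :=
        autFun_apply_inv _ hr
      have h4 : autFun ((σ : MulAut R))⁻¹ (u₁ * r * u₁⁻¹) ∈ R := autFun_mem _ hr
      rw [hσfun _ h4] at h3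
      have h5 : autFun ((σ : MulAut R))⁻¹ (u₁ * r * u₁⁻¹) = r := by
        have h6 := congrArg (fun z => u₁⁻¹ * z * u₁) h3
        simpa [mul_assoc] using h6
      rw [← h5]; exact h4
  have hβO : ((β : F.autGroup R) : MulAut R) ∈ PiO F p R := Subgroup.mem_map.2 ⟨β, hβ, rfl⟩
  have hrel₁ : ∀ x ∈ A, χ₂ (f x) = u₁ * autFun ((β : F.autGroup R) : MulAut R) (χ₁ x) * u₁⁻¹ := by
    intro x hx
    have hr := hχ₁R x hx
    rw [← hαx x hx, hαeq', autFun_mul _ _ hr, hσfun _ (autFun_mem _ hr)]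
  have hT₁ : m⁻¹ * u₁ * a ∈ T :=
    h1 χ₁ χ₂ a m u₁ _ ⟨hχ₁, himg₁, ha, hgen₁⟩ ⟨hχ₂, himg₂, hm, hgen₂⟩ hu₁N hβO hrel₁
  -- second step
  obtain ⟨b₀, hb₀, hb₀eq⟩ := Subgroup.mem_map.1 hβ₀
  have hb₀eq' : ((b₀ : F.autGroup R) : MulAut R) = β₀ := hb₀eq
  have hβ₂ : σ * (b₀ * β⁻¹) * σ⁻¹ ∈ pResidual p (F.autGroup R) :=
    pResidual_conj_mem p ((pResidual p _).mul_mem hb₀ ((pResidual p _).inv_mem hβ)) σ
  have hβ₂O : ((σ * (b₀ * β⁻¹) * σ⁻¹ : F.autGroup R) : MulAut R) ∈ PiO F p R :=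
    Subgroup.mem_map.2 ⟨_, hβ₂, rfl⟩
  have hgood₃' : PiGood F p T R χ₃ (img (img A f) g) b := by
    rw [← img_comp hf hg]; exact hgood₃
  have huu : u * u₁⁻¹ ∈ normalizerIn S R := Subgroup.mul_mem _ hu (Subgroup.inv_mem _ hu₁N)
  have hrel₂ : ∀ y ∈ img A f, χ₃ (g y) = u * u₁⁻¹ *
      autFun ((σ * (b₀ * β⁻¹) * σ⁻¹ : F.autGroup R) : MulAut R) (χ₂ y) * (u * u₁⁻¹)⁻¹ := by
    intro y hy
    obtain ⟨x, hx, rfl⟩ := hf.mem_img.1 hy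
    have hr := hχ₁R x hx
    have hβr : autFun ((β : F.autGroup R) : MulAut R) (χ₁ x) ∈ R := autFun_mem _ hr
    have e2 : ((σ * (b₀ * β⁻¹) * σ⁻¹ : F.autGroup R) : MulAut R)
        = (σ : MulAut R) * ((b₀ : MulAut R) * ((β : F.autGroup R) : MulAut R)⁻¹) * (σ : MulAut R)⁻¹ := rfl
    have hχ₂x : χ₂ (f x) = autFun (σ : MulAut R) (autFun ((β : F.autGroup R) : MulAut R) (χ₁ x)) := by
      rw [← hαx x hx, hαeq', autFun_mul _ _ hr]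
    have hχ₂R : χ₂ (f x) ∈ R := by rw [hχ₂x]; exact autFun_mem _ hβr
    have hb₀r : autFun (b₀ : MulAut R) (χ₁ x) ∈ R := autFun_mem _ hr
    have hcalc : autFun ((σ * (b₀ * β⁻¹) * σ⁻¹ : F.autGroup R) : MulAut R) (χ₂ (f x))
        = u₁ * autFun β₀ (χ₁ x) * u₁⁻¹ := by
      rw [e2, autFun_mul _ _ hχ₂R, hχ₂x, autFun_inv_apply _ hβr, autFun_mul _ _ hβr,
        autFun_mul _ _ hβr, autFun_inv_apply _ hr, hσfun _ hb₀r, hb₀eq']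
    rw [hcalc]
    have h3 := hrel x hx
    show χ₃ (g (f x)) = _
    have h4 : χ₃ (g (f x)) = u * autFun β₀ (χ₁ x) * u⁻¹ := h3
    rw [h4]; group
  have hT₂ : b⁻¹ * (u * u₁⁻¹) * m ∈ T :=
    h2 χ₂ χ₃ m b (u * u₁⁻¹) _ ⟨hχ₂, himg₂, hm, hgen₂⟩ hgood₃' huu hβ₂O hrel₂
  have e : b⁻¹ * u * a = (b⁻¹ * (u * u₁⁻¹) * m) * (m⁻¹ * u₁ * a) := by group
  rw [e]; exact T.mul_mem hT₂ hT₁

end Cfsg.Agent.Helper20.PiDL4
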