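import Mathlib
import Cfsg.Prelude.Def_LieRecognition

set_option autoImplicit false

namespace Cfsg.Agent.Helper20

variable {G Ω : Type*} [Group G] [MulAction G Ω] {a : Ω} {t : G} {Q : Subgroup G}

theorem rankOne_t_inv (hS : Cfsg.IsRankOneSetup G Ω a t Q) : t⁻¹ = t :=
  inv_eq_of_mul_eq_one_left hS.mul_self

/-- `t` normalizes the two-point stabiliser. -/
theorem rankOne_conj_mem_D (hS : Cfsg.IsRankOneSetup G Ω a t Q) {c : G}
    (hc : c ∈ MulAction.stabilizer G a ⊓ MulAction.stabilizer G (t • a)) :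
    t * c * t ∈ MulAction.stabilizer G a ⊓ MulAction.stabilizer G (t • a) := by
  obtain ⟨h1, h2⟩ := Subgroup.mem_inf.mp hc
  rw [MulAction.mem_stabilizer_iff] at h1 h2
  have htt : t • t • a = a := by rw [← mul_smul, hS.mul_self, one_smul]
  refine Subgroup.mem_inf.mpr ⟨?_, ?_⟩
  · rw [MulAction.mem_stabilizer_iff, mul_smul, mul_smul, h2, htt]
  · rw [MulAction.mem_stabilizer_iff, mul_smul, mul_smul, htt, h1]

/-- Uniqueness of the canonical form `g h t f`. -/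
theorem rankOne_unique (hS : Cfsg.IsRankOneSetup G Ω a t Q) {g₁ h₁ f₁ g₂ h₂ f₂ : G}
    (hg₁ : g₁ ∈ Q) (hh₁ : h₁ ∈ MulAction.stabilizer G a ⊓ MulAction.stabilizer G (t • a))
    (hf₁ : f₁ ∈ Q)
    (hg₂ : g₂ ∈ Q) (hh₂ : h₂ ∈ MulAction.stabilizer G a ⊓ MulAction.stabilizer G (t • a))
    (hf₂ : f₂ ∈ Q)
    (heq : g₁ * h₁ * t * f₁ = g₂ * h₂ * t * f₂) : f₁ = f₂ ∧ h₁ = h₂ := by
  have htinv := rankOne_t_inv hS
  have key : ∀ g h f : G, g ∈ Q → h ∈ MulAction.stabilizer G a ⊓ MulAction.stabilizer G (t • a) →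
      (g * h * t * f)⁻¹ • a = f⁻¹ • t • a := by
    intro g h f hg hh
    have h1 : g⁻¹ • a = a := by
      have := Subgroup.inv_mem _ (hS.le hg)
      exact MulAction.mem_stabilizer_iff.mp this
    have h2 : h⁻¹ • a = a := by
      have := Subgroup.inv_mem _ (Subgroup.mem_inf.mp hh).1
      exact MulAction.mem_stabilizer_iff.mp this
    have e : (g * h * t * f)⁻¹ = f⁻¹ * t * h⁻¹ * g⁻¹ := by
      rw [mul_inv_rev, mul_inv_rev, mul_inv_rev, htinv]; group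
    rw [e, mul_smul, mul_smul, mul_smul, h1, h2]
  have k1 := key g₁ h₁ f₁ hg₁ hh₁
  have k2 := key g₂ h₂ f₂ hg₂ hh₂
  rw [heq, k2] at k1
  have hf : f₁ = f₂ := by
    have h3 : (f₂ * f₁⁻¹) • t • a = t • a := by
      rw [mul_smul, ← k1, ← mul_smul, mul_inv_cancel, one_smul]
    have h4 : f₂ * f₁⁻¹ ∈ Q ⊓ MulAction.stabilizer G (t • a) :=
      Subgroup.mem_inf.mpr ⟨Q.mul_mem hf₂ (Q.inv_mem hf₁), MulAction.mem_stabilizer_iff.mpr h3⟩
    rw [hS.inf_eq_bot, Subgroup.mem_bot] at h4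
    exact (mul_inv_eq_one.mp h4).symm
  refine ⟨hf, ?_⟩
  subst hf
  have h5 : g₁ * h₁ = g₂ * h₂ := by
    have := mul_right_cancel heq
    exact mul_right_cancel this
  have h6 : g₂⁻¹ * g₁ = h₂ * h₁⁻¹ := by
    calc g₂⁻¹ * g₁ = g₂⁻¹ * (g₁ * h₁) * h₁⁻¹ := by group
      _ = g₂⁻¹ * (g₂ * h₂) * h₁⁻¹ := by rw [h5]
      _ = h₂ * h₁⁻¹ := by group
  have h7 : h₂ * h₁⁻¹ ∈ Q ⊓ MulAction.stabilizer G (t • a) := by
    refine Subgroup.mem_inf.mpr ⟨?_, ?_⟩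
    · rw [← h6]; exact Q.mul_mem (Q.inv_mem hg₂) hg₁
    · exact Subgroup.mul_mem _ (Subgroup.mem_inf.mp hh₂).2
        (Subgroup.inv_mem _ (Subgroup.mem_inf.mp hh₁).2)
  rw [hS.inf_eq_bot, Subgroup.mem_bot] at h7
  exact (mul_inv_eq_one.mp h7).symm

end Cfsg.Agent.Helper20
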