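import Mathlib
import Cfsg.Agent.Helper92.B42PSING

/-!
# Piece SINGINNER of CALL S4504S
-/

universe u
set_option autoImplicit false
open Cfsg Cfsg.Agent.Helper77 Cfsg.Agent.Helper15
open scoped ComplexConjugate

namespace Cfsg.Agent.Helper20

variable {G : Type u} [Group G] [Finite G]

/-- SINGINNER: class functions agreeing on the `p`-singular elements have the same inner product
with a class function vanishing on the `p`-regular elements. -/
theorem s4504s_singinner (p : ℕ) [Fact p.Prime] [Fintype G] (x : G) (K : Subgroup G)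
    (h : D1Hyp p x K) (φ Θ Δ : G → ℂ)
    (hφ : ∀ g y : G, φ (y * g * y⁻¹) = φ g) (hΘ : ∀ g y : G, Θ (y * g * y⁻¹) = Θ g)
    (hΔ : ∀ g : G, ¬ p ∣ orderOf g → Δ g = 0)
    (hval : ∀ b : ℕ, ¬ p ∣ b → ∀ k ∈ K, φ (x ^ b * k) = Θ (x ^ b * k)) :
    Cfsg.classInner φ Δ = Cfsg.classInner Θ Δ := by
  unfold Cfsg.classInner
  congr 1
  apply Finset.sum_congr rfl
  intro g _
  by_cases hg : p ∣ orderOf g
  · obtain ⟨y, b, k, hb, hk, hy⟩ := Cfsg.Agent.Helper92.b42_psing p x K h g hg
    have e : φ g = Θ g := by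
      rw [← hφ g y, ← hΘ g y, hy]
      exact hval b hb k hk
    rw [e]
  · rw [hΔ g hg, map_zero, mul_zero, mul_zero]

end Cfsg.Agent.Helper20
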