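/-
helper20: sub-CALL S88R2 piece SKSUBTYPE: for an isometry `M` with `M * M = -1`, `-1` a nonsquare,
an invariant nondegenerate subspace of dimension `2 e` is of plus type iff `e` is even.
(Transport of `Q|W` to coordinates `Fin (2 e) → F`, `Helper20.TSR2.r2_skew_type`, and the
discriminant criteria of `Helper33.ODisc` with matching Gram matrices.)
-/
import Mathlib
import Cfsg.Prelude.Def_GeometricClasses
import Cfsg.Prelude.Def_Classical
import Cfsg.Agent.Helper33.ODisc
import Cfsg.Agent.Helper20.TSR2SKTYPE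

set_option autoImplicit false

namespace Cfsg.Agent.Helper20.S88R2

open Module Cfsg Cfsg.Geo
open scoped MatrixGroups

variable {ι : Type} [Fintype ι] [DecidableEq ι] {F : Type*} [Field F] [Fintype F]

/-- SKSUBTYPE: an invariant nondegenerate subspace of dimension `2 e` is of plus type iff `e` is
even. -/
theorem r2e_skew_sub_type (Q : (ι → F) → F) (hQ : IsNondegenerateQuadraticForm Q)
    (h2 : (2 : F) ≠ 0) (M : Matrix ι ι F) (hM : ∀ v, Q (M.mulVec v) = Q v) (hM2 : M * M = -1)
    (hm1 : ¬ IsSquare (-1 : F)) (W : Submodule F (ι → F)) (hW : W.map (Matrix.toLin' M) ≤ W)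
    (hnd : IsNondegenerateOn (QuadraticMap.polar Q) W) (e : ℕ) (he : finrank F W = 2 * e) :
    IsPlusTypeOn Q W ↔ Even e := by
  rcases Nat.eq_zero_or_pos e with he0 | he1
  · subst he0
    refine ⟨fun _ => ⟨0, rfl⟩, fun _ => ⟨⊥, bot_le, ?_, ?_⟩⟩
    · intro w hw
      rw [(Submodule.mem_bot F).mp hw]
      have h0 := hQ.smul 0 0
      simpa using h0
    · rw [finrank_bot, he]
  · obtain ⟨b⟩ : Nonempty (Module.Basis (Fin (2 * e)) F W) :=
      ⟨Module.finBasisOfFinrankEq F W he⟩
    obtain ⟨Φ, hΦ⟩ : ∃ Φ : (Fin (2 * e) → F) ≃ₗ[F] W, ∀ i, Φ (Pi.single i 1) = b i := by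
      refine ⟨b.equivFun.symm, fun i => ?_⟩
      rw [Module.Basis.equivFun_symm_apply]
      simp [Pi.single_apply]
    obtain ⟨Q', hQ'def⟩ : ∃ Q' : (Fin (2 * e) → F) → F, ∀ x, Q' x = Q ((Φ x : W) : ι → F) :=
      ⟨_, fun _ => rfl⟩
    have hpol : ∀ x y, QuadraticMap.polar Q' x y =
        QuadraticMap.polar Q ((Φ x : W) : ι → F) ((Φ y : W) : ι → F) := by
      intro x y
      unfold QuadraticMap.polar
      rw [hQ'def, hQ'def, hQ'def, map_add, Submodule.coe_add]
    have hQ' : IsNondegenerateQuadraticForm Q' := by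
      refine ⟨?_, ⟨?_, ?_, ?_, ?_⟩, ?_⟩
      · intro c v
        rw [hQ'def, hQ'def, map_smul, Submodule.coe_smul, hQ.smul]
      · intro x y v
        rw [hpol, hpol, hpol, map_add, Submodule.coe_add, hQ.polar_bilinear.add_left]
      · intro c x v
        rw [hpol, hpol, map_smul, Submodule.coe_smul, hQ.polar_bilinear.smul_left]
      · intro v x y
        rw [hpol, hpol, hpol, map_add, Submodule.coe_add, hQ.polar_bilinear.add_right]
      · intro c v x
        rw [hpol, hpol, map_smul, Submodule.coe_smul, hQ.polar_bilinear.smul_right]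
      · intro v hv
        have hv' : ((Φ v : W) : ι → F) ≠ 0 := by
          intro h
          apply hv
          have h1 : Φ v = 0 := Subtype.ext h
          exact (LinearEquiv.map_eq_zero_iff Φ).mp h1
        obtain ⟨⟨x, hx, hx1⟩, ⟨y, hy, hy1⟩⟩ := hnd _ (Φ v).2 hv'
        refine ⟨⟨Φ.symm ⟨x, hx⟩, ?_⟩, ⟨Φ.symm ⟨y, hy⟩, ?_⟩⟩
        · rw [hpol, LinearEquiv.apply_symm_apply]
          exact hx1
        · rw [hpol, LinearEquiv.apply_symm_apply]
          exact hy1
    have hWM : ∀ w ∈ W, Matrix.toLin' M w ∈ W := fun w hw => hW (Submodule.mem_map_of_mem hw)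
    obtain ⟨L, hL⟩ : ∃ L : W →ₗ[F] W, ∀ w : W, ((L w : W) : ι → F) = M.mulVec (w : ι → F) :=
      ⟨(Matrix.toLin' M).restrict hWM, fun w => by
        rw [LinearMap.coe_restrict_apply, Matrix.toLin'_apply]⟩
    obtain ⟨f, hf⟩ : ∃ f : (Fin (2 * e) → F) →ₗ[F] (Fin (2 * e) → F),
        ∀ x, f x = Φ.symm (L (Φ x)) :=
      ⟨(Φ.symm.toLinearMap.comp L).comp Φ.toLinearMap, fun x => rfl⟩
    have hΦf : ∀ x, ((Φ (f x) : W) : ι → F) = M.mulVec ((Φ x : W) : ι → F) := by
      intro x
      rw [hf, LinearEquiv.apply_symm_apply, hL]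
    have hMM : ∀ x : ι → F, M.mulVec (M.mulVec x) = -x := by
      intro x
      rw [Matrix.mulVec_mulVec, hM2, Matrix.neg_mulVec, Matrix.one_mulVec]
    have hff : ∀ x, f (f x) = -x := by
      intro x
      apply Φ.injective
      apply Subtype.ext
      rw [hΦf, hΦf, hMM, map_neg, Submodule.coe_neg]
    have hM' : ∀ v, Q' ((LinearMap.toMatrix' f).mulVec v) = Q' v := by
      intro v
      rw [← Matrix.toLin'_apply, Matrix.toLin'_toMatrix', hQ'def, hQ'def, hΦf, hM]
    have hM2' : LinearMap.toMatrix' f * LinearMap.toMatrix' f = -1 := by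
      have hcomp : f.comp f = -LinearMap.id :=
        LinearMap.ext fun x => by
          rw [LinearMap.comp_apply, hff, LinearMap.neg_apply, LinearMap.id_apply]
      rw [← LinearMap.toMatrix'_comp, hcomp, map_neg, LinearMap.toMatrix'_id]
    have hcard' : Fintype.card (Fin (2 * e)) = 2 * e := Fintype.card_fin _
    have hty := Cfsg.Agent.Helper20.TSR2.r2_skew_type Q' hQ' h2 e he1 hcard'
      (LinearMap.toMatrix' f) hM' hM2' hm1
    rw [← hty, Cfsg.Agent.Helper33.o_plus_iff_disc_on h2 Q hQ W hnd he1 he b,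
      Cfsg.Agent.Helper33.o_plus_iff_disc h2 Q' hQ' he1 hcard' (Pi.basisFun F (Fin (2 * e)))]
    have hgram : (Matrix.of fun i j => QuadraticMap.polar Q (b i : ι → F) (b j : ι → F)) =
        (Matrix.of fun i j => QuadraticMap.polar Q' (Pi.basisFun F (Fin (2 * e)) i)
          (Pi.basisFun F (Fin (2 * e)) j)) := by
      ext i j
      rw [Matrix.of_apply, Matrix.of_apply, hpol, Pi.basisFun_apply, Pi.basisFun_apply, hΦ, hΦ]
    rw [hgram]

end Cfsg.Agent.Helper20.S88R2
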