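/-
helper20: CALL S74 (row S5974) stage R2B (double): `r = 2 ≠ p`, necessity.  If the condition fails
then `q ≡ 3 (mod 4)`, `d` is even and `m ≡ 2 (mod 4)`; an element `g ∈ Ω` with `g * g = -1` exists
and all its invariant nondegenerate `m`-spaces have minus type.
-/
import Mathlib
import Cfsg.Prelude.Def_GeometricClasses
import Cfsg.Prelude.Def_Classical
import Cfsg.Agent.Helper65.S74Defs
import Cfsg.Agent.Helper35.TSSTDP
import Cfsg.Agent.Helper90.TSR2Main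
import Cfsg.Agent.Helper10.S88R2NSC
import Cfsg.Agent.Helper20.S88R2SKSUBTYPE

set_option autoImplicit false

namespace Cfsg.Agent.Helper20.S74

open Module Cfsg Cfsg.Geo Cfsg.Agent.Helper65.S74
open scoped MatrixGroups

variable {F : Type*} [Field F] [Fintype F]

/-- R2B -/
theorem s74_two_bad {p : ℕ} [Fact p.Prime] [CharP F p] {q : ℕ} (hq : Fintype.card F = q)
    (d m : ℕ) (hd : 4 ≤ d) (hm : 2 ≤ m) (hme : Even m) (hmd : m < d) (hp2 : p ≠ 2)
    (hall : AllHyp (Cfsg.quadFormPlus d F) 2 m) :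
    (2 * d) % 4 = 2 ∨ m % 4 = 0 ∨ q % 4 = 1 := by
  classical
  obtain ⟨hQ, hplus⟩ := Cfsg.Agent.Helper35.TS5973.ts_std_plus (F := F) d
  have hoddq : Odd (Fintype.card F) := by
    obtain ⟨n, hp, hc⟩ := FiniteField.card F p
    rw [hc]
    exact (hp.odd_of_ne_two hp2).pow
  have h2 : (2 : F) ≠ 0 := Cfsg.Agent.Helper70.TSR2.r2_two_ne hoddq
  have hcard : Fintype.card (Fin d ⊕ Fin d) = 2 * d := by
    rw [Fintype.card_sum, Fintype.card_fin]
    omega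
  have hne : Nonempty (Fin d ⊕ Fin d) := Fintype.card_pos_iff.mp (by omega)
  by_contra hcond
  rw [not_or, not_or] at hcond
  obtain ⟨hd4, hm4, hq4⟩ := hcond
  have hqodd : Odd q := hq ▸ hoddq
  have hq3 : q % 4 = 3 := by
    obtain ⟨k, hk⟩ := hqodd
    omega
  have hm1 : ¬ IsSquare (-1 : F) := by
    rw [FiniteField.isSquare_neg_one_iff, hq]
    omega
  have hde : Even d := by
    rw [Nat.even_iff]
    omega
  have hm2 : m % 4 = 2 := by
    obtain ⟨k, hk⟩ := hme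
    omega
  obtain ⟨g, hg2⟩ := Cfsg.Agent.Helper60.TSR2.r2_skew_ex _ hQ h2 d (by omega) hcard hm1
    ⟨fun _ => hde, fun _ => hplus⟩
  have hgΩ : g ∈ Cfsg.Omega F (Cfsg.quadFormPlus d F) := by
    rw [Cfsg.Agent.Helper59.TSR2.r2_skew_omega _ hQ h2 d (by omega) hcard g hg2 hm1]
    obtain ⟨e, he⟩ := hde
    exact ⟨2 ^ e, by rw [he, pow_add]⟩
  have hinv := hall (g : GL (Fin d ⊕ Fin d) F)
    ((Cfsg.Agent.Helper90.TS5973.r2a_mem_omegaGL _ _).mpr ⟨g, hgΩ, rfl⟩)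
    ⟨-1, by rw [Cfsg.Agent.Helper90.TS5973.r2a_sq, hg2, Cfsg.Agent.Helper90.TS5973.r2a_neg_one]⟩
    (Cfsg.Agent.Helper10.S88R2.r2e_nonscalar _ hQ h2 hne _
      (Cfsg.Agent.Helper90.TS5973.r2a_iso _ g) hg2)
  obtain ⟨W, ⟨hWdim, hWnd, hWpl⟩, hWinv⟩ := (invHyp_iff _ _ _).mp hinv
  have hty := Cfsg.Agent.Helper20.S88R2.r2e_skew_sub_type _ hQ h2 _
    (Cfsg.Agent.Helper90.TS5973.r2a_iso _ g) hg2 hm1 W hWinv hWnd (m / 2)
    (by rw [hWdim]; omega)
  have hev := hty.mp hWpl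
  rw [Nat.even_iff] at hev
  omega

end Cfsg.Agent.Helper20.S74
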