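/-
helper20: sub-CALL S88R2 piece I8: a square root `s` of `-1` in a finite field of odd order `q` is a
square iff `q ≡ 1 (mod 8)`.
-/
import Mathlib

set_option autoImplicit false

namespace Cfsg.Agent.Helper20.S88R2

variable {F : Type*} [Field F] [Fintype F]

/-- I8: a square root `s` of `-1` is itself a square iff `q ≡ 1 (mod 8)`. -/
theorem r2e_isq_i (h2 : (2 : F) ≠ 0) (s : F) (hs : s * s = -1) :
    IsSquare s ↔ Fintype.card F % 8 = 1 := by
  have hchar : ringChar F ≠ 2 := by
    intro h
    apply h2
    have h1 := ringChar.Nat.cast_ringChar (R := F)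
    rw [h] at h1
    exact_mod_cast h1
  have hodd : Fintype.card F % 2 = 1 := FiniteField.odd_card_of_char_ne_two hchar
  have hm1 : IsSquare (-1 : F) := ⟨s, hs.symm⟩
  have h4 : Fintype.card F % 4 ≠ 3 := FiniteField.isSquare_neg_one_iff.mp hm1
  have hs0 : s ≠ 0 := by
    rintro rfl
    rw [mul_zero] at hs
    exact one_ne_zero (neg_eq_zero.mp hs.symm)
  rw [FiniteField.isSquare_iff hchar hs0]
  obtain ⟨k, hk⟩ : ∃ k, Fintype.card F = 4 * k + 1 := ⟨Fintype.card F / 4, by omega⟩
  have hhalf : Fintype.card F / 2 = 2 * k := by omega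
  rw [hhalf, pow_mul, pow_two, hs]
  have hne : (-1 : F) ≠ 1 := by
    intro h
    apply h2
    have h3 : (2 : F) = 1 - (-1) := by ring
    rw [h3, h]
    ring
  constructor
  · intro h
    rcases Nat.even_or_odd k with hk' | hk'
    · obtain ⟨j, hj⟩ := hk'
      omega
    · rw [hk'.neg_one_pow] at h
      exact absurd h hne
  · intro h
    have hev : Even k := by
      rw [Nat.even_iff]
      omega
    rw [hev.neg_one_pow]

end Cfsg.Agent.Helper20.S88R2
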