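import Mathlib
import Cfsg.Prelude.Def_GeometricClasses
import Cfsg.Prelude.Def_Classical
import Cfsg.Agent.Helper58.TSDefs
import Cfsg.Agent.Helper33.ODisc
import Cfsg.Agent.Helper6.TSR2SKBASIS

set_option autoImplicit false

namespace Cfsg.Agent.Helper20.TSR2

open Module Cfsg Cfsg.Geo Cfsg.Agent.Helper58.TS
open scoped MatrixGroups

variable {ι : Type} [Fintype ι] [DecidableEq ι] {F : Type*} [Field F] [Fintype F]

theorem r2_skew_type (Q : (ι → F) → F) (hQ : IsNondegenerateQuadraticForm Q) (h2 : (2 : F) ≠ 0)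
    (d : ℕ) (hd : 1 ≤ d) (hcard : Fintype.card ι = 2 * d) (M : Matrix ι ι F)
    (hM : ∀ v, Q (M.mulVec v) = Q v) (hM2 : M * M = -1) (hm1 : ¬ IsSquare (-1 : F)) :
    IsPlusTypeOn Q ⊤ ↔ Even d := by
  classical
  obtain ⟨v, hv0, hvorth⟩ := Cfsg.Agent.Helper6.TSR2.r2_skew_basis Q hQ h2 d hcard M hM hM2 hm1
  obtain ⟨QF, hQF⟩ : ∃ QF : QuadraticForm F (ι → F), ⇑QF = Q :=
    ⟨Cfsg.Agent.Helper98.op_qf Q hQ, rfl⟩
  have hBsymm : ∀ x y, QuadraticMap.polar Q x y = QuadraticMap.polar Q y x :=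
    fun x y => QuadraticMap.polar_comm Q x y
  have hBself : ∀ x, QuadraticMap.polar Q x x = 2 * Q x := by
    intro x
    have h1 := QuadraticMap.polar_self QF x
    rw [hQF, two_nsmul] at h1
    rw [two_mul]
    exact h1
  have hBM : ∀ x y, QuadraticMap.polar Q (M.mulVec x) (M.mulVec y) = QuadraticMap.polar Q x y := by
    intro x y
    unfold QuadraticMap.polar
    rw [← Matrix.mulVec_add, hM, hM, hM]
  have hMM : ∀ x, M.mulVec (M.mulVec x) = -x := by
    intro x
    rw [Matrix.mulVec_mulVec, hM2, Matrix.neg_mulVec, Matrix.one_mulVec]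
  have hBvMv : ∀ x, QuadraticMap.polar Q x (M.mulVec x) = 0 := by
    intro x
    have h1 := hBM x (M.mulVec x)
    rw [hMM] at h1
    have h3 : QuadraticMap.polar Q (M.mulVec x) (-x) = - QuadraticMap.polar Q (M.mulVec x) x := by
      have h4 := QuadraticMap.polar_neg_right QF (M.mulVec x) x
      rw [hQF] at h4
      exact h4
    rw [h3, hBsymm (M.mulVec x) x] at h1
    have h4 : (2 : F) * QuadraticMap.polar Q x (M.mulVec x) = 0 := by linear_combination -h1
    exact (mul_eq_zero.mp h4).resolve_left h2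
  obtain ⟨b, hbl, hbr⟩ : ∃ b : Fin d ⊕ Fin d → (ι → F),
      (∀ j, b (Sum.inl j) = v j) ∧ (∀ j, b (Sum.inr j) = M.mulVec (v j)) :=
    ⟨Sum.elim v (fun j => M.mulVec (v j)), fun _ => rfl, fun _ => rfl⟩
  have hG : ∀ i k, QuadraticMap.polar Q (b i) (b k) = if i = k then 2 * Q (b i) else 0 := by
    intro i k
    rcases i with i | i <;> rcases k with k | k
    · rw [hbl, hbl]
      by_cases h : i = k
      · rw [h, if_pos rfl, hBself]
      · rw [if_neg (fun h' => h (Sum.inl.inj h'))]
        exact (hvorth i k h).1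
    · rw [hbl, hbr, if_neg (by simp)]
      by_cases h : i = k
      · rw [h]
        exact hBvMv _
      · exact (hvorth i k h).2
    · rw [hbr, hbl, if_neg (by simp), hBsymm]
      by_cases h : k = i
      · rw [h]
        exact hBvMv _
      · exact (hvorth k i h).2
    · rw [hbr, hbr, hBM]
      by_cases h : i = k
      · rw [h, if_pos rfl, hBself, hM]
      · rw [if_neg (fun h' => h (Sum.inr.inj h'))]
        exact (hvorth i k h).1
  have hQb : ∀ i, Q (b i) ≠ 0 := by
    intro i
    rcases i with i | i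
    · rw [hbl]
      exact hv0 i
    · rw [hbr, hM]
      exact hv0 i
  have hli : LinearIndependent F b := by
    rw [Fintype.linearIndependent_iff]
    intro c hc k
    have h1 : QuadraticMap.polar Q (b k) (∑ i, c i • b i) = 0 := by
      rw [hc]
      have h4 := QuadraticMap.polar_zero_right QF (b k)
      rw [hQF] at h4
      exact h4
    have h3 : QuadraticMap.polar Q (b k) (∑ i, c i • b i) =
        ∑ i, c i * QuadraticMap.polar Q (b k) (b i) := by
      have h5 := map_sum (QuadraticMap.polarBilin QF (b k)) (fun i => c i • b i) Finset.univ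
      simp only [map_smul, smul_eq_mul, QuadraticMap.polarBilin_apply_apply, hQF] at h5
      exact h5
    rw [h3] at h1
    simp only [hG, mul_ite, mul_zero, Finset.sum_ite_eq, Finset.mem_univ, if_true] at h1
    rcases mul_eq_zero.mp h1 with h | h
    · exact h
    · exact absurd h (mul_ne_zero h2 (hQb k))
  have hcardκ : Fintype.card (Fin d ⊕ Fin d) = finrank F (ι → F) := by
    rw [Fintype.card_sum, Fintype.card_fin, Module.finrank_fintype_fun_eq_card, hcard]
    ring
  have hne : Nonempty (Fin d ⊕ Fin d) := ⟨Sum.inl ⟨0, hd⟩⟩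
  obtain ⟨bb, hbb⟩ : ∃ bb : Module.Basis (Fin d ⊕ Fin d) F (ι → F), ∀ i, bb i = b i :=
    ⟨basisOfLinearIndependentOfCardEqFinrank hli hcardκ, fun i => by
      rw [coe_basisOfLinearIndependentOfCardEqFinrank]⟩
  rw [Cfsg.Agent.Helper33.o_plus_iff_disc h2 Q hQ hd hcard bb]
  have hgram : (Matrix.of fun i j => QuadraticMap.polar Q (bb i) (bb j)) =
      Matrix.diagonal (fun i => 2 * Q (b i)) := by
    ext i j
    rw [Matrix.of_apply, hbb, hbb, hG, Matrix.diagonal_apply]
  rw [hgram, Matrix.det_diagonal, Fintype.prod_sum_type]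
  have hprod : (∏ j : Fin d, 2 * Q (b (Sum.inr j))) = ∏ j : Fin d, 2 * Q (b (Sum.inl j)) := by
    apply Finset.prod_congr rfl
    intro j _
    rw [hbr, hbl, hM]
  rw [hprod]
  obtain ⟨P, hP⟩ : ∃ P : F, P = ∏ j : Fin d, 2 * Q (b (Sum.inl j)) := ⟨_, rfl⟩
  rw [← hP]
  have hP0 : P ≠ 0 := by
    rw [hP]
    exact Finset.prod_ne_zero_iff.mpr (fun j _ => mul_ne_zero h2 (hQb _))
  constructor
  · intro hsq
    by_contra hodd
    rw [Nat.not_even_iff_odd] at hodd
    obtain ⟨t, ht⟩ := hodd
    apply hm1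
    have h5 : (-1 : F) ^ d = -1 := by
      rw [ht, pow_succ, pow_mul]
      simp
    rw [h5] at hsq
    obtain ⟨s, hs⟩ := hsq
    refine ⟨s / P, ?_⟩
    field_simp
    linear_combination hs
  · intro heven
    obtain ⟨t, ht⟩ := heven
    have h5 : (-1 : F) ^ d = 1 := by
      rw [ht, ← two_mul, pow_mul]
      simp
    rw [h5, one_mul]
    exact ⟨P, rfl⟩

end Cfsg.Agent.Helper20.TSR2
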