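import Mathlib
import Cfsg.Agent.Helper21.SMDefs

/-!
# S2086, piece BIADD: an additive family invariant under scaling by `c ≠ 1` is trivial.
-/

set_option autoImplicit false

namespace Cfsg.Agent.Helper20.SMBIADD

open Cfsg.Agent.Helper83 Cfsg.Agent.Helper21.SP Cfsg.Agent.Helper21.SM

variable {F : Type*} [Field F] {n : ℕ} {E : Type*} [Group E] {G : Type*} [Group G]

/-- PIECE BIADD1. -/
theorem sm_biadd1 (f : F → F → E) (hadd : ∀ t t' u, f (t + t') u = f t u * f t' u) (c : F)
    (hc : c ≠ 1) (hinv : ∀ t u, f (c * t) u = f t u) : ∀ t u, f t u = 1 := by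
  have hc1 : c - 1 ≠ 0 := sub_ne_zero.2 hc
  have key : ∀ t u, f ((c - 1) * t) u = 1 := by
    intro t u
    have h1 := hinv t u
    have h2 : c * t = (c - 1) * t + t := by ring
    rw [h2, hadd] at h1
    exact mul_right_cancel (h1.trans (one_mul _).symm)
  intro t u
  have := key ((c - 1)⁻¹ * t) u
  rwa [← mul_assoc, mul_inv_cancel₀ hc1, one_mul] at this

/-- PIECE BIADD2. -/
theorem sm_biadd2 (f : F → F → E) (hadd : ∀ t u u', f t (u + u') = f t u * f t u') (c : F)
    (hc : c ≠ 1) (hinv : ∀ t u, f t (c * u) = f t u) : ∀ t u, f t u = 1 := by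
  intro t u
  exact sm_biadd1 (fun u t => f t u) (fun u u' t => hadd t u u') c hc (fun u t => hinv t u) u t

end Cfsg.Agent.Helper20.SMBIADD
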