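import Mathlib
import Cfsg.Agent.Helper21.SMDefs
import Cfsg.Agent.Helper20.SMBIADD

/-!
# S2086, piece KILL: lifts of two commuting additive families commute, when some element scales
the first family by `α ≠ 1` and fixes the second.
-/

set_option autoImplicit false

namespace Cfsg.Agent.Helper20.SMKILL

open Cfsg.Agent.Helper83 Cfsg.Agent.Helper21.SP Cfsg.Agent.Helper21.SM

variable {F : Type*} [Field F] {n : ℕ} {E : Type*} [Group E] {G : Type*} [Group G]

theorem kill_cm_mul (x x' y : E) (hc : ∀ e : E, cm x' y * e = e * cm x' y) :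
    cm (x * x') y = cm x y * cm x' y := by
  have h1 : cm (x * x') y = x * cm x' y * y * x⁻¹ * y⁻¹ := by unfold cm; group
  have h2 : cm x' y * x * y * x⁻¹ * y⁻¹ = cm x' y * cm x y := by unfold cm; group
  rw [h1, ← hc x, h2, hc]

theorem kill_cm_conj (e x y : E) : cm (e * x * e⁻¹) (e * y * e⁻¹) = e * cm x y * e⁻¹ := by
  unfold cm; group

/-- PIECE KILL: two commuting additive families, and an element scaling the first by `α ≠ 1`
and fixing the second: lifts commute. -/
theorem sm_kill {π : E →* G} (hπ : CE π) (X Y : F → G)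
    (hX : ∀ t t', X (t + t') = X t * X t') (hY : ∀ u u', Y (u + u') = Y u * Y u')
    (hXY : ∀ t u, X t * Y u = Y u * X t) (α : F) (hα : α ≠ 1) (g : G)
    (hgX : ∀ t, g * X t * g⁻¹ = X (α * t)) (hgY : ∀ u, g * Y u * g⁻¹ = Y u)
    (t u : F) (a b : E) (ha : π a = X t) (hb : π b = Y u) : a * b = b * a := by
  have hcent : ∀ t u, ∀ e : E, cm (lft hπ (X t)) (lft hπ (Y u)) * e
      = e * cm (lft hπ (X t)) (lft hπ (Y u)) := by
    intro t u
    apply hπ.cent
    rw [pi_cm, pi_lft, pi_lft]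
    unfold cm
    rw [hXY]; group
  have hadd : ∀ t t' u, cm (lft hπ (X (t + t'))) (lft hπ (Y u))
      = cm (lft hπ (X t)) (lft hπ (Y u)) * cm (lft hπ (X t')) (lft hπ (Y u)) := by
    intro t t' u
    have h1 : cm (lft hπ (X (t + t'))) (lft hπ (Y u))
        = cm (lft hπ (X t) * lft hπ (X t')) (lft hπ (Y u)) := by
      apply l0 hπ
      · rw [pi_lft, map_mul, pi_lft, pi_lft, hX]
      · rfl
    rw [h1]
    exact kill_cm_mul _ _ _ (hcent t' u)
  have hinv : ∀ t u, cm (lft hπ (X (α * t))) (lft hπ (Y u))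
      = cm (lft hπ (X t)) (lft hπ (Y u)) := by
    intro t u
    have h1 : cm (lft hπ (X (α * t))) (lft hπ (Y u))
        = cm (lft hπ g * lft hπ (X t) * (lft hπ g)⁻¹) (lft hπ g * lft hπ (Y u) * (lft hπ g)⁻¹) := by
      apply l0 hπ
      · rw [pi_lft, map_mul, map_mul, map_inv, pi_lft, pi_lft, hgX]
      · rw [pi_lft, map_mul, map_mul, map_inv, pi_lft, pi_lft, hgY]
    rw [h1, kill_cm_conj, ← hcent t u, mul_inv_cancel_right]
  have hone := Cfsg.Agent.Helper20.SMBIADD.sm_biadd1
    (fun t u => cm (lft hπ (X t)) (lft hπ (Y u))) hadd α hα hinv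
  have h1 : cm a b = cm (lft hπ (X t)) (lft hπ (Y u)) := by
    apply l0 hπ
    · rw [pi_lft, ha]
    · rw [pi_lft, hb]
  have h2 : a * b * a⁻¹ * b⁻¹ = 1 := by
    have := hone t u
    rw [← h1] at this
    exact this
  calc a * b = (a * b * a⁻¹ * b⁻¹) * b * a := by group
    _ = b * a := by rw [h2, one_mul]

end Cfsg.Agent.Helper20.SMKILL
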