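import Mathlib
import Cfsg.Agent.Helper44.SPUDefs
import Cfsg.Agent.Helper59.TIMAXTI

set_option autoImplicit false
open Classical

namespace Cfsg.Agent.Helper20.SPUISODIM

open Matrix Cfsg.Agent.Helper44.SPU

variable {F : Type*} [Field F] [Fintype F] {m : ℕ}

theorem spu_isodim (W : Submodule F (Fin m ⊕ Fin m → F)) (hW : Iso m F W) :
    Module.finrank F W ≤ m := by
  have hform : ∀ u v : Fin m ⊕ Fin m → F,
      (Cfsg.Agent.Helper42.SpForm.stdForm m : LinearMap.BilinForm F _) u v =
        Cfsg.sympForm m F u v := by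
    intro u v
    rw [Cfsg.Agent.Helper42.SpForm.stdForm, Matrix.toBilin'_apply']
    rfl
  have hTI : Cfsg.Agent.Helper13.TIsp.TI
      (Cfsg.Agent.Helper42.SpForm.stdForm m : LinearMap.BilinForm F _) W :=
    fun u hu v hv => by rw [hform]; exact hW u hu v hv
  have hnd : Cfsg.Agent.Helper13.TIsp.NondegOn
      (Cfsg.Agent.Helper42.SpForm.stdForm m : LinearMap.BilinForm F (Fin m ⊕ Fin m → F)) ⊤ :=
    fun v _ h => Cfsg.Agent.Helper42.SpForm.stdForm_nondeg m v (fun w => h w Submodule.mem_top)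
  have h := Cfsg.Agent.Helper59.TI5955.ti_bound
    (Cfsg.Agent.Helper42.SpForm.stdForm m : LinearMap.BilinForm F _)
    (Cfsg.Agent.Helper42.SpForm.stdForm_self m) ⊤ W hnd le_top hTI
  rw [finrank_top, Module.finrank_fintype_fun_eq_card, Fintype.card_sum, Fintype.card_fin] at h
  omega

end Cfsg.Agent.Helper20.SPUISODIM
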