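import Mathlib
import Cfsg.Agent.Helper95.SpBNDefs

/-!
# S2545, piece RANK1: the rank one computation `s_j x_j(t) x_{-j}(-1/t)` is upper triangular.
-/

set_option autoImplicit false
set_option linter.unusedSimpArgs false

namespace Cfsg.Agent.Helper20.SpBN

open Matrix Cfsg.Agent.Helper13 Cfsg.Agent.Helper95.SpBN

variable {F : Type*} [Field F] {m : ℕ}

theorem r1_monoMat_mul_apply (π : Equiv.Perm (Fin m ⊕ Fin m)) (d : Fin m ⊕ Fin m → F)
    (X : Matrix (Fin m ⊕ Fin m) (Fin m ⊕ Fin m) F) (x y : Fin m ⊕ Fin m) :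
    (monoMat π d * X) x y = d (π.symm x) * X (π.symm x) y := by
  rw [Matrix.mul_apply, Finset.sum_eq_single (π.symm x)]
  · rw [monoMat_apply, if_pos (by simp)]
  · intro k _ hk
    rw [monoMat_apply, if_neg, zero_mul]
    intro h; apply hk; rw [h]; simp
  · intro h; exact absurd (Finset.mem_univ _) h

theorem r1_single_mul_apply (i j : Fin m ⊕ Fin m)
    (X : Matrix (Fin m ⊕ Fin m) (Fin m ⊕ Fin m) F) (k y : Fin m ⊕ Fin m) :
    (Matrix.single i j (1 : F) * X) k y = if k = i then X j y else 0 := by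
  by_cases h : k = i
  · subst h; rw [if_pos rfl, Matrix.single_mul_apply_same, one_mul]
  · rw [if_neg h, Matrix.single_mul_apply_of_ne _ _ _ _ _ h]

theorem r1_short (a b a' b' : Fin m ⊕ Fin m) (hab : a ≠ b) (haa' : a ≠ a') (hab' : a ≠ b')
    (hba' : b ≠ a') (hbb' : b ≠ b') (ha'b' : a' ≠ b')
    (h1 : rk a < rk b) (h2 : rk b' < rk a')
    (d : Fin m ⊕ Fin m → F) (t u : F) (htu : 1 + t * u = 0) :
    IsUp (monoMat (Equiv.swap a b * Equiv.swap a' b') d *
      (1 + t • (Matrix.single a b (1 : F) - Matrix.single b' a' (1 : F))) *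
      (1 + u • (Matrix.single b a (1 : F) - Matrix.single a' b' (1 : F)))) := by
  intro x y hxy
  rw [Matrix.mul_assoc, r1_monoMat_mul_apply]
  rw [Matrix.add_mul, Matrix.one_mul, Matrix.smul_mul, Matrix.sub_mul, Matrix.add_apply,
    Matrix.smul_apply, Matrix.sub_apply, r1_single_mul_apply, r1_single_mul_apply]
  simp only [Matrix.add_apply, Matrix.one_apply, Matrix.smul_apply, Matrix.sub_apply,
    Matrix.single_apply, smul_eq_mul]
  by_cases hxa : x = a
  · subst hxa
    have e : (Equiv.swap x b * Equiv.swap a' b').symm x = b := by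
      rw [Equiv.symm_apply_eq, Equiv.Perm.mul_apply, Equiv.swap_apply_of_ne_of_ne hba' hbb',
        Equiv.swap_apply_right]
    rw [e]
    have hyx : x ≠ y := by rintro rfl; exact lt_irrefl _ hxy
    have hyb : b ≠ y := by rintro rfl; omega
    simp [hab, hab.symm, haa', haa'.symm, hab', hab'.symm, hba', hba'.symm, hbb', hbb'.symm,
      ha'b', ha'b'.symm, hyx, hyb]
  by_cases hxb : x = b
  · subst hxb
    have e : (Equiv.swap a x * Equiv.swap a' b').symm x = a := by
      rw [Equiv.symm_apply_eq, Equiv.Perm.mul_apply, Equiv.swap_apply_of_ne_of_ne haa' hab',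
        Equiv.swap_apply_left]
    rw [e]
    have hyx : x ≠ y := by rintro rfl; exact lt_irrefl _ hxy
    by_cases hya : a = y
    · subst hya
      simp [hab, hab.symm, haa', haa'.symm, hab', hab'.symm, hba', hba'.symm, hbb', hbb'.symm,
        ha'b', ha'b'.symm, hyx]
      exact Or.inr htu
    · simp [hab, hab.symm, haa', haa'.symm, hab', hab'.symm, hba', hba'.symm, hbb', hbb'.symm,
        ha'b', ha'b'.symm, hyx, hya]
  by_cases hxa' : x = a'
  · subst hxa'
    have e : (Equiv.swap a b * Equiv.swap x b').symm x = b' := by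
      rw [Equiv.symm_apply_eq, Equiv.Perm.mul_apply, Equiv.swap_apply_right,
        Equiv.swap_apply_of_ne_of_ne haa'.symm hba'.symm]
    rw [e]
    have hyx : x ≠ y := by rintro rfl; exact lt_irrefl _ hxy
    by_cases hyb' : b' = y
    · subst hyb'
      simp [hab, hab.symm, haa', haa'.symm, hab', hab'.symm, hba', hba'.symm, hbb', hbb'.symm,
        ha'b', ha'b'.symm, hyx]
      exact Or.inr htu
    · simp [hab, hab.symm, haa', haa'.symm, hab', hab'.symm, hba', hba'.symm, hbb', hbb'.symm,
        ha'b', ha'b'.symm, hyx, hyb']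
  by_cases hxb' : x = b'
  · subst hxb'
    have e : (Equiv.swap a b * Equiv.swap a' x).symm x = a' := by
      rw [Equiv.symm_apply_eq, Equiv.Perm.mul_apply, Equiv.swap_apply_left,
        Equiv.swap_apply_of_ne_of_ne hab'.symm hbb'.symm]
    rw [e]
    have hyx : x ≠ y := by rintro rfl; exact lt_irrefl _ hxy
    have hya' : a' ≠ y := by rintro rfl; omega
    simp [hab, hab.symm, haa', haa'.symm, hab', hab'.symm, hba', hba'.symm, hbb', hbb'.symm,
      ha'b', ha'b'.symm, hyx, hya']
  have e : (Equiv.swap a b * Equiv.swap a' b').symm x = x := by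
    rw [Equiv.symm_apply_eq, Equiv.Perm.mul_apply, Equiv.swap_apply_of_ne_of_ne hxa' hxb',
      Equiv.swap_apply_of_ne_of_ne hxa hxb]
  rw [e]
  have hyx : x ≠ y := by rintro rfl; exact lt_irrefl _ hxy
  simp [hxa, hxb, hxa', hxb', hyx, Ne.symm hxa, Ne.symm hxb, Ne.symm hxa', Ne.symm hxb']

theorem r1_long (a b : Fin m ⊕ Fin m) (hab : a ≠ b) (h1 : rk a < rk b)
    (d : Fin m ⊕ Fin m → F) (t u : F) (htu : 1 + t * u = 0) :
    IsUp (monoMat (Equiv.swap a b) d *
      (1 + t • Matrix.single a b (1 : F)) *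
      (1 + u • Matrix.single b a (1 : F))) := by
  intro x y hxy
  rw [Matrix.mul_assoc, r1_monoMat_mul_apply]
  rw [Matrix.add_mul, Matrix.one_mul, Matrix.smul_mul, Matrix.add_apply,
    Matrix.smul_apply, r1_single_mul_apply]
  simp only [Matrix.add_apply, Matrix.one_apply, Matrix.smul_apply,
    Matrix.single_apply, smul_eq_mul]
  by_cases hxa : x = a
  · subst hxa
    have e : (Equiv.swap x b).symm x = b := by
      rw [Equiv.symm_apply_eq, Equiv.swap_apply_right]
    rw [e]
    have hyx : x ≠ y := by rintro rfl; exact lt_irrefl _ hxy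
    have hyb : b ≠ y := by rintro rfl; omega
    simp [hab, hab.symm, hyx, hyb]
  by_cases hxb : x = b
  · subst hxb
    have e : (Equiv.swap a x).symm x = a := by
      rw [Equiv.symm_apply_eq, Equiv.swap_apply_left]
    rw [e]
    have hyx : x ≠ y := by rintro rfl; exact lt_irrefl _ hxy
    by_cases hya : a = y
    · subst hya
      simp [hab, hab.symm, hyx]
      exact Or.inr htu
    · simp [hab, hab.symm, hyx, hya]
  have e : (Equiv.swap a b).symm x = x := by
    rw [Equiv.symm_apply_eq, Equiv.swap_apply_of_ne_of_ne hxa hxb]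
  rw [e]
  have hyx : x ≠ y := by rintro rfl; exact lt_irrefl _ hxy
  simp [hxa, hxb, hyx, Ne.symm hxa, Ne.symm hxb]

theorem p_RANK1 (j : Fin m) (t : F) (ht : t ≠ 0) :
    ∃ t' : F, IsUp (sigMat F j * xaMat j t * xgMat (rb j) (ra j) t') := by
  refine ⟨-t⁻¹, ?_⟩
  have htu : 1 + t * (-t⁻¹) = 0 := by
    rw [mul_neg, mul_inv_cancel₀ ht]; ring
  have hj := j.2
  have hra : rk (ra j) = (j : ℕ) := rfl
  have hra' : rk (tauP m (ra j)) = 2 * m - 1 - (j : ℕ) := by rw [rk_tauP, hra]
  by_cases h : (j : ℕ) + 1 < m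
  · have hb : rb j = Sum.inl ⟨(j : ℕ) + 1, h⟩ := dif_pos h
    have hrb : rk (rb j) = (j : ℕ) + 1 := by rw [hb]; rfl
    have hrb' : rk (tauP m (rb j)) = 2 * m - 1 - ((j : ℕ) + 1) := by rw [rk_tauP, hrb]
    have hs : sgnJ F m (ra j) * sgnJ F m (rb j) = 1 := by
      rw [hb]
      show (-1 : F) * (-1) = 1
      ring
    have hs' : sgnJ F m (rb j) * sgnJ F m (ra j) = 1 := by rw [mul_comm, hs]
    have n1 : rb j ≠ tauP m (ra j) := by
      intro h'; have := congrArg rk h'; omega
    have n2 : ra j ≠ tauP m (rb j) := by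
      intro h'; have := congrArg rk h'; omega
    have e1 : xaMat j t = 1 + t • (Matrix.single (ra j) (rb j) (1 : F) -
        Matrix.single (tauP m (rb j)) (tauP m (ra j)) (1 : F)) := by
      unfold xaMat xgMat
      rw [if_neg n1]
      unfold xsMat
      rw [hs, one_smul]
    have e2 : xgMat (rb j) (ra j) (-t⁻¹) = 1 + (-t⁻¹) • (Matrix.single (rb j) (ra j) (1 : F) -
        Matrix.single (tauP m (ra j)) (tauP m (rb j)) (1 : F)) := by
      unfold xgMat
      rw [if_neg n2]
      unfold xsMat
      rw [hs', one_smul]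
    have e3 : sigMat F j = monoMat (Equiv.swap (ra j) (rb j) *
        Equiv.swap (tauP m (ra j)) (tauP m (rb j))) (sigD F j) := by
      unfold sigMat sigP
      rw [if_pos h]
    rw [e1, e2, e3]
    apply r1_short _ _ _ _ _ _ _ _ _ _ _ _ _ _ _ htu
    · intro h'; have := congrArg rk h'; omega
    · intro h'; have := congrArg rk h'; omega
    · intro h'; have := congrArg rk h'; omega
    · intro h'; have := congrArg rk h'; omega
    · intro h'; have := congrArg rk h'; omega
    · intro h'; have := congrArg rk h'; omega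
    · omega
    · omega
  · have hb : rb j = Sum.inr j := dif_neg h
    have hrb : rk (rb j) = 2 * m - 1 - (j : ℕ) := by rw [hb]; rfl
    have n1 : rb j = tauP m (ra j) := by rw [hb]; rfl
    have n2 : ra j = tauP m (rb j) := by rw [hb]; rfl
    have e1 : xaMat j t = 1 + t • Matrix.single (ra j) (rb j) (1 : F) := by
      unfold xaMat xgMat
      rw [if_pos n1]
      unfold xlMat
      rw [← n1]
    have e2 : xgMat (rb j) (ra j) (-t⁻¹) = 1 + (-t⁻¹) • Matrix.single (rb j) (ra j) (1 : F) := by
      unfold xgMat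
      rw [if_pos n2]
      unfold xlMat
      rw [← n2]
    have e3 : sigMat F j = monoMat (Equiv.swap (ra j) (rb j)) (sigD F j) := by
      unfold sigMat sigP
      rw [if_neg h]
    rw [e1, e2, e3]
    apply r1_long _ _ _ _ _ _ _ htu
    · intro h'; have := congrArg rk h'; omega
    · omega

end Cfsg.Agent.Helper20.SpBN
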