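import Mathlib
import Cfsg.Agent.Helper45.StDDefs

/-!
# Piece RANK1D of CALL S2548: the rank one computation at the last node of type `D`
-/

set_option autoImplicit false

universe u

open Cfsg Cfsg.Agent.Helper13 Cfsg.Agent.Helper95.SpBN Cfsg.Agent.Helper45 Cfsg.Agent.Helper45.St
  Cfsg.Agent.Helper45.StD

namespace Cfsg.Agent.Helper20.StRANK1D

variable {ι : Type} [Fintype ι] [DecidableEq ι] {F : Type u} [Field F]
  {Q : QuadraticForm F (ι → F)} {m : ℕ} {L R : Fin m → ι}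

omit [Fintype ι] in
theorem evl_R (H : HypPairs Q m L R) (i k : Fin m) : ev L R F (Sum.inl i) (R k) = 0 := by
  rw [ev_apply, if_neg]
  rw [idx_inl]
  exact fun h => H.hLR i k h.symm

omit [Fintype ι] in
theorem evl_L (H : HypPairs Q m L R) (i k : Fin m) :
    ev L R F (Sum.inl i) (L k) = if k = i then 1 else 0 := by
  rw [ev_apply, idx_inl]
  by_cases h : k = i
  · rw [if_pos h, if_pos (by rw [h])]
  · rw [if_neg h, if_neg (fun h' => h (H.hL h'))]

omit [Fintype ι] in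
theorem evr_R (H : HypPairs Q m L R) (i k : Fin m) :
    ev L R F (Sum.inr i) (R k) = if k = i then 1 else 0 := by
  rw [ev_apply, idx_inr]
  by_cases h : k = i
  · rw [if_pos h, if_pos (by rw [h])]
  · rw [if_neg h, if_neg (fun h' => h (H.hR h'))]

omit [Fintype ι] in
theorem evr_L (H : HypPairs Q m L R) (i k : Fin m) : ev L R F (Sum.inr i) (L k) = 0 := by
  rw [ev_apply, if_neg]
  rw [idx_inr]
  exact fun h => H.hLR k i h

theorem xD_e (H : HypPairs Q m L R) (j : Fin m) (hj : ¬ (j : ℕ) + 1 < m) (t : F) (i : Fin m) :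
    mv ⇑Q (xD Q L R j t) (ev L R F (Sum.inl i)) = ev L R F (Sum.inl i) := by
  rw [mv_xD_last H j hj, evl_R H, evl_R H, mul_zero, zero_smul, zero_smul, add_zero, sub_zero]

theorem xD_f (H : HypPairs Q m L R) (j : Fin m) (hj : ¬ (j : ℕ) + 1 < m) (hjj : jp j ≠ j)
    (t : F) :
    mv ⇑Q (xD Q L R j t) (ev L R F (Sum.inr j)) =
      ev L R F (Sum.inr j) + t • ev L R F (Sum.inl (jp j)) := by
  rw [mv_xD_last H j hj, evr_R H, evr_R H, if_pos rfl, if_neg hjj, mul_one, mul_zero, zero_smul,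
    sub_zero]

theorem xD_f' (H : HypPairs Q m L R) (j : Fin m) (hj : ¬ (j : ℕ) + 1 < m) (hjj : jp j ≠ j)
    (t : F) :
    mv ⇑Q (xD Q L R j t) (ev L R F (Sum.inr (jp j))) =
      ev L R F (Sum.inr (jp j)) - t • ev L R F (Sum.inl j) := by
  rw [mv_xD_last H j hj, evr_R H, evr_R H, if_neg hjj.symm, if_pos rfl, mul_zero, mul_one,
    zero_smul, add_zero]

theorem yD_e (H : HypPairs Q m L R) (j : Fin m) (hj : ¬ (j : ℕ) + 1 < m) (t : F) (i : Fin m) :
    mv ⇑Q (yD Q L R j t) (ev L R F (Sum.inl i)) =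
      ev L R F (Sum.inl i) + (t * (if jp j = i then 1 else 0)) • ev L R F (Sum.inr j) -
        (t * (if j = i then 1 else 0)) • ev L R F (Sum.inr (jp j)) := by
  rw [mv_yD_last H j hj, evl_L H, evl_L H]

theorem yD_f (H : HypPairs Q m L R) (j : Fin m) (hj : ¬ (j : ℕ) + 1 < m) (t : F) (i : Fin m) :
    mv ⇑Q (yD Q L R j t) (ev L R F (Sum.inr i)) = ev L R F (Sum.inr i) := by
  rw [mv_yD_last H j hj, evr_L H, evr_L H, mul_zero, zero_smul, zero_smul, add_zero, sub_zero]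

/-- `sigD j` maps `f_j` to `e_{j-1}`. -/
theorem sigD_f (H : HypPairs Q m L R) (j : Fin m) (hj : ¬ (j : ℕ) + 1 < m) (hjj : jp j ≠ j) :
    mv ⇑Q (sigD Q L R j) (ev L R F (Sum.inr j)) = ev L R F (Sum.inl (jp j)) := by
  unfold StD.sigD
  rw [mv_mul, mv_mul, xD_f H j hj hjj, mv_add, mv_smul, yD_f H j hj, yD_e H j hj, if_pos rfl,
    if_neg hjj.symm]
  have e : ev L R F (Sum.inr j) + (1 : F) • (ev L R F (Sum.inl (jp j)) +
      ((-1 : F) * 1) • ev L R F (Sum.inr j) - ((-1 : F) * 0) • ev L R F (Sum.inr (jp j))) =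
      ev L R F (Sum.inl (jp j)) := by module
  rw [e, xD_e H j hj]

/-- `sigD j` maps `f_{j-1}` to `-e_j`. -/
theorem sigD_f' (H : HypPairs Q m L R) (j : Fin m) (hj : ¬ (j : ℕ) + 1 < m) (hjj : jp j ≠ j) :
    mv ⇑Q (sigD Q L R j) (ev L R F (Sum.inr (jp j))) = (-1 : F) • ev L R F (Sum.inl j) := by
  unfold StD.sigD
  rw [mv_mul, mv_mul, xD_f' H j hj hjj, mv_sub, mv_smul, yD_f H j hj, yD_e H j hj, if_neg hjj,
    if_pos rfl]
  have e : ev L R F (Sum.inr (jp j)) - (1 : F) • (ev L R F (Sum.inl j) +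
      ((-1 : F) * 0) • ev L R F (Sum.inr j) - ((-1 : F) * 1) • ev L R F (Sum.inr (jp j))) =
      (-1 : F) • ev L R F (Sum.inl j) := by module
  rw [e, mv_smul, xD_e H j hj]

/-- `sigD j` fixes `e_i` for `i ≠ j - 1, j`. -/
theorem sigD_e (H : HypPairs Q m L R) (j : Fin m) (hj : ¬ (j : ℕ) + 1 < m) (i : Fin m)
    (h1 : jp j ≠ i) (h2 : j ≠ i) :
    mv ⇑Q (sigD Q L R j) (ev L R F (Sum.inl i)) = ev L R F (Sum.inl i) := by
  unfold StD.sigD
  rw [mv_mul, mv_mul, xD_e H j hj, yD_e H j hj, if_neg h1, if_neg h2, mul_zero, zero_smul,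
    zero_smul, add_zero, sub_zero, xD_e H j hj]

omit [Fintype ι] in
theorem flagP_smul_ev (i : Fin m) (k : ℕ) (hk : (i : ℕ) < k) (c : F) :
    FlagP L k (c • ev L R F (Sum.inl i)) := by
  intro y hy
  have h1 : ev L R F (Sum.inl i) y ≠ 0 := by
    intro h0
    apply hy
    rw [Pi.smul_apply, h0, smul_zero]
  obtain ⟨i', hi', rfl⟩ := flagP_ev (L := L) (R := R) (F := F) i _ h1
  exact ⟨i', by omega, rfl⟩

theorem p_RANK1D (H : HypPairs Q m L R) (hB : BCrit Q L R) (hm : 2 ≤ m) (j : Fin m)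
    (hj : ¬ (j : ℕ) + 1 < m) (t : F) (ht : t ≠ 0) :
    ∃ t' : F, sigD Q L R j * xD Q L R j t * yD Q L R j t' ∈ borelO Q L := by
  have hjj : jp j ≠ j := by
    intro h
    have := congrArg Fin.val h
    rw [jp_val] at this
    have := j.2
    omega
  have h0 : (1 : F) + -t⁻¹ * t = 0 := by
    rw [neg_mul, inv_mul_cancel₀ ht]; ring
  refine ⟨-t⁻¹, hB _ ?_⟩
  intro i
  rw [mv_mul, mv_mul, yD_e H j hj]
  by_cases h1 : jp j = i
  · subst h1
    rw [if_pos rfl, if_neg hjj.symm, mul_one, mul_zero, zero_smul, sub_zero, mv_add, mv_smul,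
      xD_e H j hj, xD_f H j hj hjj]
    have e : ev L R F (Sum.inl (jp j)) + (-t⁻¹) • (ev L R F (Sum.inr j) +
        t • ev L R F (Sum.inl (jp j))) =
        ((1 : F) + -t⁻¹ * t) • ev L R F (Sum.inl (jp j)) + (-t⁻¹) • ev L R F (Sum.inr j) := by
      module
    rw [e, h0, zero_smul, zero_add, mv_smul, sigD_f H j hj hjj]
    exact flagP_smul_ev _ _ (Nat.lt_succ_self _) _
  · by_cases h2 : j = i
    · subst h2
      rw [if_neg h1, if_pos rfl, mul_one, mul_zero, zero_smul, add_zero, mv_sub, mv_smul,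
        xD_e H j hj, xD_f' H j hj hjj]
      have e : ev L R F (Sum.inl j) - (-t⁻¹) • (ev L R F (Sum.inr (jp j)) -
          t • ev L R F (Sum.inl j)) =
          ((1 : F) + -t⁻¹ * t) • ev L R F (Sum.inl j) + (t⁻¹) • ev L R F (Sum.inr (jp j)) := by
        module
      rw [e, h0, zero_smul, zero_add, mv_smul, sigD_f' H j hj hjj, smul_smul]
      exact flagP_smul_ev _ _ (Nat.lt_succ_self _) _
    · rw [if_neg h1, if_neg h2, mul_zero, zero_smul, zero_smul, add_zero, sub_zero,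
        xD_e H j hj, sigD_e H j hj i h1 h2]
      exact flagP_ev i

end Cfsg.Agent.Helper20.StRANK1D
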