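-- helper20 library: PIECE SW of CALL S5832 (helper97): the factor swap is not a pure tensor.
import Mathlib
import Cfsg.Agent.Helper96.TensorWreath

set_option autoImplicit false
open Cfsg Cfsg.Geo Matrix
open scoped Kronecker

namespace Cfsg.Agent.Helper20

theorem swap_not_mem_tensorProduct {F : Type*} [Field F] {n m : ℕ} (hm : 2 ≤ m) (e : Fin n ≃ Fin m × Fin m) (P g : GL (Fin n) F) (hg : (g : Matrix (Fin n) (Fin n) F) = Helper98.conjReindex e P (Helper96.swapMat m F)) : g ∉ tensorProductSubgroup m m e P := by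
  intro hmem
  obtain ⟨a, b, hab⟩ := Helper98.mem_tensorProductSubgroup hmem
  rw [hg] at hab
  have hsw := Helper98.conjReindex_injective e P hab
  let i0 : Fin m := ⟨0, by omega⟩
  let i1 : Fin m := ⟨1, by omega⟩
  have h01 : i0 ≠ i1 := by
    intro h
    have := congrArg Fin.val h
    simp [i0, i1] at this
  have e1 := congrFun (congrFun hsw (i0, i0)) (i0, i0)
  have e2 := congrFun (congrFun hsw (i0, i1)) (i1, i0)
  have e3 := congrFun (congrFun hsw (i0, i1)) (i0, i0)
  simp only [Helper96.swapMat, Matrix.of_apply, Matrix.kroneckerMap_apply] at e1 e2 e3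
  simp at e1 e2 e3
  rw [if_neg h01] at e3
  have ha : (a : Matrix (Fin m) (Fin m) F) i0 i0 ≠ 0 := by
    intro h0
    rw [h0, zero_mul] at e1
    exact one_ne_zero e1
  have hb : (b : Matrix (Fin m) (Fin m) F) i1 i0 ≠ 0 := by
    intro h0
    rw [h0, mul_zero] at e2
    exact one_ne_zero e2
  exact mul_ne_zero ha hb e3.symm

end Cfsg.Agent.Helper20
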