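import Mathlib
import Cfsg.Agent.Helper97.TNDefs

/-!
# S2413, piece EZMV: the action of the Eichler elements `E(e_i, c z)` and `E(f_i, c z)`.
-/

set_option autoImplicit false

universe u

namespace Cfsg.Agent.Helper20

open Cfsg Matrix Cfsg.Agent.Helper45 Cfsg.Agent.Helper98 Cfsg.Agent.Helper97.TM
  Cfsg.Agent.Helper97.TN

variable {m : ℕ} {F : Type u} [Field F]

/-- EZMV (two statements) -/
theorem tn_mv_ez (i : Fin m) (c : F) (x : Unit ⊕ (Fin m ⊕ Fin m) → F) :
    mv ⇑(QO m F) (eichO (QO m F) (eO m F i) (c • zO m F) (QO_eO i) (polar_eO_smul_zO i c)) x =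
      x + (2 * c * x (Sum.inl ()) - c ^ 2 * x (Sum.inr (Sum.inr i))) • eO m F i
        - (c * x (Sum.inr (Sum.inr i))) • zO m F := by
  rw [mv_eichO]
  unfold Helper44.eich
  rw [QuadraticMap.polar_smul_left, polar_zO_left, polar_eO_left, QO_smul_zO, smul_smul,
    smul_eq_mul]
  module

theorem tn_mv_fz (i : Fin m) (c : F) (x : Unit ⊕ (Fin m ⊕ Fin m) → F) :
    mv ⇑(QO m F) (eichO (QO m F) (fO m F i) (c • zO m F) (QO_fO i) (polar_fO_smul_zO i c)) x =
      x + (2 * c * x (Sum.inl ()) - c ^ 2 * x (Sum.inr (Sum.inl i))) • fO m F i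
        - (c * x (Sum.inr (Sum.inl i))) • zO m F := by
  rw [mv_eichO]
  unfold Helper44.eich
  rw [QuadraticMap.polar_smul_left, polar_zO_left, polar_fO_left, QO_smul_zO, smul_smul,
    smul_eq_mul]
  module

end Cfsg.Agent.Helper20
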