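import Mathlib
import Cfsg.Agent.Helper97.TNDefs

/-!
# S2413, piece NDO: the polar form of the odd-dimensional form is non-degenerate (`2 ≠ 0`).
-/

set_option autoImplicit false

universe u

namespace Cfsg.Agent.Helper20

open Cfsg Matrix Cfsg.Agent.Helper45 Cfsg.Agent.Helper98 Cfsg.Agent.Helper97.TM
  Cfsg.Agent.Helper97.TN

variable {m : ℕ} {F : Type u} [Field F]

/-- NDO -/
theorem tn_nondeg (m : ℕ) (h2 : (2 : F) ≠ 0) :
    (QuadraticMap.polarBilin (QO m F)).Nondegenerate := by
  have key : ∀ x : Unit ⊕ (Fin m ⊕ Fin m) → F,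
      (∀ y, QuadraticMap.polar ⇑(QO m F) x y = 0) → x = 0 := by
    intro x hx
    funext j
    rcases j with u | i | i
    · have h3 := hx (zO m F)
      rw [QuadraticMap.polar_comm, polar_zO_left] at h3
      exact (mul_eq_zero.mp h3).resolve_left h2
    · have h3 := hx (fO m F i)
      rw [QuadraticMap.polar_comm, polar_fO_left] at h3
      exact h3
    · have h3 := hx (eO m F i)
      rw [QuadraticMap.polar_comm, polar_eO_left] at h3
      exact h3
  constructor
  · intro x hx
    exact key x hx
  · intro y hy
    apply key y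
    intro x
    rw [QuadraticMap.polar_comm]
    exact hy x

end Cfsg.Agent.Helper20
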