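import Mathlib
import Cfsg.Prelude.Def_GeometricClasses
import Cfsg.Prelude.Def_Classical
import Cfsg.Agent.Helper58.TSDefs
import Cfsg.Agent.Helper33.OType
import Cfsg.Agent.Helper43.PrimeOrdO2

set_option autoImplicit false

namespace Cfsg.Agent.Helper20.TSEG

open Module Polynomial Cfsg Cfsg.Geo Cfsg.Agent.Helper58.TS

variable {ι : Type} [Fintype ι] [DecidableEq ι] {F : Type*} [Field F] [Fintype F]

theorem eg_type_even (Q : (ι → F) → F) (hQ : IsNondegenerateQuadraticForm Q) (r : ℕ)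
    [Fact r.Prime] (hr2 : 2 < r) (hrq : ¬ r ∣ Fintype.card F)
    (heven : Even (orderOf ((Fintype.card F : ℕ) : ZMod r))) (N : Submodule F (ι → F))
    (hdvd : orderOf ((Fintype.card F : ℕ) : ZMod r) ∣ finrank F N)
    (hcong : Nat.card {v : ι → F // v ∈ N ∧ Q v = 0} ≡ 1 [MOD r])
    (hcnt : ∀ l, 1 ≤ l → finrank F N = 2 * l →
      (IsPlusTypeOn Q N → Fintype.card F * Nat.card {v : ι → F // v ∈ N ∧ Q v = 0} =
        Fintype.card F ^ (l + 1) + (Fintype.card F ^ l - 1) * Fintype.card F ^ l) ∧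
      (¬ IsPlusTypeOn Q N → Fintype.card F * Nat.card {v : ι → F // v ∈ N ∧ Q v = 0} =
        Fintype.card F ^ l +
          Fintype.card F ^ 2 * (Fintype.card F ^ (l - 1) - 1) * Fintype.card F ^ (l - 1))) :
    IsPlusTypeOn Q N ↔ Even (finrank F N / orderOf ((Fintype.card F : ℕ) : ZMod r)) := by
  have hr : r.Prime := Fact.out
  have hq1 : 1 ≤ Fintype.card F := Fintype.card_pos
  have hq0 : ((Fintype.card F : ℕ) : ZMod r) ≠ 0 := by
    intro h
    exact hrq ((ZMod.natCast_eq_zero_iff _ _).mp h)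
  have hipos : 0 < orderOf ((Fintype.card F : ℕ) : ZMod r) := by
    rw [orderOf_pos_iff, isOfFinOrder_iff_pow_eq_one]
    exact ⟨r - 1, by have := hr.two_le; omega, ZMod.pow_card_sub_one_eq_one hq0⟩
  obtain ⟨j, hj⟩ := heven
  have hj0 : 0 < j := by omega
  obtain ⟨A, hA⟩ := hdvd
  rw [hA, Nat.mul_div_cancel_left A hipos]
  rcases Nat.eq_zero_or_pos A with hA0 | hApos
  · have hN0 : finrank F N = 0 := by rw [hA, hA0, mul_zero]
    have hNbot : N = ⊥ := Submodule.finrank_eq_zero.mp hN0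
    rw [hNbot, hA0]
    exact ⟨fun _ => Even.zero, fun _ => Cfsg.Agent.Helper33.o_plus_bot Q hQ⟩
  · have hl : 1 ≤ j * A := Nat.mul_pos hj0 hApos
    have hdim : finrank F N = 2 * (j * A) := by
      rw [hA, hj]
      ring
    obtain ⟨hplus, hminus⟩ := hcnt (j * A) hl hdim
    constructor
    · intro hP
      exact Cfsg.Agent.Helper43.PrimeOrdO.plus_parity hr (by omega) hq1 hj hj0 rfl _
        (hplus hP) hcong
    · intro hE
      by_contra hP
      have hodd := Cfsg.Agent.Helper43.PrimeOrdO.minus_parity hr (by omega) hq1 hj hj0 rfl hl _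
        (by rw [Nat.sub_add_cancel hl]; exact hminus hP) hcong
      exact (Nat.not_even_iff_odd.mpr hodd) hE

end Cfsg.Agent.Helper20.TSEG
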