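-- helper20 library: PIECE E2 of CALL S2951 (helper11): a 2-group of order at least 16 with a
-- self-centralizing four-subgroup has no normal four-subgroup.
import Mathlib
import Cfsg.Agent.Helper20.TwoGrpE2p

set_option autoImplicit false

namespace Cfsg.Agent.Helper20

variable {G : Type*} [Group G]

theorem exists_mem_ne_ne [Finite G] (V : Subgroup G) (hV : Nat.card V = 4) (z : G) :
    ∃ v ∈ V, v ≠ 1 ∧ v ≠ z := by
  classical
  by_contra hcon
  push Not at hcon
  have hsub : (V : Set G) ⊆ {1, z} := by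
    intro g hg
    by_cases h : g = 1
    · left; exact h
    · right; exact hcon g hg h
  have h1 := Set.ncard_le_ncard hsub (Set.toFinite _)
  have h2 : ({1, z} : Set G).ncard ≤ 2 := by
    have := Set.ncard_insert_le (1 : G) ({z} : Set G)
    rw [Set.ncard_singleton] at this
    exact this
  have h3 : Nat.card V = (V : Set G).ncard := (Nat.card_coe_set_eq _)
  omega

theorem no_normal_four [Finite G] (S V U : Subgroup G) (hS : IsPGroup 2 S) (hVS : V ≤ S) (hV : Nat.card V = 4) (hVe : ∀ v ∈ V, v * v = 1) (hCV : S ⊓ Subgroup.centralizer (V : Set G) ≤ V) (h16 : 16 ≤ Nat.card S) (hUS : U ≤ S) (hUn : S ≤ Subgroup.normalizer (U : Set G)) (hU : Nat.card U = 4) (hUe : ∀ u ∈ U, u * u = 1) : False := by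
  classical
  haveI : Fact (Nat.Prime 2) := ⟨Nat.prime_two⟩
  obtain ⟨z, hzU, hz1, hzc⟩ := pgroup_fixed_coset 2 S U ⊥ hS hUn (normalizer_bot_le S) (by
    rw [Subgroup.relIndex_bot_left, hU]; norm_num)
  have hz1' : z ≠ 1 := fun h => hz1 (by rw [h]; exact Subgroup.one_mem _)
  have hzc' : ∀ s ∈ S, s * z = z * s := by
    intro s hs
    have h1 := hzc s hs
    rw [Subgroup.mem_bot] at h1
    have h2 : s * z * s⁻¹ = z := (inv_mul_eq_one.1 h1).symm
    calc s * z = s * z * s⁻¹ * s := by group
      _ = z * s := by rw [h2]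
  have hzS : z ∈ S := hUS hzU
  have hzV : z ∈ V := by
    apply hCV
    refine ⟨hzS, ?_⟩
    show z ∈ Subgroup.centralizer (V : Set G)
    rw [Subgroup.mem_centralizer_iff]
    intro v hv
    exact hzc' v (hVS hv)
  obtain ⟨v, hvV, hv1, hvz⟩ := exists_mem_ne_ne V hV z
  obtain ⟨u, huU, hu1, huz⟩ := exists_mem_ne_ne U hU z
  have hVel := four_elems V hV hVe hzV hz1' hvV hv1 hvz
  have hUel := four_elems U hU hUe hzU hz1' huU hu1 huz
  have hvS := hVS hvV
  have huS := hUS huU
  have hvv : v * v = 1 := hVe v hvV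
  have huu : u * u = 1 := hUe u huU
  have hzz : z * z = 1 := hUe z hzU
  have hzu : z * u = u * z := (hzc' u huS).symm
  -- centralizers of noncentral elements of `V`
  have hCw : ∀ w ∈ V, w ≠ 1 → w ≠ z → ∀ s ∈ S, s * w = w * s → s ∈ V := by
    intro w hwV hw1 hwz s hs hsw
    apply hCV
    refine ⟨hs, ?_⟩
    show s ∈ Subgroup.centralizer (V : Set G)
    rw [Subgroup.mem_centralizer_iff]
    intro g hg
    rcases four_elems V hV hVe hzV hz1' hwV hw1 hwz g hg with rfl | rfl | rfl | rfl
    · rw [one_mul, mul_one]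
    · exact (hzc' s hs).symm
    · exact hsw.symm
    · rw [mul_assoc, ← hsw, ← mul_assoc, ← hzc' s hs, mul_assoc]
  have hconj : ∀ s ∈ S, s * u * s⁻¹ = u ∨ s * u * s⁻¹ = z * u := by
    intro s hs
    have hmem : s * u * s⁻¹ ∈ U := (Subgroup.mem_normalizer_iff.1 (hUn hs) u).1 huU
    have hrec : u = s⁻¹ * (s * u * s⁻¹) * s := by group
    rcases hUel _ hmem with h | h | h | h
    · exfalso; apply hu1
      rw [hrec, h]; group
    · exfalso; apply huz
      rw [hrec, h, mul_assoc, ← hzc' s hs, ← mul_assoc, inv_mul_cancel, one_mul]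
    · left; exact h
    · right; exact h
  have hcard := card_le_two_mul_centralizer S u (z * u) hconj
  have hvu : v * u * v⁻¹ = z * u := by
    rcases hconj v hvS with h | h
    · exfalso
      have hcomm : u * v = v * u := by
        calc u * v = v * u * v⁻¹ * v := by rw [h]
          _ = v * u := by group
      have huV : u ∈ V := hCw v hvV hv1 hvz u huS hcomm
      have hle : (S ⊓ Subgroup.centralizer ({u} : Set G) : Subgroup G) ≤ V := by
        rintro s ⟨hs, hsc⟩
        have hsc' : s ∈ Subgroup.centralizer ({u} : Set G) := hsc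
        exact hCw u huV hu1 huz s hs ((Subgroup.mem_centralizer_iff.1 hsc' u rfl).symm)
      have := Subgroup.card_le_of_le hle
      omega
    · exact h
  have hC8 : 8 ≤ Nat.card (S ⊓ Subgroup.centralizer ({u} : Set G) : Subgroup G) := by omega
  have hmemC : ∀ c, c ∈ (S ⊓ Subgroup.centralizer ({u} : Set G) : Subgroup G) ↔
      c ∈ S ∧ c * u = u * c := by
    intro c
    constructor
    · rintro ⟨h1, h2⟩
      have h2' : c ∈ Subgroup.centralizer ({u} : Set G) := h2
      exact ⟨h1, (Subgroup.mem_centralizer_iff.1 h2' u rfl).symm⟩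
    · rintro ⟨h1, h2⟩
      refine ⟨h1, ?_⟩
      show c ∈ Subgroup.centralizer ({u} : Set G)
      rw [Subgroup.mem_centralizer_iff]
      intro y hy
      rw [Set.mem_singleton_iff.1 hy]
      exact h2.symm
  have hUC : U ≤ (S ⊓ Subgroup.centralizer ({u} : Set G) : Subgroup G) := by
    intro g hg
    rw [hmemC]
    refine ⟨hUS hg, ?_⟩
    rcases hUel g hg with rfl | rfl | rfl | rfl
    · rw [one_mul, mul_one]
    · exact hzu
    · rfl
    · rw [mul_assoc, huu, mul_one, hzu, ← mul_assoc, huu, one_mul]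
  have hCpg : IsPGroup 2 (S ⊓ Subgroup.centralizer ({u} : Set G) : Subgroup G) :=
    hS.to_le inf_le_left
  obtain ⟨k, hk⟩ := IsPGroup.iff_card.1 hCpg
  have hk3 : 3 ≤ k := by
    by_contra hlt
    have h1 : k ≤ 2 := by omega
    have h2 : 2 ^ k ≤ 2 ^ 2 := Nat.pow_le_pow_right (by norm_num) h1
    omega
  have hrel : 2 ∣ U.relIndex (S ⊓ Subgroup.centralizer ({u} : Set G) : Subgroup G) := by
    have h1 := Subgroup.relIndex_mul_relIndex ⊥ U
      (S ⊓ Subgroup.centralizer ({u} : Set G) : Subgroup G) bot_le hUC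
    rw [Subgroup.relIndex_bot_left, Subgroup.relIndex_bot_left, hU, hk] at h1
    have h2 : 2 ^ k = 4 * 2 ^ (k - 2) := by
      rw [show (4 : ℕ) = 2 ^ 2 by norm_num, ← pow_add]; congr 1; omega
    rw [h2] at h1
    have h3 : U.relIndex (S ⊓ Subgroup.centralizer ({u} : Set G) : Subgroup G) = 2 ^ (k - 2) :=
      Nat.eq_of_mul_eq_mul_left (by norm_num) h1
    rw [h3]; exact dvd_pow_self 2 (by omega)
  -- `S` normalizes `C_S(u)`
  have hkeyC : ∀ s ∈ S, ∀ g ∈ (S ⊓ Subgroup.centralizer ({u} : Set G) : Subgroup G),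
      s * g * s⁻¹ ∈ (S ⊓ Subgroup.centralizer ({u} : Set G) : Subgroup G) := by
    intro s hs g hg
    obtain ⟨hgS, hgu⟩ := (hmemC g).1 hg
    rw [hmemC]
    refine ⟨S.mul_mem (S.mul_mem hs hgS) (S.inv_mem hs), ?_⟩
    have hw : g * (s⁻¹ * u * s) = (s⁻¹ * u * s) * g := by
      have h1 := hconj s⁻¹ (S.inv_mem hs)
      rw [inv_inv] at h1
      rcases h1 with h1 | h1
      · rw [h1]; exact hgu
      · rw [h1, ← mul_assoc, hzc' g hgS, mul_assoc, hgu, mul_assoc]
    calc s * g * s⁻¹ * u = s * (g * (s⁻¹ * u * s)) * s⁻¹ := by group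
      _ = s * ((s⁻¹ * u * s) * g) * s⁻¹ := by rw [hw]
      _ = u * (s * g * s⁻¹) := by group
  have hSC : S ≤ Subgroup.normalizer
      ((S ⊓ Subgroup.centralizer ({u} : Set G) : Subgroup G) : Set G) := by
    intro s hs
    rw [Subgroup.mem_normalizer_iff]
    intro g
    constructor
    · exact hkeyC s hs g
    · intro hg
      have h1 := hkeyC s⁻¹ (S.inv_mem hs) _ hg
      have h2 : s⁻¹ * (s * g * s⁻¹) * s⁻¹⁻¹ = g := by group
      rw [h2] at h1
      exact h1
  have hvle : Subgroup.zpowers v ≤ S := Subgroup.zpowers_le.2 hvS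
  have hPv : IsPGroup 2 (Subgroup.zpowers v) := hS.to_le hvle
  obtain ⟨c, hcC, hcU, hcv⟩ := pgroup_fixed_coset 2 (Subgroup.zpowers v)
    (S ⊓ Subgroup.centralizer ({u} : Set G) : Subgroup G) U hPv (hvle.trans hSC)
    (hvle.trans hUn) hrel
  have hu0 := hcv v (Subgroup.mem_zpowers v)
  obtain ⟨hcS, hcu⟩ := (hmemC c).1 hcC
  have hnvu : ¬ (v * u = u * v) := by
    intro hdu
    have h1 : v * u * v⁻¹ = u := by rw [hdu]; group
    rw [hvu] at h1
    exact hz1' (mul_right_cancel (h1.trans (one_mul u).symm))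
  have hfix : ∀ d ∈ S, d * u = u * d → d * v = v * d → d = 1 ∨ d = z := by
    intro d hdS hdu hdv
    have hdV := hCw v hvV hv1 hvz d hdS hdv
    rcases hVel d hdV with h | h | h | h
    · left; exact h
    · right; exact h
    · exfalso
      rw [h] at hdu
      exact hnvu hdu
    · exfalso
      rw [h] at hdu
      apply hnvu
      have h3 : z * (v * u) = z * (u * v) := by
        rw [← mul_assoc, hdu, ← mul_assoc, ← hzu, mul_assoc]
      exact mul_left_cancel h3
  have hvinv : v⁻¹ = v := inv_eq_of_mul_eq_one_left hvv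
  have hvcv : v * (v * c * v⁻¹) * v⁻¹ = c := by
    rw [hvinv]
    calc v * (v * c * v) * v = (v * v) * c * (v * v) := by group
      _ = c := by rw [hvv, one_mul, mul_one]
  have hvz' : v * z * v⁻¹ = z := by
    rw [hzc' v hvS]; group
  have hrec : v * c * v⁻¹ = c * (c⁻¹ * (v * c * v⁻¹)) := by group
  rcases hUel _ hu0 with h | h | h | h
  · rw [h, mul_one] at hrec
    have h2 : c * v = v * c := by
      calc c * v = (v * c * v⁻¹) * v := by rw [hrec]
        _ = v * c := by group
    rcases hfix c hcS hcu h2 with h3 | h3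
    · exact hcU (h3 ▸ U.one_mem)
    · exact hcU (h3 ▸ hzU)
  · rw [h] at hrec
    have hc'S : c * u ∈ S := S.mul_mem hcS huS
    have hc'u : c * u * u = u * (c * u) := by rw [← mul_assoc, ← hcu]
    have hc'v : c * u * v = v * (c * u) := by
      have h5 : v * (c * u) * v⁻¹ = c * u := by
        calc v * (c * u) * v⁻¹ = (v * c * v⁻¹) * (v * u * v⁻¹) := by group
          _ = c * z * (z * u) := by rw [hrec, hvu]
          _ = c * u := by rw [mul_assoc, ← mul_assoc z, hzz, one_mul]
      calc c * u * v = v * (c * u) * v⁻¹ * v := by rw [h5]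
        _ = v * (c * u) := by group
    rcases hfix (c * u) hc'S hc'u hc'v with h3 | h3
    · have h4 : c = u := by
        rw [eq_inv_of_mul_eq_one_left h3]
        exact inv_eq_of_mul_eq_one_left huu
      exact hcU (h4 ▸ huU)
    · have h4 : c = z * u := by
        rw [eq_mul_inv_of_mul_eq h3, inv_eq_of_mul_eq_one_left huu]
      exact hcU (h4 ▸ U.mul_mem hzU huU)
  · rw [h] at hrec
    have h2 : c = c * z := by
      calc c = v * (v * c * v⁻¹) * v⁻¹ := hvcv.symm
        _ = v * (c * u) * v⁻¹ := by rw [hrec]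
        _ = (v * c * v⁻¹) * (v * u * v⁻¹) := by group
        _ = c * u * (z * u) := by rw [hrec, hvu]
        _ = c * z := by rw [mul_assoc, ← mul_assoc u, ← hzu, mul_assoc z, huu, mul_one]
    exact hz1' (mul_left_cancel (h2.symm.trans (mul_one c).symm))
  · rw [h] at hrec
    have h2 : c = c * z := by
      calc c = v * (v * c * v⁻¹) * v⁻¹ := hvcv.symm
        _ = v * (c * (z * u)) * v⁻¹ := by rw [hrec]
        _ = (v * c * v⁻¹) * (v * z * v⁻¹) * (v * u * v⁻¹) := by group
        _ = c * (z * u) * z * (z * u) := by rw [hrec, hvz', hvu]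
        _ = c * z := by
          rw [mul_assoc c (z * u) z, mul_assoc z u z, ← hzu, ← mul_assoc z z u, hzz, one_mul,
            mul_assoc c u (z * u), ← mul_assoc u z u, ← hzu, mul_assoc z u u, huu, mul_one]
    exact hz1' (mul_left_cancel (h2.symm.trans (mul_one c).symm))

end Cfsg.Agent.Helper20
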