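import Mathlib
import Cfsg.Prelude.Def_JComponents

/-!
# CALL S2951 round 3, piece MX (helper20 for helper11)
-/

namespace Cfsg.Agent.Helper20

variable {G : Type*} [Group G]

/-- PIECE MX -/
theorem exists_maxStraddling [Finite G] (M : Subgroup G)
    (h : (Cfsg.straddlingTwoSubgroups M).Nonempty) :
    (Cfsg.maxStraddlingTwoSubgroups M).Nonempty := by
  classical
  obtain ⟨S, hS⟩ : ∃ S : Set (Subgroup G), S = Cfsg.straddlingTwoSubgroups M := ⟨_, rfl⟩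
  rw [← hS] at h
  obtain ⟨T₁, hT₁, hmax₁⟩ := Set.exists_max_image S (fun T => Cfsg.maxElemAbelianOrder T)
    (Set.toFinite S) h
  obtain ⟨S₁, hS₁⟩ : ∃ S₁ : Set (Subgroup G),
      S₁ = {T | T ∈ S ∧ Cfsg.maxElemAbelianOrder T = Cfsg.maxElemAbelianOrder T₁} := ⟨_, rfl⟩
  have hne₁ : S₁.Nonempty := ⟨T₁, by rw [hS₁]; exact ⟨hT₁, rfl⟩⟩
  obtain ⟨T₂, hT₂, hmax₂⟩ := Set.exists_max_image S₁
    (fun T => Nat.card ↥(Cfsg.thompsonSubgroupOf 2 T)) (Set.toFinite S₁) hne₁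
  obtain ⟨S₂, hS₂⟩ : ∃ S₂ : Set (Subgroup G),
      S₂ = {T | T ∈ S₁ ∧ Nat.card ↥(Cfsg.thompsonSubgroupOf 2 T) =
        Nat.card ↥(Cfsg.thompsonSubgroupOf 2 T₂)} := ⟨_, rfl⟩
  have hne₂ : S₂.Nonempty := ⟨T₂, by rw [hS₂]; exact ⟨hT₂, rfl⟩⟩
  obtain ⟨T₀, hT₀, hmax₀⟩ := Set.exists_max_image S₂ (fun T => Nat.card ↥T)
    (Set.toFinite S₂) hne₂
  rw [hS₂] at hT₀
  obtain ⟨hT₀S₁, hj₀⟩ := hT₀
  rw [hS₁] at hT₀S₁
  obtain ⟨hT₀S, ha₀⟩ := hT₀S₁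
  refine ⟨T₀, ?_, ?_⟩
  · rw [← hS]; exact hT₀S
  · intro T hT
    rw [← hS] at hT
    refine ⟨?_, ?_⟩
    · rw [ha₀]; exact hmax₁ T hT
    · intro ha
      have hTS₁ : T ∈ S₁ := by rw [hS₁]; exact ⟨hT, ha.trans ha₀⟩
      refine ⟨?_, ?_⟩
      · rw [hj₀]; exact hmax₂ T hTS₁
      · intro hj
        have hTS₂ : T ∈ S₂ := by rw [hS₂]; exact ⟨hTS₁, hj.trans hj₀⟩
        exact hmax₀ T hTS₂

end Cfsg.Agent.Helper20
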