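import Mathlib
import Cfsg.Agent.Helper95.UBNDefs

/-!
# Root elements of the unitary group in a Witt basis (library for CALL S2546, pieces RK1*)
-/

set_option autoImplicit false
set_option linter.unusedSimpArgs false
open Matrix Cfsg.Agent.Helper95.UBN

namespace Cfsg.Agent.Helper20.UBN

variable {F : Type*} [Field F] {n : ℕ}

theorem rt_uinv_add (τ : F →+* F) (M N : Matrix (Fin n) (Fin n) F) :
    uinv τ (M + N) = uinv τ M + uinv τ N := by
  ext a b; simp only [uinv_apply, Matrix.add_apply, map_add]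

theorem rt_uinv_sub (τ : F →+* F) (M N : Matrix (Fin n) (Fin n) F) :
    uinv τ (M - N) = uinv τ M - uinv τ N := by
  ext a b; simp only [uinv_apply, Matrix.sub_apply, map_sub]

theorem rt_uinv_single (τ : F →+* F) (p q : Fin n) (c : F) :
    uinv τ (Matrix.single p q c) = Matrix.single (Fin.rev q) (Fin.rev p) (τ c) := by
  ext r s
  rw [uinv_apply, Matrix.single_apply, Matrix.single_apply]
  by_cases h : p = Fin.rev s ∧ q = Fin.rev r
  · obtain ⟨rfl, rfl⟩ := h
    simp
  · rw [if_neg h, map_zero, if_neg]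
    rintro ⟨rfl, rfl⟩
    exact h ⟨by simp, by simp⟩

/-- value formula for `sigP j` in the short case. -/
theorem sig_val_short (j : Fin (n / 2)) (hj : j.1 + 1 < n / 2) (r : Fin n) :
    (sigP j r).1 = if r.1 = j.1 then j.1 + 1 else if r.1 = j.1 + 1 then j.1 else
      if r.1 = n - 2 - j.1 then n - 1 - j.1 else if r.1 = n - 1 - j.1 then n - 2 - j.1
      else r.1 := by
  have hib : (ib j : Fin n) = ⟨j.1 + 1, by omega⟩ := by unfold ib; rw [dif_pos hj]
  have hia : (ia j : Fin n).1 = j.1 := rfl
  have hibv : (ib j : Fin n).1 = j.1 + 1 := by rw [hib]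
  unfold sigP
  rw [if_pos hj, Equiv.Perm.mul_apply, Equiv.swap_apply_def, Equiv.swap_apply_def]
  have h1 : ∀ x y : Fin n, x = y ↔ x.1 = y.1 := fun x y => Fin.ext_iff
  split_ifs <;> simp only [h1, Fin.val_rev] at * <;> omega

/-- value formula for `sigP j` in the last case. -/
theorem sig_val_last (j : Fin (n / 2)) (hj : ¬ j.1 + 1 < n / 2) (r : Fin n) :
    (sigP j r).1 = if r.1 = j.1 then n - 1 - j.1 else if r.1 = n - 1 - j.1 then j.1
      else r.1 := by
  have hib : (ib j : Fin n) = Fin.rev (ia j) := by unfold ib; rw [dif_neg hj]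
  have hia : (ia j : Fin n).1 = j.1 := rfl
  have hj2 := j.2
  unfold sigP
  rw [if_neg hj, Equiv.swap_apply_def, hib]
  have h1 : ∀ x y : Fin n, x = y ↔ x.1 = y.1 := fun x y => Fin.ext_iff
  split_ifs <;> simp only [h1, Fin.val_rev] at * <;> omega

/-! ### Short root elements -/

/-- short root element `1 + c E_{pq} - τ c E_{q'p'}`. -/
def rootS (τ : F →+* F) (p q : Fin n) (c : F) : Matrix (Fin n) (Fin n) F :=
  1 + Matrix.single p q c - Matrix.single (Fin.rev q) (Fin.rev p) (τ c)

theorem rootS_zero (τ : F →+* F) (p q : Fin n) : rootS τ p q 0 = 1 := by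
  unfold rootS; rw [map_zero, Matrix.single_zero, Matrix.single_zero]; simp

theorem rootS_uinv (τ : F →+* F) (hτ : ∀ x, τ (τ x) = x) (p q : Fin n) (c : F) :
    uinv τ (rootS τ p q c) = rootS τ p q (-c) := by
  unfold rootS
  rw [rt_uinv_sub, rt_uinv_add, uinv_one, rt_uinv_single, rt_uinv_single, Fin.rev_rev,
    Fin.rev_rev, hτ]
  ext r s
  simp only [Matrix.add_apply, Matrix.sub_apply, Matrix.one_apply, Matrix.single_apply, map_neg]
  split_ifs <;> ring

theorem rootS_mul (τ : F →+* F) (p q : Fin n) (hpq : p ≠ q) (hq : q ≠ Fin.rev q)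
    (hp : p ≠ Fin.rev p) (c d : F) :
    rootS τ p q c * rootS τ p q d = rootS τ p q (c + d) := by
  have e : ∀ A B A' B' : Matrix (Fin n) (Fin n) F, (1 + A - B) * (1 + A' - B') =
      1 + (A + A') - (B + B') + A * A' - A * B' - B * A' + B * B' := by intros; noncomm_ring
  have hpq' : Fin.rev p ≠ Fin.rev q := fun h => hpq (Fin.rev_injective h)
  unfold rootS
  rw [e, Matrix.single_mul_single_of_ne (h := hpq.symm), Matrix.single_mul_single_of_ne (h := hq),
    Matrix.single_mul_single_of_ne (h := hp.symm), Matrix.single_mul_single_of_ne (h := hpq'),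
    map_add, Matrix.single_add, Matrix.single_add]
  simp

theorem rootS_isU (τ : F →+* F) (hτ : ∀ x, τ (τ x) = x) (p q : Fin n) (hpq : p ≠ q)
    (hq : q ≠ Fin.rev q) (hp : p ≠ Fin.rev p) (c : F) : IsU τ (rootS τ p q c) := by
  unfold IsU
  rw [rootS_uinv τ hτ, rootS_mul τ p q hpq hq hp, neg_add_cancel, rootS_zero]

theorem rootS_det (τ : F →+* F) (p q : Fin n) (hpq : p ≠ q) (hq : q ≠ Fin.rev q) (c : F) :
    (rootS τ p q c).det = 1 := by
  have hpq' : Fin.rev q ≠ Fin.rev p := fun h => hpq (Fin.rev_injective h).symm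
  have e : rootS τ p q c = Matrix.transvection p q c *
      Matrix.transvection (Fin.rev q) (Fin.rev p) (-τ c) := by
    unfold rootS Matrix.transvection
    have e : ∀ A B : Matrix (Fin n) (Fin n) F, (1 + A) * (1 + B) = 1 + A + B + A * B := by
      intros; noncomm_ring
    rw [e, Matrix.single_mul_single_of_ne (h := hq)]
    ext r s
    simp only [Matrix.add_apply, Matrix.sub_apply, Matrix.one_apply, Matrix.single_apply,
      Matrix.zero_apply]
    split_ifs <;> ring
  rw [e, Matrix.det_mul, Matrix.det_transvection_of_ne _ _ hpq,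
    Matrix.det_transvection_of_ne _ _ hpq', one_mul]

/-! ### Long root elements -/

/-- long root element `1 + c E_{pp'}`. -/
def rootL (p : Fin n) (c : F) : Matrix (Fin n) (Fin n) F :=
  1 + Matrix.single p (Fin.rev p) c

theorem rootL_zero (p : Fin n) : rootL p (0 : F) = 1 := by
  unfold rootL; rw [Matrix.single_zero]; simp

theorem rootL_uinv (τ : F →+* F) (p : Fin n) (c : F) :
    uinv τ (rootL p c) = rootL p (τ c) := by
  unfold rootL
  rw [rt_uinv_add, uinv_one, rt_uinv_single, Fin.rev_rev]

theorem rootL_mul (p : Fin n) (hp : p ≠ Fin.rev p) (c d : F) :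
    rootL p c * rootL p d = rootL p (c + d) := by
  have e : ∀ A B : Matrix (Fin n) (Fin n) F, (1 + A) * (1 + B) = 1 + (A + B) + A * B := by
    intros; noncomm_ring
  unfold rootL
  rw [e, Matrix.single_mul_single_of_ne (h := hp.symm), Matrix.single_add]
  simp

theorem rootL_isU (τ : F →+* F) (p : Fin n) (hp : p ≠ Fin.rev p) (c : F) (hc : τ c + c = 0) :
    IsU τ (rootL p c) := by
  unfold IsU
  rw [rootL_uinv, rootL_mul p hp, hc, rootL_zero]

theorem rootL_det (p : Fin n) (hp : p ≠ Fin.rev p) (c : F) : (rootL p c).det = 1 :=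
  Matrix.det_transvection_of_ne _ _ hp c

/-! ### Root elements through the middle index (odd dimension) -/

/-- the root element `1 + s E_{pc} - τ s E_{cp'} + v E_{pp'}` (`c` the middle index). -/
def rootC (τ : F →+* F) (p c : Fin n) (s v : F) : Matrix (Fin n) (Fin n) F :=
  1 + Matrix.single p c s - Matrix.single c (Fin.rev p) (τ s) + Matrix.single p (Fin.rev p) v

theorem rootC_zero (τ : F →+* F) (p c : Fin n) : rootC τ p c 0 0 = 1 := by
  unfold rootC; rw [map_zero, Matrix.single_zero, Matrix.single_zero, Matrix.single_zero]; simp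

theorem rootC_uinv (τ : F →+* F) (hτ : ∀ x, τ (τ x) = x) (p c : Fin n) (hc : Fin.rev c = c)
    (s v : F) : uinv τ (rootC τ p c s v) = rootC τ p c (-s) (τ v) := by
  unfold rootC
  rw [rt_uinv_add, rt_uinv_sub, rt_uinv_add, uinv_one, rt_uinv_single, rt_uinv_single,
    rt_uinv_single, Fin.rev_rev, hc, hτ]
  ext r s
  simp only [Matrix.add_apply, Matrix.sub_apply, Matrix.one_apply, Matrix.single_apply, map_neg]
  split_ifs <;> ring

theorem rootC_mul (τ : F →+* F) (p c : Fin n) (hpc : p ≠ c) (hp : p ≠ Fin.rev p)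
    (hcp : c ≠ Fin.rev p) (s v s2 v2 : F) :
    rootC τ p c s v * rootC τ p c s2 v2 = rootC τ p c (s + s2) (v + v2 - s * τ s2) := by
  have e : ∀ A B C A' B' C' : Matrix (Fin n) (Fin n) F, (1 + A - B + C) * (1 + A' - B' + C') =
      1 + (A + A') - (B + B') + (C + C') + A * A' - A * B' + A * C' - B * A' + B * B' - B * C'
        + C * A' - C * B' + C * C' := by intros; noncomm_ring
  unfold rootC
  rw [e, Matrix.single_mul_single_of_ne (h := hpc.symm), Matrix.single_mul_single_same,
    Matrix.single_mul_single_of_ne (h := hpc.symm), Matrix.single_mul_single_of_ne (h := hp.symm),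
    Matrix.single_mul_single_of_ne (h := hcp.symm), Matrix.single_mul_single_of_ne (h := hp.symm),
    Matrix.single_mul_single_of_ne (h := hp.symm), Matrix.single_mul_single_of_ne (h := hcp.symm),
    Matrix.single_mul_single_of_ne (h := hp.symm)]
  ext r s
  simp only [Matrix.add_apply, Matrix.sub_apply, Matrix.one_apply, Matrix.single_apply,
    Matrix.zero_apply, map_add]
  split_ifs <;> ring

theorem rootC_isU (τ : F →+* F) (hτ : ∀ x, τ (τ x) = x) (p c : Fin n) (hc : Fin.rev c = c)
    (hpc : p ≠ c) (hp : p ≠ Fin.rev p) (hcp : c ≠ Fin.rev p) (s v : F)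
    (h : v + τ v + s * τ s = 0) : IsU τ (rootC τ p c s v) := by
  unfold IsU
  rw [rootC_uinv τ hτ p c hc, rootC_mul τ p c hpc hp hcp]
  have h1 : -s + s = 0 := by ring
  have h2 : τ v + v - -s * τ s = 0 := by rw [← h]; ring
  rw [h1, h2, rootC_zero]

theorem rootC_det (τ : F →+* F) (p c : Fin n) (hpc : p ≠ c) (hp : p ≠ Fin.rev p)
    (hcp : c ≠ Fin.rev p) (s v : F) : (rootC τ p c s v).det = 1 := by
  have e : rootC τ p c s v = Matrix.transvection p c s *
      Matrix.transvection c (Fin.rev p) (-τ s) *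
      Matrix.transvection p (Fin.rev p) (v + s * τ s) := by
    unfold rootC Matrix.transvection
    have e : ∀ A B C : Matrix (Fin n) (Fin n) F, (1 + A) * (1 + B) * (1 + C) =
        1 + A + B + C + A * B + A * C + B * C + A * B * C := by
      intros; noncomm_ring
    rw [e, Matrix.single_mul_single_same, Matrix.single_mul_single_of_ne (h := hpc.symm),
      Matrix.single_mul_single_of_ne (h := hp.symm), Matrix.single_mul_single_of_ne (h := hp.symm)]
    ext r s
    simp only [Matrix.add_apply, Matrix.sub_apply, Matrix.one_apply, Matrix.single_apply,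
      Matrix.zero_apply]
    split_ifs <;> ring
  rw [e, Matrix.det_mul, Matrix.det_mul, Matrix.det_transvection_of_ne _ _ hpc,
    Matrix.det_transvection_of_ne _ _ hcp, Matrix.det_transvection_of_ne _ _ hp, one_mul, one_mul]

end Cfsg.Agent.Helper20.UBN
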