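import Mathlib
import Cfsg.Agent.Helper95.UBNDefs
import Cfsg.Agent.Helper20.UBNRoot

/-!
# Piece RK1L of CALL S2546: rank one computation, long root (even dimension)
-/

set_option autoImplicit false
set_option linter.unusedSimpArgs false
open Matrix Cfsg.Agent.Helper95.UBN

namespace Cfsg.Agent.Helper20.UBN

variable {F : Type*} [Field F] {n : ℕ}

theorem p_RK1L (τ : F →+* F) (hτ : ∀ x, τ (τ x) = x) (j : Fin (n / 2)) (hj : j.1 + 1 = n / 2)
    (hn : Even n)
    (x : Matrix.SpecialLinearGroup (Fin n) F) (hx : x ∈ UG τ n) (hsh : XSh (sigP j) x.1)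
    (hx1 : x ≠ 1) :
    ∃ y : Matrix.SpecialLinearGroup (Fin n) F, y ∈ UG τ n ∧ YSh (sigP j) y.1 ∧
      ∀ a b, sigP j b < a → (y * x⁻¹).1 a b = 0 := by
  have hj' : ¬ j.1 + 1 < n / 2 := by omega
  have hσ := sig_val_last j hj'
  obtain ⟨a, ha⟩ : ∃ a : Fin n, a = ia j := ⟨_, rfl⟩
  have hav : a.1 = j.1 := by rw [ha]; rfl
  have hav' : (Fin.rev a).1 = n - (j.1 + 1) := by rw [Fin.val_rev, hav]
  have hnv : n = 2 * (j.1 + 1) := by obtain ⟨k, hk⟩ := hn; omega
  have haa' : a ≠ Fin.rev a := by intro h; have := congrArg Fin.val h; omega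
  -- shape
  have hx0 : ∀ r s, r ≠ s → ¬ (r = a ∧ s = Fin.rev a) → x.1 r s = 0 := by
    intro r s hrs h1
    by_contra h
    obtain ⟨hlt, hσlt⟩ := hsh.2 r s hrs h
    rw [Fin.lt_def] at hlt hσlt
    rw [hσ r, hσ s] at hσlt
    simp only [Fin.ext_iff] at h1 hrs
    split_ifs at hσlt <;> omega
  obtain ⟨t, ht⟩ : ∃ t, t = x.1 a (Fin.rev a) := ⟨_, rfl⟩
  have hxform : x.1 = rootL a t := by
    ext r s
    unfold rootL
    rw [Matrix.add_apply, Matrix.one_apply, Matrix.single_apply]
    by_cases h1 : r = a ∧ s = Fin.rev a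
    · obtain ⟨rfl, rfl⟩ := h1
      rw [if_neg haa', if_pos ⟨rfl, rfl⟩, zero_add, ht]
    · by_cases hrs : r = s
      · subst hrs
        rw [if_pos rfl, if_neg (fun h => h1 ⟨h.1.symm, h.2.symm⟩), add_zero]
        exact hsh.1 r
      · rw [if_neg hrs, if_neg (fun h => h1 ⟨h.1.symm, h.2.symm⟩), add_zero]
        exact hx0 r s hrs h1
  -- unitarity relation
  have hU : IsU τ x.1 := isU_of_mem hx
  have htt : τ t + t = 0 := by
    unfold IsU at hU
    rw [hxform, rootL_uinv, rootL_mul a haa'] at hU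
    have := congrFun (congrFun hU a) (Fin.rev a)
    unfold rootL at this
    rw [Matrix.add_apply, Matrix.one_apply, if_neg haa', Matrix.single_apply, if_pos ⟨rfl, rfl⟩,
      zero_add] at this
    exact this
  have ht0 : t ≠ 0 := by
    intro h
    apply hx1
    apply Subtype.ext
    rw [hxform, h, rootL_zero]; rfl
  have hτt : τ t = -t := eq_neg_of_add_eq_zero_left htt
  have hτti : τ t⁻¹ + t⁻¹ = 0 := by
    rw [map_inv₀, hτt, inv_neg]; ring
  have ha'a : Fin.rev a ≠ Fin.rev (Fin.rev a) := by rw [Fin.rev_rev]; exact haa'.symm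
  refine ⟨(⟨rootL (Fin.rev a) t⁻¹, rootL_det _ ha'a _⟩ :
    Matrix.SpecialLinearGroup (Fin n) F), ?_, ?_, ?_⟩
  · apply (mem_UG_iff hτ _).mpr
    exact rootL_isU τ _ ha'a _ hτti
  · -- YSh
    constructor
    · intro r
      show rootL (Fin.rev a) t⁻¹ r r = 1
      unfold rootL
      rw [Matrix.add_apply, Matrix.one_apply, if_pos rfl, Matrix.single_apply, Fin.rev_rev,
        if_neg, add_zero]
      rintro ⟨h1, h2⟩; exact haa' (h2.trans h1.symm)
    · intro r s hrs hne
      have hne' : rootL (Fin.rev a) t⁻¹ r s ≠ 0 := hne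
      unfold rootL at hne'
      rw [Matrix.add_apply, Matrix.one_apply, if_neg hrs, Matrix.single_apply, Fin.rev_rev,
        zero_add] at hne'
      have h1 : Fin.rev a = r ∧ a = s := by
        by_contra h; rw [if_neg h] at hne'; exact hne' rfl
      obtain ⟨rfl, rfl⟩ := h1
      rw [Fin.lt_def, Fin.lt_def, hσ, hσ]
      constructor
      · omega
      · split_ifs <;> omega
  · -- zero pattern
    intro r s hlt
    show (rootL (Fin.rev a) t⁻¹ * (x⁻¹).1) r s = 0
    rw [inv_eq_uinv hx, hxform, rootL_uinv, hτt]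
    have e : rootL (Fin.rev a) t⁻¹ * rootL a (-t) = 1 + Matrix.single a (Fin.rev a) (-t) +
        Matrix.single (Fin.rev a) a t⁻¹ + Matrix.single (Fin.rev a) (Fin.rev a) (-1) := by
      unfold rootL
      have e : ∀ A B : Matrix (Fin n) (Fin n) F, (1 + A) * (1 + B) = 1 + B + A + A * B := by
        intros; noncomm_ring
      rw [e, Fin.rev_rev, Matrix.single_mul_single_same]
      congr 2
      field_simp
    rw [e]
    rw [Fin.lt_def, hσ s] at hlt
    simp only [Matrix.add_apply, Matrix.one_apply, Matrix.single_apply]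
    by_cases hrs : r = s
    · subst hrs
      have : r = Fin.rev a := by rw [Fin.ext_iff]; split_ifs at hlt <;> omega
      subst this
      simp [haa', haa'.symm]
    · have h1 : ¬ (a = r ∧ Fin.rev a = s) := by
        rw [Fin.ext_iff, Fin.ext_iff]; split_ifs at hlt <;> omega
      have h2 : ¬ (Fin.rev a = r ∧ a = s) := by
        rw [Fin.ext_iff, Fin.ext_iff]; split_ifs at hlt <;> omega
      have h3 : ¬ (Fin.rev a = r ∧ Fin.rev a = s) := fun h => hrs (h.1.symm.trans h.2)
      rw [if_neg hrs, if_neg h1, if_neg h2, if_neg h3]; simp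

end Cfsg.Agent.Helper20.UBN
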