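import Mathlib
import Cfsg.Agent.Helper95.UBNDefs
import Cfsg.Agent.Helper20.UBNRoot

/-!
# Piece RK1S of CALL S2546: rank one computation, short root
-/

set_option autoImplicit false
set_option linter.unusedSimpArgs false
open Matrix Cfsg.Agent.Helper95.UBN

namespace Cfsg.Agent.Helper20.UBN

variable {F : Type*} [Field F] {n : ℕ}

set_option maxHeartbeats 1600000 in
theorem p_RK1S (τ : F →+* F) (hτ : ∀ x, τ (τ x) = x) (j : Fin (n / 2)) (hj : j.1 + 1 < n / 2)
    (x : Matrix.SpecialLinearGroup (Fin n) F) (hx : x ∈ UG τ n) (hsh : XSh (sigP j) x.1)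
    (hx1 : x ≠ 1) :
    ∃ y : Matrix.SpecialLinearGroup (Fin n) F, y ∈ UG τ n ∧ YSh (sigP j) y.1 ∧
      ∀ a b, sigP j b < a → (y * x⁻¹).1 a b = 0 := by
  have hσ := sig_val_short j hj
  obtain ⟨a, ha⟩ : ∃ a : Fin n, a = ia j := ⟨_, rfl⟩
  obtain ⟨b, hb⟩ : ∃ b : Fin n, b = ib j := ⟨_, rfl⟩
  have hav : a.1 = j.1 := by rw [ha]; rfl
  have hbv : b.1 = j.1 + 1 := by rw [hb]; unfold ib; rw [dif_pos hj]
  have hav' : (Fin.rev a).1 = n - (j.1 + 1) := by rw [Fin.val_rev, hav]
  have hbv' : (Fin.rev b).1 = n - (j.1 + 2) := by rw [Fin.val_rev, hbv]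
  have hnv : 2 * j.1 + 4 ≤ n := by omega
  have hab : a ≠ b := by intro h; have := congrArg Fin.val h; omega
  have haa' : a ≠ Fin.rev a := by intro h; have := congrArg Fin.val h; omega
  have hab' : a ≠ Fin.rev b := by intro h; have := congrArg Fin.val h; omega
  have hba' : b ≠ Fin.rev a := by intro h; have := congrArg Fin.val h; omega
  have hbb' : b ≠ Fin.rev b := by intro h; have := congrArg Fin.val h; omega
  have ha'b' : Fin.rev a ≠ Fin.rev b := by intro h; have := congrArg Fin.val h; omega
  -- shape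
  have hx0 : ∀ r s, r ≠ s → ¬ (r = a ∧ s = b) → ¬ (r = Fin.rev b ∧ s = Fin.rev a) →
      x.1 r s = 0 := by
    intro r s hrs h1 h2
    by_contra h
    obtain ⟨hlt, hσlt⟩ := hsh.2 r s hrs h
    rw [Fin.lt_def] at hlt hσlt
    rw [hσ r, hσ s] at hσlt
    simp only [Fin.ext_iff] at h1 h2 hrs
    split_ifs at hσlt <;> omega
  obtain ⟨t, ht⟩ : ∃ t, t = x.1 a b := ⟨_, rfl⟩
  obtain ⟨w, hw⟩ : ∃ w, w = x.1 (Fin.rev b) (Fin.rev a) := ⟨_, rfl⟩
  have hxform0 : x.1 = 1 + Matrix.single a b t + Matrix.single (Fin.rev b) (Fin.rev a) w := by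
    ext r s
    rw [Matrix.add_apply, Matrix.add_apply, Matrix.one_apply, Matrix.single_apply,
      Matrix.single_apply]
    by_cases h1 : r = a ∧ s = b
    · obtain ⟨rfl, rfl⟩ := h1
      rw [if_neg hab, if_pos ⟨rfl, rfl⟩, if_neg (fun h => hab' h.1.symm), zero_add, add_zero, ht]
    · by_cases h2 : r = Fin.rev b ∧ s = Fin.rev a
      · obtain ⟨rfl, rfl⟩ := h2
        rw [if_neg ha'b'.symm, if_neg (fun h => hab' h.1), if_pos ⟨rfl, rfl⟩, zero_add, zero_add,
          hw]
      · by_cases hrs : r = s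
        · subst hrs
          rw [if_pos rfl, if_neg (fun h => h1 ⟨h.1.symm, h.2.symm⟩),
            if_neg (fun h => h2 ⟨h.1.symm, h.2.symm⟩), add_zero, add_zero]
          exact hsh.1 r
        · rw [if_neg hrs, if_neg (fun h => h1 ⟨h.1.symm, h.2.symm⟩),
            if_neg (fun h => h2 ⟨h.1.symm, h.2.symm⟩), add_zero, add_zero]
          exact hx0 r s hrs h1 h2
  -- unitarity relation
  have hrel : t + τ w = 0 := by
    have hU : uinv τ x.1 * x.1 = 1 := isU_of_mem hx
    rw [hxform0, rt_uinv_add, rt_uinv_add, uinv_one, rt_uinv_single, rt_uinv_single, Fin.rev_rev,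
      Fin.rev_rev] at hU
    have e : ∀ A B A' B' : Matrix (Fin n) (Fin n) F, (1 + B + A) * (1 + A' + B') =
        1 + A' + B' + B + A + B * A' + B * B' + A * A' + A * B' := by intros; noncomm_ring
    rw [e, Matrix.single_mul_single_of_ne (h := haa'.symm),
      Matrix.single_mul_single_of_ne (h := ha'b'), Matrix.single_mul_single_of_ne (h := hab.symm),
      Matrix.single_mul_single_of_ne (h := hbb')] at hU
    have := congrFun (congrFun hU a) b
    simp only [Matrix.add_apply, Matrix.one_apply, Matrix.single_apply, Matrix.zero_apply] at this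
    have h9 : ¬ (Fin.rev b = a ∧ Fin.rev a = b) := fun h => hab' h.1.symm
    simp only [if_neg hab, if_neg h9, and_self, if_true, add_zero, zero_add] at this
    linear_combination this
  have hw' : w = -τ t := by
    have := congrArg τ hrel
    rw [map_add, hτ, map_zero] at this
    linear_combination this
  have hxform : x.1 = rootS τ a b t := by
    rw [hxform0, hw']
    unfold rootS
    ext r s
    simp only [Matrix.add_apply, Matrix.sub_apply, Matrix.one_apply, Matrix.single_apply]
    split_ifs <;> ring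
  have ht0 : t ≠ 0 := by
    intro h
    apply hx1
    apply Subtype.ext
    rw [hxform, h, rootS_zero]; rfl
  refine ⟨(⟨rootS τ b a t⁻¹, rootS_det τ b a hab.symm haa' _⟩ :
    Matrix.SpecialLinearGroup (Fin n) F), ?_, ?_, ?_⟩
  · apply (mem_UG_iff hτ _).mpr
    exact rootS_isU τ hτ b a hab.symm haa' hbb' _
  · -- YSh
    constructor
    · intro r
      show rootS τ b a t⁻¹ r r = 1
      unfold rootS
      rw [Matrix.sub_apply, Matrix.add_apply, Matrix.one_apply, if_pos rfl, Matrix.single_apply,
        Matrix.single_apply, if_neg, if_neg, add_zero, sub_zero]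
      · rintro ⟨h1, h2⟩; exact ha'b' (h1.trans h2.symm)
      · rintro ⟨h1, h2⟩; exact hab (h2.trans h1.symm)
    · intro r s hrs hne
      have hne' : rootS τ b a t⁻¹ r s ≠ 0 := hne
      unfold rootS at hne'
      rw [Matrix.sub_apply, Matrix.add_apply, Matrix.one_apply, if_neg hrs, Matrix.single_apply,
        Matrix.single_apply, zero_add] at hne'
      by_cases h1 : b = r ∧ a = s
      · obtain ⟨rfl, rfl⟩ := h1
        rw [Fin.lt_def, Fin.lt_def, hσ, hσ]
        constructor
        · omega
        · split_ifs <;> omega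
      · by_cases h2 : Fin.rev a = r ∧ Fin.rev b = s
        · obtain ⟨rfl, rfl⟩ := h2
          rw [Fin.lt_def, Fin.lt_def, hσ, hσ]
          constructor
          · omega
          · split_ifs <;> omega
        · rw [if_neg h1, if_neg h2, sub_zero] at hne'
          exact absurd rfl hne'
  · -- zero pattern
    intro r s hlt
    show (rootS τ b a t⁻¹ * (x⁻¹).1) r s = 0
    rw [inv_eq_uinv hx, hxform, rootS_uinv τ hτ]
    have e : rootS τ b a t⁻¹ * rootS τ a b (-t) = 1 + Matrix.single a b (-t) -
        Matrix.single (Fin.rev b) (Fin.rev a) (τ (-t)) + Matrix.single b a t⁻¹ -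
        Matrix.single (Fin.rev a) (Fin.rev b) (τ t⁻¹) + Matrix.single b b (-1) +
        Matrix.single (Fin.rev a) (Fin.rev a) (-1) := by
      unfold rootS
      have e : ∀ C D A B : Matrix (Fin n) (Fin n) F, (1 + C - D) * (1 + A - B) =
          1 + A - B + C - D + C * A - C * B - D * A + D * B := by intros; noncomm_ring
      rw [e, Matrix.single_mul_single_same, Matrix.single_mul_single_of_ne (h := hab'),
        Matrix.single_mul_single_of_ne (h := hab'.symm), Matrix.single_mul_single_same]
      have h1 : t⁻¹ * -t = -1 := by field_simp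
      have h2 : τ t⁻¹ * τ (-t) = -1 := by rw [← map_mul, h1, map_neg, map_one]
      rw [h1, h2]; simp
    rw [e]
    rw [Fin.lt_def, hσ s] at hlt
    simp only [Matrix.add_apply, Matrix.sub_apply, Matrix.one_apply, Matrix.single_apply]
    by_cases hrs : r = s
    · subst hrs
      have : r = b ∨ r = Fin.rev a := by
        rw [Fin.ext_iff, Fin.ext_iff]; split_ifs at hlt <;> omega
      rcases this with rfl | rfl
      · simp [hab, hab.symm, haa', haa'.symm, hab', hab'.symm, hba', hba'.symm, hbb', hbb'.symm,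
          ha'b', ha'b'.symm]
      · simp [hab, hab.symm, haa', haa'.symm, hab', hab'.symm, hba', hba'.symm, hbb', hbb'.symm,
          ha'b', ha'b'.symm]
    · have h1 : ¬ (a = r ∧ b = s) := by
        rw [Fin.ext_iff, Fin.ext_iff]; split_ifs at hlt <;> omega
      have h2 : ¬ (Fin.rev b = r ∧ Fin.rev a = s) := by
        rw [Fin.ext_iff, Fin.ext_iff]; split_ifs at hlt <;> omega
      have h3 : ¬ (b = r ∧ a = s) := by
        rw [Fin.ext_iff, Fin.ext_iff]; split_ifs at hlt <;> omega
      have h4 : ¬ (Fin.rev a = r ∧ Fin.rev b = s) := by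
        rw [Fin.ext_iff, Fin.ext_iff]; split_ifs at hlt <;> omega
      have h5 : ¬ (b = r ∧ b = s) := fun h => hrs (h.1.symm.trans h.2)
      have h6 : ¬ (Fin.rev a = r ∧ Fin.rev a = s) := fun h => hrs (h.1.symm.trans h.2)
      rw [if_neg hrs, if_neg h1, if_neg h2, if_neg h3, if_neg h4, if_neg h5, if_neg h6]; simp

end Cfsg.Agent.Helper20.UBN
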