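import Mathlib
import Cfsg.Agent.Helper95.UBNDefs

/-!
# Piece SGEX of CALL S2546: monomial unitary representatives of the simple reflections
-/

set_option autoImplicit false
open Matrix Cfsg.Agent.Helper95.UBN

namespace Cfsg.Agent.Helper20.UBN

variable {F : Type*} [Field F] {n : ℕ}

theorem sgex_perm_apply (π : Equiv.Perm (Fin n)) (a b : Fin n) :
    (π⁻¹.permMatrix F) a b = if a = π b then 1 else 0 := by
  rw [Equiv.Perm.permMatrix, PEquiv.toMatrix_apply, Equiv.toPEquiv_apply]
  by_cases h : a = π b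
  · rw [if_pos h, if_pos]
    rw [h]; simp
  · rw [if_neg h, if_neg]
    intro h'
    apply h
    have h2 : π⁻¹ a = b := by simpa using h'
    rw [← h2]; simp

/-- generic monomial unitary matrix. -/
theorem sgex_core (τ : F →+* F) (hτ : ∀ x, τ (τ x) = x) (π : Equiv.Perm (Fin n))
    (hπ : ∀ b, π (Fin.rev b) = Fin.rev (π b)) (d : Fin n → F)
    (hd : ∀ b, τ (d (Fin.rev b)) * d b = 1)
    (hdet : (((Equiv.Perm.sign π : ℤˣ) : ℤ) : F) * ∏ i, d i = 1) :
    ∃ g : Matrix.SpecialLinearGroup (Fin n) F, g ∈ UG τ n ∧ Pat g.1 π := by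
  have hM : ∀ a b, (π⁻¹.permMatrix F * Matrix.diagonal d) a b = if a = π b then d b else 0 := by
    intro a b
    rw [Matrix.mul_diagonal, sgex_perm_apply]
    split_ifs <;> simp
  have hdet' : (π⁻¹.permMatrix F * Matrix.diagonal d).det = 1 := by
    rw [Matrix.det_mul, Matrix.det_permutation, Matrix.det_diagonal, Equiv.Perm.sign_inv]
    exact hdet
  refine ⟨(⟨π⁻¹.permMatrix F * Matrix.diagonal d, hdet'⟩ :
    Matrix.SpecialLinearGroup (Fin n) F), ?_, ?_⟩
  · apply (mem_UG_iff hτ _).mpr
    apply (isU_iff _ _).mpr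
    intro a b
    show ∑ k, τ ((π⁻¹.permMatrix F * Matrix.diagonal d) (Fin.rev k) (Fin.rev a)) *
      (π⁻¹.permMatrix F * Matrix.diagonal d) k b = _
    rw [Finset.sum_eq_single (π b)]
    · rw [hM, hM, if_pos rfl, hπ]
      by_cases hab : a = b
      · subst hab
        rw [if_pos rfl, if_pos rfl]
        exact hd a
      · rw [if_neg hab, if_neg, map_zero, zero_mul]
        intro h
        exact hab (π.injective (Fin.rev_injective h)).symm
    · intro k _ hk
      rw [hM k b, if_neg hk, mul_zero]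
    · intro h; exact absurd (Finset.mem_univ _) h
  · intro a b hab
    have : (π⁻¹.permMatrix F * Matrix.diagonal d) a b ≠ 0 := hab
    rw [hM] at this
    by_contra h
    rw [if_neg h] at this
    exact this rfl

theorem sgex_swap_rev (a b y : Fin n) :
    Equiv.swap a b (Fin.rev y) = Fin.rev (Equiv.swap (Fin.rev a) (Fin.rev b) y) := by
  have := Fin.rev_injective.swap_apply a b (Fin.rev y)
  rw [Fin.rev_rev] at this
  rw [this, Fin.rev_rev]

theorem sgex_ia_lt_rev (j : Fin (n / 2)) : (ia j : Fin n) < Fin.rev (ia j) := by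
  rw [Fin.lt_def, Fin.val_rev]
  have := j.2
  show j.1 < n - (j.1 + 1)
  omega

theorem p_SGEX (τ : F →+* F) (hτ : ∀ x, τ (τ x) = x) (e : F) (he : e ≠ 0) (hτe : τ e = -e)
    (j : Fin (n / 2)) :
    ∃ g : Matrix.SpecialLinearGroup (Fin n) F, g ∈ UG τ n ∧ Pat g.1 (sigP j) := by
  by_cases hj : j.1 + 1 < n / 2
  · -- short case
    have hib : (ib j : Fin n) = ⟨j.1 + 1, by omega⟩ := by
      unfold ib; rw [dif_pos hj]
    have hsig : sigP j = Equiv.swap (ia j) (ib j) * Equiv.swap (Fin.rev (ia j)) (Fin.rev (ib j)) := by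
      unfold sigP; rw [if_pos hj]
    have h1 : (ia j : Fin n) ≠ ib j := by
      rw [hib]; intro h
      have := congrArg Fin.val h
      simp [ia] at this
    have h2 : Fin.rev (ia j : Fin n) ≠ Fin.rev (ib j) := fun h => h1 (Fin.rev_injective h)
    have hnd : [ia j, ib j, Fin.rev (ia j : Fin n), Fin.rev (ib j)].Nodup := by
      have hv1 : (ia j : Fin n).1 = j.1 := rfl
      have hv2 : (ib j : Fin n).1 = j.1 + 1 := by rw [hib]
      have hv3 : (Fin.rev (ia j : Fin n)).1 = n - (j.1 + 1) := by rw [Fin.val_rev]; rfl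
      have hv4 : (Fin.rev (ib j : Fin n)).1 = n - (j.1 + 1 + 1) := by rw [Fin.val_rev, hv2]
      simp only [List.nodup_cons, List.mem_cons, List.not_mem_nil, or_false, not_or,
        List.nodup_nil, and_true, not_false_eq_true]
      refine ⟨⟨?_, ?_, ?_⟩, ⟨?_, ?_⟩, ?_⟩ <;> intro h <;> have := congrArg Fin.val h <;> omega
    have hcomm := (Equiv.Perm.disjoint_swap_swap hnd).commute
    apply sgex_core τ hτ (sigP j) _ (fun _ => 1)
    · intro b; simp
    · rw [hsig, Equiv.Perm.sign_mul, Equiv.Perm.sign_swap h1, Equiv.Perm.sign_swap h2]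
      simp
    · intro b
      rw [hsig, Equiv.Perm.mul_apply, Equiv.Perm.mul_apply]
      rw [Fin.rev_injective.swap_apply, sgex_swap_rev]
      congr 1
      have := congrArg (fun f => f b) hcomm.eq
      simpa [Equiv.Perm.mul_apply] using this.symm
  · -- last case
    have hib : (ib j : Fin n) = Fin.rev (ia j) := by
      unfold ib; rw [dif_neg hj]
    have hsig : sigP j = Equiv.swap (ia j) (Fin.rev (ia j)) := by
      unfold sigP; rw [if_neg hj, hib]
    have hne : (ia j : Fin n) ≠ Fin.rev (ia j) := (sgex_ia_lt_rev j).ne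
    have hτe0 : τ e ≠ 0 := by rw [hτe]; exact neg_ne_zero.mpr he
    obtain ⟨d, hd⟩ : ∃ d : Fin n → F, d = fun b =>
        if b = ia j then e else if b = Fin.rev (ia j) then (τ e)⁻¹ else 1 := ⟨_, rfl⟩
    have hda : d (ia j) = e := by rw [hd]; simp
    have hdr : d (Fin.rev (ia j)) = (τ e)⁻¹ := by
      rw [hd]
      show (if Fin.rev (ia j) = ia j then e else
        if Fin.rev (ia j : Fin n) = Fin.rev (ia j) then (τ e)⁻¹ else 1) = _
      rw [if_neg hne.symm, if_pos rfl]
    have hdo : ∀ b, b ≠ ia j → b ≠ Fin.rev (ia j) → d b = 1 := by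
      intro b h1 h2
      rw [hd]
      show (if b = ia j then e else if b = Fin.rev (ia j) then (τ e)⁻¹ else 1) = _
      rw [if_neg h1, if_neg h2]
    apply sgex_core τ hτ (sigP j) _ d
    · intro b
      by_cases hb1 : b = ia j
      · rw [hb1, hdr, hda, map_inv₀, hτ]
        exact inv_mul_cancel₀ he
      · by_cases hb2 : b = Fin.rev (ia j)
        · rw [hb2, Fin.rev_rev, hda, hdr]
          exact mul_inv_cancel₀ hτe0
        · rw [hdo b hb1 hb2, hdo (Fin.rev b), map_one, mul_one]
          · intro h; apply hb2; rw [← h, Fin.rev_rev]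
          · intro h; exact hb1 (Fin.rev_injective h)
    · rw [hsig, Equiv.Perm.sign_swap hne]
      have hprod : ∏ i, d i = e * (τ e)⁻¹ := by
        rw [← Finset.prod_subset (Finset.subset_univ {ia j, Fin.rev (ia j)})]
        · rw [Finset.prod_pair hne, hda, hdr]
        · intro x _ hx
          simp only [Finset.mem_insert, Finset.mem_singleton, not_or] at hx
          exact hdo x hx.1 hx.2
      rw [hprod, hτe]
      have : e * (-e)⁻¹ = -1 := by
        field_simp
      rw [this]; simp
    · intro b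
      rw [hsig]
      rw [sgex_swap_rev, Fin.rev_rev, Equiv.swap_comm]

end Cfsg.Agent.Helper20.UBN
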